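import Cfsg.Agent.Br.Base1
import Cfsg.Agent.Unit.Order

/-!
# Brauer's characterisation of `PSU₃(q)`: the local hypothesis
-/

set_option autoImplicit false
set_option linter.unusedSectionVars false

open Cfsg Subgroup CA.Br Cfsg.Agent.Unit

namespace CA.Bu

universe u v

variable {K : Type v} [Field K] [StarRing K]

/-- the hyperbolic hermitian form on `K²` -/
def hyp (x y : Fin 2 → K) : K := x 0 * star (y 1) + x 1 * star (y 0)

/-- `GU₂(q)` for the hyperbolic form -/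
def U2 (K : Type v) [Field K] [StarRing K] : Subgroup (GL (Fin 2) K) :=
  preserving (Units.coeHom (Matrix (Fin 2) (Fin 2) K)) hyp

theorem mem_U2 {g : GL (Fin 2) K} : g ∈ U2 K ↔ g 0 0 * star (g 1 0) + g 1 0 * star (g 0 0) = 0 ∧
    g 0 1 * star (g 1 1) + g 1 1 * star (g 0 1) = 0 ∧ g 0 0 * star (g 1 1) + g 1 0 * star (g 0 1) = 1 := by
  refine ⟨fun h => ⟨?_, ?_, ?_⟩, fun ⟨h1, h2, h3⟩ x y => ?_⟩
  · simpa [hyp, Matrix.mulVec, dotProduct] using h ![1, 0] ![1, 0]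
  · simpa [hyp, Matrix.mulVec, dotProduct] using h ![0, 1] ![0, 1]
  · simpa [hyp, Matrix.mulVec, dotProduct] using h ![1, 0] ![0, 1]
  · have h4 := congrArg star h3
    simp only [star_add, star_mul', star_star, star_one] at h4
    simp only [hyp, Units.coeHom_apply, Matrix.mulVec, dotProduct, Fin.sum_univ_two, star_add, star_mul']
    linear_combination x 0 * star (y 0) * h1 + x 1 * star (y 1) * h2 + x 0 * star (y 1) * h3 + x 1 * star (y 0) * h4

/-- `diag(a, ā⁻¹)` -/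
noncomputable def dU (a : Kˣ) : U2 K := ⟨dg a (star a)⁻¹, mem_U2.2 (by simp)⟩

/-- `!![1,s;0,1]` for `s̄ = -s` -/
noncomputable def xU (s : K) (hs : star s = -s) : U2 K := ⟨xp s, mem_U2.2 (by simp [hs])⟩

/-- `!![1,0;s,1]` for `s̄ = -s` -/
noncomputable def yU (s : K) (hs : star s = -s) : U2 K := ⟨xm s, mem_U2.2 (by simp [hs])⟩

/-- `-1` -/
noncomputable def tU (K : Type v) [Field K] [StarRing K] : U2 K := ⟨dg (-1) (-1), mem_U2.2 (by simp)⟩

/-- `!![0,1;1,0]` -/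
noncomputable def uU (K : Type v) [Field K] [StarRing K] : U2 K := ⟨ww K, mem_U2.2 (by simp)⟩

variable {G : Type u} [Group G] (φ : U2 K →* G)

/-- the image of `A ∩ GU₂` -/
noncomputable def im (A : Subgroup (GL (Fin 2) K)) : Subgroup G := (A.subgroupOf (U2 K)).map φ

theorem mem_im {A : Subgroup (GL (Fin 2) K)} {x : G} : x ∈ im φ A ↔ ∃ g : U2 K, g.1 ∈ A ∧ φ g = x := Iff.rfl

/-- the central involution `t = φ(-1)` -/
noncomputable def tt : G := φ (tU K)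
/-- `u = φ(!![0,1;1,0])` -/
noncomputable def uu : G := φ (uU K)
/-- the image of the scalars -/
noncomputable def Zt : Subgroup G := im φ (center (GL (Fin 2) K))
/-- the cyclic torus `{diag(a, ā⁻¹)}`, of order `(q-1)|Z|` -/
noncomputable def Yt : Subgroup G := im φ dgH.range
/-- the torus `{!![a,b;b,a]} = C(u)`, of order `(q+1)|Z|` -/
noncomputable def Tt : Subgroup G := im φ (nsT 1)
/-- the image of `SU₂(q)` -/
noncomputable def Lt : Subgroup G := im φ (Matrix.GeneralLinearGroup.det).ker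
/-- `T ∩ SU₂`, of order `q + 1` -/
noncomputable def Ht : Subgroup G := im φ (nsT 1 ⊓ (Matrix.GeneralLinearGroup.det).ker)
/-- `Y ∩ SU₂`, of order `q - 1` -/
noncomputable def Y1t : Subgroup G := im φ (dgH.range ⊓ (Matrix.GeneralLinearGroup.det).ker)
/-- upper root group -/
noncomputable def Xp : Subgroup G := im φ xpH.range
/-- lower root group -/
noncomputable def Xm : Subgroup G := im φ xmH.range
/-- `Z X` -/
noncomputable def Ut : Subgroup G := Zt φ ⊔ Xp φ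

/-- `K = F_{q²}`, `q` odd, `φ` has a central kernel of odd order -/
structure UK (q : ℕ) : Prop where
  fq : FQ K q
  odd : Odd q
  kerc : ∀ g, φ g = 1 → g.1 ∈ center (GL (Fin 2) K)
  kero : Odd (Nat.card φ.ker)

/-- Brauer's local hypothesis: `C(t) = GU₂(q)/Z` and `t` is fused to a non-central involution -/
structure BU (q : ℕ) : Prop extends UK φ q where
  rng : φ.range = centralizer {tt φ}
  fus : IsConj (tt φ) (uu φ)

/-- `r` permutes `t → u → t u → t` -/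
structure Rho (r : G) : Prop where
  rt : r * tt φ * r⁻¹ = uu φ
  ru : r * uu φ * r⁻¹ = tt φ * uu φ

theorem realizeEqns_Bu_Defs : True := by
  have := @CA.Bu.dU.eq_1.{0}
  have := @CA.Bu.dU.eq_def.{0}
  have := @CA.Bu.dU.congr_simp.{0}
  have := @CA.Bu.Xp.eq_1.{0,0}
  have := @CA.Bu.Xp.eq_def.{0,0}
  have := @CA.Bu.Xp.congr_simp.{0,0}
  have := @CA.Bu.Y1t.eq_1.{0,0}
  have := @CA.Bu.Y1t.eq_def.{0,0}
  have := @CA.Bu.Y1t.congr_simp.{0,0}
  have := @CA.Bu.Yt.eq_1.{0,0}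
  have := @CA.Bu.Yt.eq_def.{0,0}
  have := @CA.Bu.Yt.congr_simp.{0,0}
  have := @CA.Bu.tU.eq_1.{0}
  have := @CA.Bu.tU.eq_def.{0}
  have := @CA.Bu.tU.congr_simp.{0}
  have := @CA.Bu.hyp.eq_1.{0}
  have := @CA.Bu.hyp.eq_def.{0}
  have := @CA.Bu.hyp.congr_simp.{0}
  have := @CA.Bu.Ht.eq_1.{0,0}
  have := @CA.Bu.Ht.eq_def.{0,0}
  have := @CA.Bu.Ht.congr_simp.{0,0}
  have := @CA.Bu.uU.eq_1.{0}
  have := @CA.Bu.uU.eq_def.{0}
  have := @CA.Bu.uU.congr_simp.{0}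
  have := @CA.Bu.Tt.eq_1.{0,0}
  have := @CA.Bu.Tt.eq_def.{0,0}
  have := @CA.Bu.Tt.congr_simp.{0,0}
  have := @CA.Bu.U2.eq_1.{0}
  have := @CA.Bu.U2.eq_def.{0}
  have := @CA.Bu.U2.congr_simp.{0}
  have := @CA.Bu.tt.eq_1.{0,0}
  have := @CA.Bu.tt.eq_def.{0,0}
  have := @CA.Bu.tt.congr_simp.{0,0}
  have := @CA.Bu.Ut.eq_1.{0,0}
  have := @CA.Bu.Ut.eq_def.{0,0}
  have := @CA.Bu.Ut.congr_simp.{0,0}
  have := @CA.Bu.Zt.eq_1.{0,0}
  have := @CA.Bu.Zt.eq_def.{0,0}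
  have := @CA.Bu.Zt.congr_simp.{0,0}
  have := @CA.Bu.yU.eq_1.{0}
  have := @CA.Bu.yU.eq_def.{0}
  have := @CA.Bu.yU.congr_simp.{0}
  have := @CA.Bu.xU.eq_1.{0}
  have := @CA.Bu.xU.eq_def.{0}
  have := @CA.Bu.xU.congr_simp.{0}
  have := @CA.Bu.uu.eq_1.{0,0}
  have := @CA.Bu.uu.eq_def.{0,0}
  have := @CA.Bu.uu.congr_simp.{0,0}
  have := @CA.Bu.im.eq_1.{0,0}
  have := @CA.Bu.im.eq_def.{0,0}
  have := @CA.Bu.im.congr_simp.{0,0}
  have := @CA.Bu.Xm.eq_1.{0,0}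
  have := @CA.Bu.Xm.eq_def.{0,0}
  have := @CA.Bu.Xm.congr_simp.{0,0}
  have := @CA.Bu.Lt.eq_1.{0,0}
  have := @CA.Bu.Lt.eq_def.{0,0}
  have := @CA.Bu.Lt.congr_simp.{0,0}
  trivial

end CA.Bu
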