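import Cfsg.Agent.Br.Base3
import Cfsg.Agent.Bu.Defs

/-!
# Matrix computations in `GU₂(q)` and the abstract shape `CS`
-/

set_option autoImplicit false
set_option linter.unusedSectionVars false

open Cfsg Subgroup CA.Dih CA.FG CA.Br Cfsg.Agent.Unit

namespace CA.Bu

universe u v

variable {K : Type v} [Field K] [StarRing K] {q : ℕ}

local notation "dt" => Matrix.GeneralLinearGroup.det

section Mat

variable {g c m : GL (Fin 2) K}

theorem mem_U2' : g ∈ U2 K ↔ (dt g : K) * star (g 0 0) = g 0 0 ∧ (dt g : K) * star (g 0 1) = - g 0 1 ∧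
    (dt g : K) * star (g 1 0) = - g 1 0 ∧ (dt g : K) * star (g 1 1) = g 1 1 := by
  rw [mem_U2, det_ent]
  refine ⟨fun ⟨a, b, c⟩ => ?_, fun ⟨a, b, c, d⟩ => ⟨mul_left_cancel₀ (dne g) ?_, mul_left_cancel₀ (dne g) ?_,
    mul_left_cancel₀ (dne g) ?_⟩⟩
  · have d := congrArg star c
    simp only [star_add, star_mul', star_star, star_one] at d
    exact ⟨by linear_combination g 0 0 * d - g 0 1 * a, by linear_combination g 0 0 * b - g 0 1 * c,
      by linear_combination g 1 1 * a - g 1 0 * d, by linear_combination g 1 1 * c - g 1 0 * b⟩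
  · linear_combination g 0 0 * c + g 1 0 * a
  · linear_combination g 0 1 * d + g 1 1 * b
  · linear_combination g 0 0 * d + g 1 0 * b

theorem det_norm (h : g ∈ U2 K) : (dt g : K) * star (dt g : K) = 1 := by
  obtain ⟨a, b, c, d⟩ := mem_U2'.1 h
  refine mul_left_cancel₀ (dt g).ne_zero ?_
  nth_rewrite 3 [det_ent]
  nth_rewrite 3 [det_ent]
  simp only [star_sub, star_mul']
  linear_combination (dt g : K) * star (g 1 1) * a + g 0 0 * d - (dt g : K) * star (g 1 0) * b + g 0 1 * c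

/-- entries of an element of `SU₂` -/
theorem su_ent (h : g ∈ U2 K) (d : dt g = 1) :
    star (g 0 0) = g 0 0 ∧ star (g 0 1) = - g 0 1 ∧ star (g 1 0) = - g 1 0 ∧ star (g 1 1) = g 1 1 := by
  simpa [d] using mem_U2'.1 h

/-- entries of an element of determinant `-1` -/
theorem neg_ent (h : g ∈ U2 K) (d : dt g = -1) :
    star (g 0 0) = - g 0 0 ∧ star (g 0 1) = g 0 1 ∧ star (g 1 0) = g 1 0 ∧ star (g 1 1) = - g 1 1 := by
  simpa [d, neg_eq_iff_eq_neg] using mem_U2'.1 h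

theorem dg_U2 {a d : Kˣ} : dg a d ∈ U2 K ↔ (a : K) * star (d : K) = 1 := by simp [mem_U2]

theorem xp_U2 {a : K} : xp a ∈ U2 K ↔ star a = -a := by
  simp [mem_U2, add_eq_zero_iff_eq_neg']

theorem xm_U2 {a : K} : xm a ∈ U2 K ↔ star a = -a := by
  simp [mem_U2, ← add_eq_zero_iff_eq_neg, add_comm]

@[simp] theorem dU_val (a : Kˣ) : (dU a).1 = dg a (star a)⁻¹ := rfl
@[simp] theorem xU_val (s : K) (hs : star s = -s) : (xU s hs).1 = xp s := rfl
@[simp] theorem yU_val (s : K) (hs : star s = -s) : (yU s hs).1 = xm s := rfl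
@[simp] theorem tU_val : (tU K).1 = dg (-1) (-1) := rfl
@[simp] theorem uU_val : (uU K).1 = ww K := rfl

/-- `dU` as a homomorphism -/
noncomputable def dUH : Kˣ →* U2 K where
  toFun := dU
  map_one' := Subtype.ext (by simp [dg_one])
  map_mul' a b := Subtype.ext (by simp [dg_mul, mul_comm])

theorem dU_mul (a b : Kˣ) : dU a * dU b = dU (a * b) := (map_mul dUH a b).symm

theorem dU_one : dU (1 : Kˣ) = 1 := map_one dUH

theorem dU_inv (a : Kˣ) : (dU a)⁻¹ = dU a⁻¹ := (map_inv dUH a).symm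

theorem dU_pow (a : Kˣ) (n : ℕ) : dU a ^ n = dU (a ^ n) := (map_pow dUH a n).symm

theorem dU_inj {a b : Kˣ} (h : dU a = dU b) : a = b := (dg_inj (congrArg Subtype.val h)).1

theorem star_neg_one : star (-1 : Kˣ) = -1 := Units.ext (by simp)

theorem dU_neg : dU (-1 : Kˣ) = tU K := Subtype.ext (by simp [star_neg_one])

theorem mem_dU {g : U2 K} : g.1 ∈ (dgH (F := K)).range ↔ ∃ a, g = dU a := by
  refine ⟨fun ⟨⟨a, d⟩, h⟩ => ⟨a, Subtype.ext ?_⟩, by rintro ⟨a, rfl⟩; exact ⟨_, rfl⟩⟩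
  have k : (a : K) * star (d : K) = 1 := dg_U2.1 (show dgH (a, d) ∈ _ from h ▸ g.2)
  have k := congrArg star k
  simp only [star_mul', star_star, star_one] at k
  rw [← h, dU_val, show (star a)⁻¹ = d from inv_eq_of_mul_eq_one_right (Units.ext k)]; rfl

theorem cen_dU {g : U2 K} : g.1 ∈ center (GL (Fin 2) K) ↔ ∃ a : Kˣ, (a : K) * star (a : K) = 1 ∧ g = dU a := by
  refine ⟨fun h => ?_, ?_⟩
  · obtain ⟨a, k⟩ := mem_cen'.1 h
    have n : (a : K) * star (a : K) = 1 := dg_U2.1 (k ▸ g.2)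
    exact ⟨a, n, Subtype.ext (by rw [k, dU_val, show (star a)⁻¹ = a from inv_eq_of_mul_eq_one_left (Units.ext n)])⟩
  · rintro ⟨a, n, rfl⟩
    rw [dU_val, show (star a)⁻¹ = a from inv_eq_of_mul_eq_one_left (Units.ext n)]; exact dg_cen a

theorem det_dU (a : Kˣ) : dt (dU a).1 = a * (star a)⁻¹ := det_dg _ _

theorem u_dU (a : Kˣ) : uU K * dU a * (uU K)⁻¹ = dU (star a)⁻¹ := Subtype.ext (by simpa using ww_dg a (star a)⁻¹)

theorem dU_xU (a : Kˣ) (s : K) (hs : star s = -s) :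
    dU a * xU s hs * (dU a)⁻¹ = xU (a * star (a : K) * s) (by simp [hs, mul_comm]) :=
  Subtype.ext (by simpa [mul_right_comm] using dg_xp a (star a)⁻¹ s)

theorem u_xU (s : K) (hs : star s = -s) : uU K * xU s hs * (uU K)⁻¹ = yU s hs := Subtype.ext (ww_xp s)

theorem xU_add (a b : K) (ha : star a = -a) (hb : star b = -b) :
    xU a ha * xU b hb = xU (a + b) (by simp [ha, hb, add_comm]) := Subtype.ext (xp_add a b)

theorem xU_zero (h : star (0 : K) = -0) : xU 0 h = 1 := Subtype.ext xp_zero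

theorem uU_mul : uU K * uU K = 1 := Subtype.ext ww_mul

theorem tU_mul : tU K * tU K = 1 := Subtype.ext (by simp [dg_mul, dg_one])

theorem det_ww : dt (ww K) = -1 := Units.ext (by simp [det_ent])

theorem ww_nsT : ww K ∈ nsT (1 : K) := by simp [mem_nsT]

theorem add_self_div_two' (h2 : (2 : K) ≠ 0) (a : K) : (a + a) / 2 = a := by field_simp; ring

/-- the element of `C(u)` with eigenvalues `a`, `d` -/
noncomputable def tH (h2 : (2 : K) ≠ 0) : Kˣ × Kˣ →* GL (Fin 2) K where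
  toFun a := mk2 ((a.1 + a.2) / 2) ((a.1 - a.2) / 2) ((a.1 - a.2) / 2) ((a.1 + a.2) / 2) (by
    rw [show ∀ x y : K, (x + y) / 2 * ((x + y) / 2) - (x - y) / 2 * ((x - y) / 2) = x * y from
      fun x y => by field_simp; ring]; simp)
  map_one' := by apply gl_ext <;> simp [add_self_div_two' h2]
  map_mul' a b := by apply gl_ext <;> simp [mul_ent] <;> field_simp <;> ring

/-- the element of `C(u)` with eigenvalues `a`, `d` -/
noncomputable def tg (h2 : (2 : K) ≠ 0) (a d : Kˣ) : GL (Fin 2) K := tH h2 (a, d)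

variable {h2 : (2 : K) ≠ 0}

@[simp] theorem tg_val (a d : Kˣ) : ((tg h2 a d : GL (Fin 2) K) : Matrix (Fin 2) (Fin 2) K) =
    !![((a : K) + d) / 2, (a - d) / 2; (a - d) / 2, (a + d) / 2] := rfl

theorem tg_mul (a b c d : Kˣ) : tg h2 a b * tg h2 c d = tg h2 (a * c) (b * d) := (map_mul (tH h2) (a, b) (c, d)).symm

theorem tg_one : tg h2 1 1 = 1 := map_one (tH h2)

theorem tg_inv (a b : Kˣ) : (tg h2 a b)⁻¹ = tg h2 a⁻¹ b⁻¹ := (map_inv (tH h2) (a, b)).symm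

theorem tg_pow (a b : Kˣ) (n : ℕ) : tg h2 a b ^ n = tg h2 (a ^ n) (b ^ n) := (map_pow (tH h2) (a, b) n).symm

theorem tg_inj {a b c d : Kˣ} (h : tg h2 a b = tg h2 c d) : a = c ∧ b = d := by
  have k := congrArg (fun g : GL (Fin 2) K => g 0 0) h
  have l := congrArg (fun g : GL (Fin 2) K => g 0 1) h
  simp [h2] at k l
  exact ⟨Units.ext (mul_left_cancel₀ h2 (by linear_combination k + l)),
    Units.ext (mul_left_cancel₀ h2 (by linear_combination k - l))⟩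

theorem tg_nsT (a d : Kˣ) : tg h2 a d ∈ nsT (1 : K) := by simp [mem_nsT]

theorem exists_tg (h2 : (2 : K) ≠ 0) (h : g ∈ nsT (1 : K)) : ∃ a d, g = tg h2 a d := by
  have d := dne g
  rw [h.1, h.2, show g 1 1 * g 1 1 - g 1 0 * 1 * g 1 0 = (g 1 1 + g 1 0) * (g 1 1 - g 1 0) by ring] at d
  refine ⟨Units.mk0 _ (left_ne_zero_of_mul d), Units.mk0 _ (right_ne_zero_of_mul d), gl_ext ?_ ?_ ?_ ?_⟩ <;>
    simp [h.1, h.2] <;> field_simp <;> ring

theorem tg_self (a : Kˣ) : tg h2 a a = dg a a := by apply gl_ext <;> simp [add_self_div_two' h2]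

theorem tg_ww : tg h2 1 (-1) = ww K := by apply gl_ext <;> simp [add_self_div_two' h2]

theorem det_tg (a d : Kˣ) : dt (tg h2 a d) = a * d := Units.ext (by simp [det_ent]; field_simp; ring)

theorem tg_cen {a d : Kˣ} : tg h2 a d ∈ center (GL (Fin 2) K) ↔ a = d :=
  ⟨fun h => Units.ext (by simpa [h2, sub_eq_zero] using (mem_cen.1 h).1), by rintro rfl; rw [tg_self]; exact dg_cen a⟩

theorem tg_U2 {a d : Kˣ} : tg h2 a d ∈ U2 K ↔ (a : K) * star (a : K) = 1 ∧ (d : K) * star (d : K) = 1 := by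
  simp only [mem_U2, tg_val, Matrix.of_apply, Matrix.cons_val', Matrix.cons_val_zero, Matrix.cons_val_one,
    Matrix.cons_val_fin_one, star_div₀, star_add, star_sub, star_ofNat]
  refine ⟨fun ⟨k, _, l⟩ => ?_, fun ⟨k, l⟩ => ?_⟩
  · field_simp at k l
    exact ⟨mul_left_cancel₀ (mul_ne_zero h2 h2) (by linear_combination k + l),
      mul_left_cancel₀ (mul_ne_zero h2 h2) (by linear_combination l - k)⟩
  · refine ⟨?_, ?_, ?_⟩ <;> field_simp
    · linear_combination 2 * k - 2 * l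
    · linear_combination 2 * k - 2 * l
    · linear_combination 2 * k + 2 * l

theorem u_tg (a d : Kˣ) : dg 1 (-1) * tg h2 a d * (dg 1 (-1))⁻¹ = tg h2 d a := by
  rw [u_inv]; apply gl_ext <;> simp [mul_ent] <;> ring

/-- an involution normalising `T` and exchanging the two eigenvalues -/
def IsW (w : U2 K) : Prop := dg 1 (-1) * w.1 ∈ nsT (1 : K) ∧ dt w.1 = -1

theorem exists_W (hq : FQ K q) (h2 : (2 : K) ≠ 0) : ∃ w : U2 K, IsW w := by
  obtain ⟨i, hi⟩ := hq.exists_norm_eq (c := -1) (by simp)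
  have d : (i - star i) / 2 * -((i - star i) / 2) - (i + star i) / 2 * -((i + star i) / 2) = -1 := by
    field_simp; linear_combination 4 * hi
  have e : dt (mk2 _ _ _ _ (d ▸ neg_ne_zero.2 one_ne_zero)) = -1 := Units.ext (by rw [det_ent]; exact d)
  refine ⟨⟨mk2 _ _ _ _ (d ▸ neg_ne_zero.2 one_ne_zero), mem_U2'.2 ?_⟩, by simp [mem_nsT, mul_ent], e⟩
  rw [e]
  refine ⟨?_, ?_, ?_, ?_⟩ <;> simp <;> ring

namespace IsW

variable {w : U2 K} (hw : IsW w)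
include hw

theorem eq : w.1 = dg 1 (-1) * (dg 1 (-1) * w.1) := by rw [← mul_assoc, dg_mul]; simp [dg_one]

theorem conj (h : g ∈ nsT (1 : K)) : w.1 * g * w.1⁻¹ = dg 1 (-1) * g * (dg 1 (-1))⁻¹ := by
  rw [hw.eq, mul_assoc (dg 1 (-1)), nsT_comm hw.1 h]; group

theorem iff : c * dg 1 (-1) ∈ nsT (1 : K) ↔ c * w.1 ∈ nsT (1 : K) := by
  rw [hw.eq, ← mul_assoc, Subgroup.mul_mem_cancel_right _ hw.1]

theorem sq : w * w = 1 := Subtype.ext (sq_of_tr (by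
  have := hw.1.1; simp [mul_ent] at this; linear_combination this) hw.2)

theorem tg (a d : Kˣ) : w.1 * tg h2 a d * w.1⁻¹ = tg h2 d a := by rw [hw.conj (tg_nsT a d), u_tg]

theorem u (h2 : (2 : K) ≠ 0) : w * uU K * w⁻¹ = tU K * uU K := Subtype.ext (by
  simp only [Subgroup.coe_mul, Subgroup.coe_inv, uU_val, tU_val]
  rw [← tg_ww (h2 := h2), hw.tg, ← tg_self (h2 := h2), tg_mul]; simp)

end IsW

theorem TY1 (h2 : (2 : K) ≠ 0) {g c : U2 K} (hg : g.1 ∈ (dgH (F := K)).range)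
    (hz : g.1 ∉ center (GL (Fin 2) K)) : (c * g * c⁻¹).1 ∉ nsT (1 : K) := fun h => by
  obtain ⟨a, rfl⟩ := mem_dU.1 hg
  obtain ⟨x, y, e⟩ := exists_tg h2 h
  obtain ⟨nx, ny⟩ := tg_U2.1 (e ▸ (c * dU a * c⁻¹).2)
  have tr := tr_conj e
  have de := det_conj e
  simp at tr de
  have : ((a : K) - x) * (a - y) = 0 := by
    generalize (star (a : K))⁻¹ = b at tr de
    field_simp at tr de
    refine mul_left_cancel₀ (mul_ne_zero h2 h2) ?_
    linear_combination 2 * a * tr - de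
  refine hz (cen_dU.2 ⟨a, ?_, rfl⟩)
  rcases mul_eq_zero.1 this with k | k <;> rw [sub_eq_zero.1 k] <;> assumption

theorem hilb90 (hq : FQ K q) {d : Kˣ} (hd : (d : K) * star (d : K) = 1) : ∃ a : Kˣ, a * (star a)⁻¹ = d := by
  obtain ⟨δ, δ0, hδ⟩ := exists_trace_zero hq.exists_star_ne
  simp only [mul_inv_eq_iff_eq_mul]
  by_cases k : 1 + (d : K) = 0
  · exact ⟨Units.mk0 δ δ0, Units.ext (by simp [hδ]; linear_combination δ * k)⟩
  · exact ⟨Units.mk0 _ k, Units.ext (by simp; linear_combination -hd)⟩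

theorem exists_N (hq : FQ K q) {c : Kˣ} (hc : star c = c) : ∃ a : Kˣ, a * star a = c := by
  obtain ⟨a, ha⟩ := hq.exists_norm_eq (c := c) (congrArg Units.val hc)
  exact ⟨Units.mk0 a (left_ne_zero_of_mul (ha ▸ c.ne_zero)), Units.ext ha⟩

/-- `SU₂` is generated by the two root groups -/
theorem SU_le (hq : FQ K q) {N : Subgroup (U2 K)} (hx : ∀ s hs, xU s hs ∈ N) (hy : ∀ s hs, yU s hs ∈ N) {g : U2 K}
    (d : dt g.1 = 1) : g ∈ N := by
  have key : ∀ g : U2 K, dt g.1 = 1 → g.1 1 0 ≠ 0 → g ∈ N := fun g d c => by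
    obtain ⟨a1, -, a3, a4⟩ := su_ent g.2 d
    have e := det_ent g.1
    rw [d, Units.val_one] at e
    rw [show g = xU ((g.1 0 0 - 1) / g.1 1 0) (by simp [a1, a3, div_neg]) * yU _ a3 *
        xU ((g.1 1 1 - 1) / g.1 1 0) (by simp [a4, a3, div_neg]) from
      Subtype.ext (gl_ext ?_ ?_ ?_ ?_)]
    · exact mul_mem (mul_mem (hx _ _) (hy _ _)) (hx _ _)
    all_goals simp [mul_ent]
    all_goals field_simp
    · ring
    · linear_combination e
    · ring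
  by_cases c : g.1 1 0 = 0
  · obtain ⟨δ, δ0, hδ⟩ := exists_trace_zero hq.exists_star_ne
    refine (Subgroup.mul_mem_cancel_left _ (hy δ hδ)).1 (key _ (by simp [d, det_xm]) ?_)
    have e := dne g.1
    rw [c, mul_zero, sub_zero] at e
    simpa [mul_ent, c, δ0] using left_ne_zero_of_mul e
  · exact key g d c

theorem fq_q (hq : FQ K q) : (q : K) = 0 := by
  have := hq.finite
  have := Fintype.ofFinite K
  have k := FiniteField.cast_card_eq_zero K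
  rw [← Nat.card_eq_fintype_card, hq.card] at k
  exact pow_eq_zero_iff two_ne_zero |>.1 (by exact_mod_cast k)

theorem card_Y0 (hq : FQ K q) : Nat.card ((dgH (F := K)).range.subgroupOf (U2 K)) = (q - 1) * (q + 1) := by
  rw [show (dgH (F := K)).range.subgroupOf (U2 K) = dUH.range from Subgroup.ext fun g =>
      mem_dU.trans ⟨fun ⟨a, h⟩ => ⟨a, h.symm⟩, fun ⟨a, h⟩ => ⟨a, h.symm⟩⟩,
    ← Nat.card_congr (MonoidHom.ofInjective (f := dUH) fun x y h => dU_inj h).toEquiv, hq.card_units, mul_comm]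

/-- norm one elements as units -/
def nu (x : {x : K // x * star x = 1}) : Kˣ := Units.mk0 x.1 (left_ne_zero_of_mul_eq_one x.2)

theorem card_Z0 (hq : FQ K q) : Nat.card ((center (GL (Fin 2) K)).subgroupOf (U2 K)) = q + 1 := by
  rw [← hq.card_norm_one]
  refine (Nat.card_congr (Equiv.ofBijective (fun x : {x : K // x * star x = 1} =>
    (⟨dU (nu x), cen_dU.2 ⟨_, x.2, rfl⟩⟩ : (center (GL (Fin 2) K)).subgroupOf (U2 K))) ⟨fun x y h =>
    Subtype.ext (congrArg Units.val (dU_inj (congrArg Subtype.val h))), fun ⟨g, hg⟩ => ?_⟩)).symm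
  obtain ⟨a, n, rfl⟩ := cen_dU.1 hg
  exact ⟨⟨a, n⟩, Subtype.ext (congrArg dU (Units.ext rfl))⟩

theorem card_T0 (hq : FQ K q) (h2 : (2 : K) ≠ 0) : Nat.card ((nsT (1 : K)).subgroupOf (U2 K)) = (q + 1) * (q + 1) := by
  rw [← hq.card_norm_one, ← Nat.card_prod]
  refine (Nat.card_congr (Equiv.ofBijective (fun x : {x : K // x * star x = 1} × {x : K // x * star x = 1} =>
    (⟨⟨tg h2 (nu x.1) (nu x.2), tg_U2.2 ⟨x.1.2, x.2.2⟩⟩, tg_nsT (h2 := h2) _ _⟩ : (nsT (1 : K)).subgroupOf (U2 K)))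
    ⟨fun x y h => ?_, fun ⟨g, hg⟩ => ?_⟩)).symm
  · have := tg_inj (congrArg (fun g => g.1.1) h)
    exact Prod.ext (Subtype.ext (congrArg Units.val this.1)) (Subtype.ext (congrArg Units.val this.2))
  · obtain ⟨a, d, e⟩ := exists_tg (g := g.1) h2 hg
    obtain ⟨na, nd⟩ := tg_U2.1 (e ▸ g.2)
    exact ⟨(⟨a, na⟩, ⟨d, nd⟩), Subtype.ext (Subtype.ext (e.trans (by congr 1 <;> exact Units.ext rfl)).symm)⟩

theorem card_im (hq : FQ K q) : Nat.card {s : K // star s = -s} = q := by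
  obtain ⟨δ, δ0, hδ⟩ := exists_trace_zero hq.exists_star_ne
  rw [← hq.card_fixed]
  exact (Nat.card_congr (Equiv.ofBijective (fun x : {x : K // star x = x} =>
    (⟨δ * x.1, by simp [hδ, x.2]⟩ : {s : K // star s = -s})) ⟨fun x y h =>
    Subtype.ext (mul_left_cancel₀ δ0 (congrArg Subtype.val h)), fun ⟨s, hs⟩ =>
      ⟨⟨s / δ, by simp [hs, hδ]⟩, Subtype.ext (mul_div_cancel₀ _ δ0)⟩⟩)).symm

/-- the hyperbolic and the standard form are equivalent -/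
theorem gu_equiv (hq : FQ K q) : Nonempty (GU 2 K q ≃* U2 K) := by
  have := hq.finite
  obtain ⟨e, f, H⟩ := exists_HP_std hq (n := 2) le_rfl
  let L : (Fin 2 → K) →ₗ[K] (Fin 2 → K) := (LinearMap.proj 0).smulRight e + (LinearMap.proj 1).smulRight f
  have hL : ∀ x y, std K 2 (L x) (L y) = hyp x y := fun x y => by
    simp [L, H.he, H.hf, H.hef, H.hfe, hyp]; ring
  have hi : Function.Injective L := by
    rw [injective_iff_map_eq_zero]
    intro x hx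
    have a1 := hL x ![1, 0]
    have a2 := hL x ![0, 1]
    rw [hx] at a1 a2
    simp [hyp] at a1 a2
    ext i; fin_cases i
    exacts [a2.symm, a1.symm]
  exact ⟨(hq.gu 2).trans (guEquiv (LinearEquiv.ofInjectiveEndo L hi) hL).symm⟩

theorem card_U2 (hq : FQ K q) : Nat.card (U2 K) = q * (q ^ 2 - 1) * (q + 1) := by
  obtain ⟨e⟩ := gu_equiv hq
  rw [← Nat.card_congr e.toEquiv, hq.card_GU]
  simp [Finset.prod_range_succ]; ring

theorem card_X0 (hq : FQ K q) : Nat.card ((xpH (F := K)).range.subgroupOf (U2 K)) = q := by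
  rw [← card_im hq]
  refine (Nat.card_congr (Equiv.ofBijective (fun x : {s : K // star s = -s} =>
    (⟨xU x.1 x.2, ⟨_, rfl⟩⟩ : (xpH (F := K)).range.subgroupOf (U2 K))) ⟨fun x y h =>
    Subtype.ext (congrArg (fun g => g.1.1 0 1) h), fun ⟨g, c, hc⟩ => ?_⟩)).symm
  exact ⟨⟨c.toAdd, xp_U2.1 (show xpH c ∈ _ from hc ▸ g.2)⟩, Subtype.ext (Subtype.ext hc)⟩

end Mat

variable {G : Type u} [Group G] {φ : U2 K →* G} {g g' : U2 K} {A B : Subgroup (GL (Fin 2) K)}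

theorem cj (φ : U2 K →* G) (c g : U2 K) : φ c * φ g * (φ c)⁻¹ = φ (c * g * c⁻¹) := by
  rw [map_mul, map_mul, map_inv]

theorem im_mono (h : A ≤ B) : im φ A ≤ im φ B := fun _ ⟨g, a, b⟩ => ⟨g, h a, b⟩

theorem im_le : im φ A ≤ φ.range := map_le_range _ _

theorem mem_Xp {x : G} : x ∈ Xp φ ↔ ∃ c hc, φ (xU c hc) = x :=
  ⟨fun ⟨g, ⟨c, h⟩, k⟩ => ⟨c.toAdd, xp_U2.1 (show xpH c ∈ _ from h ▸ g.2), (congrArg φ (Subtype.ext h)).trans k⟩,
    fun ⟨_, _, h⟩ => ⟨_, ⟨_, rfl⟩, h⟩⟩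

theorem mem_Xm {x : G} : x ∈ Xm φ ↔ ∃ c hc, φ (yU c hc) = x :=
  ⟨fun ⟨g, ⟨c, h⟩, k⟩ => ⟨c.toAdd, xm_U2.1 (show xmH c ∈ _ from h ▸ g.2), (congrArg φ (Subtype.ext h)).trans k⟩,
    fun ⟨_, _, h⟩ => ⟨_, ⟨_, rfl⟩, h⟩⟩

theorem mem_Yt' {x : G} : x ∈ Yt φ ↔ ∃ a, φ (dU a) = x :=
  ⟨fun ⟨_, h, k⟩ => let ⟨a, e⟩ := mem_dU.1 h; ⟨a, e ▸ k⟩, fun ⟨a, h⟩ => ⟨_, mem_dU.2 ⟨a, rfl⟩, h⟩⟩

theorem mem_Zt' {x : G} : x ∈ Zt φ ↔ ∃ a : Kˣ, (a : K) * star (a : K) = 1 ∧ φ (dU a) = x :=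
  ⟨fun ⟨_, h, k⟩ => let ⟨a, n, e⟩ := cen_dU.1 h; ⟨a, n, e ▸ k⟩, fun ⟨a, n, h⟩ => ⟨_, cen_dU.2 ⟨a, n, rfl⟩, h⟩⟩

theorem mem_Y1t' {x : G} : x ∈ Y1t φ ↔ ∃ a, star a = a ∧ φ (dU a) = x := by
  refine ⟨fun ⟨_, h, k⟩ => ?_, fun ⟨a, e, h⟩ => ⟨_, ⟨mem_dU.2 ⟨a, rfl⟩, show dt (dU a).1 = 1 by
    rw [det_dU, e, mul_inv_cancel]⟩, h⟩⟩
  obtain ⟨a, rfl⟩ := mem_dU.1 h.1
  exact ⟨a, (mul_inv_eq_one.1 ((det_dU a).symm.trans h.2)).symm, k⟩

theorem mem_Tt' (h2 : (2 : K) ≠ 0) {x : G} : x ∈ Tt φ ↔ ∃ a d h, φ ⟨tg h2 a d, h⟩ = x :=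
  ⟨fun ⟨g, h, k⟩ => let ⟨a, d, e⟩ := exists_tg (g := g.1) h2 h; ⟨a, d, e ▸ g.2, (congrArg φ (Subtype.ext e.symm)).trans k⟩,
    fun ⟨a, d, _, h⟩ => ⟨_, tg_nsT (h2 := h2) a d, h⟩⟩

theorem cen_comm (hz : g.1 ∈ center (GL (Fin 2) K)) (c : U2 K) : g * c = c * g :=
  Subtype.ext (mem_center_iff.1 hz c.1).symm

theorem cen {z c : G} (hz : z ∈ Zt φ) (hc : c ∈ φ.range) : z * c = c * z := by
  obtain ⟨a, ha, rfl⟩ := hz
  obtain ⟨c, rfl⟩ := hc
  rw [← map_mul, ← map_mul, cen_comm ha]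

theorem im_comm (k : ∀ a ∈ A, ∀ b ∈ A, a * b = b * a) : IsMulCommutative (im φ A) :=
  ⟨⟨by
    rintro ⟨_, a, ha, rfl⟩ ⟨_, b, hb, rfl⟩
    exact Subtype.ext (show φ a * φ b = φ b * φ a by
      rw [← map_mul, ← map_mul, show a * b = b * a from Subtype.ext (k a ha b hb)])⟩⟩

namespace UK

variable (h : UK φ q)
include h

theorem two : (2 : K) ≠ 0 := fun e => by
  have := fq_q h.fq
  obtain ⟨k, hk⟩ := h.odd
  rw [hk] at this
  push_cast at this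
  rw [e] at this
  simp at this

theorem neg_ne : (-1 : Kˣ) ≠ 1 := fun e => h.two (by
  have : (-1 : K) = 1 := by simpa using congrArg Units.val e
  linear_combination -this)

theorem q3 : 3 ≤ q := by
  have := h.fq.two_le
  obtain ⟨k, hk⟩ := h.odd
  omega

theorem finU : Finite (U2 K) := have := h.fq.finite; inferInstance

theorem exists_im : ∃ s : K, s ≠ 0 ∧ star s = -s := exists_trace_zero h.fq.exists_star_ne

theorem ker_le (hA : center _ ≤ A) : φ.ker ≤ A.subgroupOf (U2 K) := fun g k => hA (h.kerc g k)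

theorem mem_of (hA : center _ ≤ A) : φ g ∈ im φ A ↔ g.1 ∈ A := by
  rw [im, ← mem_comap, comap_map_eq_self (h.ker_le hA), mem_subgroupOf]

theorem mem_Zt : φ g ∈ Zt φ ↔ g.1 ∈ center _ := h.mem_of le_rfl

theorem mem_Yt : φ g ∈ Yt φ ↔ g.1 ∈ dgH.range := h.mem_of cen_le_dT

theorem mem_Tt : φ g ∈ Tt φ ↔ g.1 ∈ nsT 1 := h.mem_of cen_le_nsT

theorem card_of (hA : center _ ≤ A) : Nat.card (im φ A) * Nat.card φ.ker = Nat.card (A.subgroupOf (U2 K)) := by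
  rw [im, ← card_map_mul_card_inf_ker (A.subgroupOf _) φ, inf_eq_left.2 (h.ker_le hA)]

theorem ker_odd (hg : φ g = 1) : Odd (orderOf g) :=
  h.kero.of_dvd_nat (orderOf_dvd_of_pow_eq_one (congrArg Subtype.val (pow_card_eq_one' (x := (⟨_, hg⟩ : φ.ker)))))

theorem lift (e : φ g = φ g') : ∃ a : Kˣ, Odd (orderOf a) ∧ g.1 = dg a a * g'.1 := by
  have k : φ (g * g'⁻¹) = 1 := by rw [map_mul, map_inv, e, mul_inv_cancel]
  obtain ⟨a, ha⟩ := mem_cen'.1 (h.kerc _ k)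
  refine ⟨a, (h.ker_odd k).of_dvd_nat (orderOf_dvd_of_pow_eq_one (dg_inj (b := a ^ orderOf (g * g'⁻¹)) (d := 1) ?_).1),
    by rw [← ha]; simp⟩
  rw [← dg_pow, dg_one, ← ha, ← Subgroup.coe_pow, pow_orderOf_eq_one]; rfl

theorem eq_of_det (e : φ g = φ g') (d : dt g.1 = dt g'.1) : g = g' := by
  obtain ⟨a, ⟨j, ha⟩, k⟩ := h.lift e
  rw [k, map_mul, mul_eq_right, det_dg] at d
  have := pow_orderOf_eq_one a
  rw [ha, pow_succ, pow_mul, sq, d, one_pow, one_mul] at this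
  exact Subtype.ext (by rw [k, this, dg_one, one_mul])

theorem mem_det (d : dt g.1 = 1) : φ g ∈ im φ (A ⊓ (dt).ker) ↔ g.1 ∈ A :=
  ⟨fun ⟨_, ⟨a, b⟩, k⟩ => h.eq_of_det k (b.trans d.symm) ▸ a, fun a => ⟨g, ⟨a, d⟩, rfl⟩⟩

theorem card_det : Nat.card (im φ (A ⊓ (dt).ker)) = Nat.card ((A ⊓ (dt).ker).subgroupOf (U2 K)) := by
  rw [← card_map_mul_card_inf_ker ((A ⊓ (dt).ker).subgroupOf _) φ, show φ.ker ⊓ (A ⊓ (dt).ker).subgroupOf _ = ⊥ from
    eq_bot_iff.2 fun g k => h.eq_of_det (k.1.trans (map_one φ).symm) (k.2.2.trans (map_one _).symm), card_bot, mul_one, im]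

theorem conj_lift {c : U2 K} (e : φ c * φ g * (φ c)⁻¹ = φ g) : c * g * c⁻¹ = g :=
  h.eq_of_det (by rw [← cj, e]) (det_cj c.1 g.1)

theorem xU_inj {a b : K} {ha : star a = -a} {hb : star b = -b} (e : φ (xU a ha) = φ (xU b hb)) : a = b := by
  simpa using congrArg (fun g : U2 K => g.1 0 1) (h.eq_of_det e (by simp [det_xp]))

theorem xU_ne {a : K} {ha : star a = -a} (a0 : a ≠ 0) : φ (xU a ha) ≠ 1 := fun e =>
  a0 (h.xU_inj (hb := by simp) (by rw [e, xU_zero, map_one]))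

theorem xU_pow {a : K} (ha : star a = -a) : xU a ha ^ q = 1 :=
  Subtype.ext (by rw [Subgroup.coe_pow, xU_val, xp_pow, fq_q h.fq, zero_mul, xp_zero]; rfl)

theorem kZ : Nat.card (Zt φ) * Nat.card φ.ker = q + 1 := by rw [Zt, h.card_of le_rfl, card_Z0 h.fq]

theorem card_of' (hA : center _ ≤ A) {n : ℕ} (k : Nat.card (A.subgroupOf (U2 K)) = n * (q + 1)) :
    Nat.card (im φ A) = n * Nat.card (Zt φ) :=
  have := h.finU
  Nat.eq_of_mul_eq_mul_right (Nat.card_pos (α := φ.ker)) (by rw [h.card_of hA, k, mul_assoc, h.kZ])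

theorem kX : Nat.card (Xp φ) = q := by
  have e : (xpH (F := K)).range ⊓ (dt).ker = xpH.range := inf_eq_left.2 (by rintro _ ⟨c, rfl⟩; exact det_xp _)
  rw [Xp, ← e, h.card_det, e, card_X0 h.fq]

theorem kY : Nat.card (Yt φ) = (q - 1) * Nat.card (Zt φ) := h.card_of' cen_le_dT (card_Y0 h.fq)

theorem kT : Nat.card (Tt φ) = (q + 1) * Nat.card (Zt φ) := h.card_of' cen_le_nsT (card_T0 h.fq h.two)

theorem kC : Nat.card φ.range = q * (q ^ 2 - 1) * Nat.card (Zt φ) := by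
  rw [← h.card_of' le_top (by rw [top_subgroupOf, card_top, card_U2 h.fq]), im, top_subgroupOf, φ.range_eq_map]

theorem ZX : Zt φ ⊓ Xp φ = ⊥ := eq_bot_iff.2 fun x hx => by
  obtain ⟨c, hc, rfl⟩ := mem_Xp.1 hx.2
  obtain rfl : c = 0 := by simpa using (mem_cen.1 (h.mem_Zt.1 hx.1)).1
  rw [xU_zero, map_one]; exact one_mem _

theorem cs {w : U2 K} (hw : IsW w) {s : K} (hs : star s = -s) (s0 : s ≠ 0) :
    CS q φ.range (Zt φ) (Yt φ) (Tt φ) (Ut φ) (Xp φ) (uu φ) (φ w) (φ (xU s hs)) := by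
  have ZC : Zt φ ≤ φ.range := im_le
  have XC : Xp φ ≤ φ.range := im_le
  have zx : ∀ z ∈ Zt φ, ∃ a : Kˣ, ∃ g : U2 K, g.1 = dg a a * xp s ∧ z * φ (xU s hs) = φ g := by
    rintro _ ⟨z, hz, rfl⟩
    obtain ⟨a, e⟩ := mem_cen'.1 (show z.1 ∈ _ from hz)
    exact ⟨a, z * xU s hs, by rw [← e]; rfl, (map_mul φ _ _).symm⟩
  refine ⟨h.q3, im_mono cen_le_dT, im_mono cen_le_nsT, im_le, im_le, XC,
    sup_le ZC XC, fun _ hz _ hc => cen hz hc, im_comm fun _ ha _ hb => dT_comm ha hb,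
    im_comm fun _ ha _ hb => nsT_comm ha hb, im_comm ?_, h.kY, h.kT, h.kX, ?_, h.kC, ⟨_, rfl⟩,
    by rw [uu, ← map_mul, uU_mul, map_one], fun k => by simpa using (mem_dT.1 (h.mem_Yt.1 k)).1, ?_, ?_, ⟨_, rfl⟩,
    by rw [← map_mul, hw.sq, map_one], fun k => ?_, ?_, ?_, mem_Xp.2 ⟨_, _, rfl⟩, h.xU_ne s0, ?_,
    ?_, ?_, ?_, ?_, ?_, ?_, ?_, ?_⟩
  · rintro _ ⟨a, rfl⟩ _ ⟨b, rfl⟩
    rw [← map_mul, ← map_mul, mul_comm]
  · rw [Ut, card_sup_of_inf_eq_bot (.inl ((show Zt φ ≤ centralizer (Xp φ : Set G) from fun z hz x hx =>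
      (cen hz (XC hx)).symm).trans (centralizer_le_normalizer _))) h.ZX, h.kX, mul_comm]
  · intro g hg
    obtain ⟨a, rfl⟩ := mem_Yt'.1 hg
    rw [uu, cj, u_dU]; exact mem_Yt'.2 ⟨_, rfl⟩
  · intro g hg
    obtain ⟨a, rfl⟩ := mem_Yt'.1 hg
    rw [uu, cj, u_dU, ← map_mul, dU_mul]
    exact mem_Zt'.2 ⟨_, by simp; field_simp, rfl⟩
  · have := (nsT 1).mul_mem hw.1 ((nsT 1).inv_mem (h.mem_Tt.1 k))
    rw [mul_inv_cancel_right] at this
    exact h.neg_ne (Units.ext (by simpa using this.1.symm))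
  · rintro _ ⟨g, hg, rfl⟩
    have hg : g.1 ∈ nsT 1 := hg
    rw [cj]
    exact h.mem_Tt.2 (by simpa only [Subgroup.coe_mul, Subgroup.coe_inv, hw.conj hg] using u_nsT hg)
  · rintro _ ⟨g, hg, rfl⟩
    have hg : g.1 ∈ nsT 1 := hg
    rw [cj, ← map_mul]
    exact h.mem_Zt.2 (by simpa only [Subgroup.coe_mul, Subgroup.coe_inv, hw.conj hg, mul_u hg] using dg_cen _)
  · exact h.odd.of_dvd_nat (orderOf_dvd_of_pow_eq_one (by rw [← map_pow, h.xU_pow, map_one]))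
  · intro a ha a1
    obtain ⟨c, hc, rfl⟩ := mem_Xp.1 ha
    have c0 : c ≠ 0 := by rintro rfl; exact a1 (by rw [xU_zero, map_one])
    obtain ⟨l, hl⟩ := h.fq.exists_norm_eq (c := c / s) (by simp [hc, hs])
    refine ⟨_, ⟨dU (Units.mk0 l (left_ne_zero_of_mul (hl ▸ div_ne_zero c0 s0))), rfl⟩, ?_⟩
    rw [cj, dU_xU]; simp [hl, s0]
  · intro c hc
    refine mul_inv_eq_iff_eq_mul.2 (mem_centralizer_singleton_iff.1 ((sup_le (fun z hz => ?_) fun x hx => ?_ :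
      Ut φ ≤ centralizer {φ (xU s hs)}) hc))
    · exact mem_centralizer_singleton_iff.2 (cen hz ⟨_, rfl⟩)
    · obtain ⟨c, hc, rfl⟩ := mem_Xp.1 hx
      rw [mem_centralizer_singleton_iff, ← map_mul, ← map_mul, xU_add, xU_add]; simp only [add_comm]
  · rintro _ ⟨g, hg, rfl⟩ hz _ ⟨c, rfl⟩ k
    rw [cj, h.mem_Yt] at k
    rw [uu, ← map_mul, h.mem_Yt, h.mem_Yt]
    exact tiT0 hg (h.mem_Zt.not.1 hz) k
  · rintro _ ⟨g, hg, rfl⟩ hz _ ⟨c, rfl⟩ k
    rw [cj, h.mem_Tt] at k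
    rw [← map_mul, h.mem_Tt, h.mem_Tt]
    exact (tiY0 h.two one_ne_zero hg (h.mem_Zt.not.1 hz) k).imp_right hw.iff.1
  · rintro z hz _ ⟨c, rfl⟩ k
    obtain ⟨a, g, e, l⟩ := zx z hz
    rw [cj, l] at k
    obtain ⟨b, -, k⟩ := h.lift k
    rw [e, ← mul_assoc (dg b b), dg_mul] at k
    obtain ⟨-, a, s, e⟩ := tiX0 h.two s0 k
    have n : dg a a ∈ U2 K := dg_U2.2 (by simpa [e, mul_ent] using (mem_U2.1 c.2).2.2)
    have m : xp s ∈ U2 K := ((U2 K).mul_mem_cancel_left n).1 (e ▸ c.2)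
    rw [show c = ⟨_, n⟩ * ⟨_, m⟩ from Subtype.ext e, map_mul]
    exact mul_mem_sup ⟨_, dg_cen a, rfl⟩ ⟨_, ⟨_, rfl⟩, rfl⟩
  · rintro _ ⟨g, hg, rfl⟩ hz _ ⟨c, rfl⟩
    rw [cj, h.mem_Tt]
    exact TY1 h.two hg (h.mem_Zt.not.1 hz)
  · rintro z hz _ ⟨c, rfl⟩
    obtain ⟨a, g, e, l⟩ := zx z hz
    rw [l, cj, h.mem_Yt]
    simpa only [Subgroup.coe_mul, Subgroup.coe_inv, e] using TX0 a s0
  · rintro z hz _ ⟨c, rfl⟩
    obtain ⟨a, g, e, l⟩ := zx z hz
    rw [l, cj, h.mem_Tt]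
    simpa only [Subgroup.coe_mul, Subgroup.coe_inv, e] using YX0 h.two one_ne_zero a s0

end UK

end CA.Bu

theorem CA.Bu.realizeEqnsBase1 : True := by
  have := @CA.Bu.IsW.eq_1.{0}
  have := @CA.Bu.IsW.eq_def.{0}
  have := @CA.Bu.IsW.congr_simp.{0}
  have := @CA.Bu.tH.eq_1.{0}
  have := @CA.Bu.tH.eq_def.{0}
  have := @CA.Bu.tH.congr_simp.{0}
  have := @CA.Bu.nu.eq_1.{0}
  have := @CA.Bu.nu.eq_def.{0}
  have := @CA.Bu.nu.congr_simp.{0}
  have := @CA.Bu.tg.eq_1.{0}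
  have := @CA.Bu.tg.eq_def.{0}
  have := @CA.Bu.tg.congr_simp.{0}
  have := @CA.Bu.dUH.eq_1.{0}
  have := @CA.Bu.dUH.eq_def.{0}
  have := @CA.Bu.dUH.congr_simp.{0}
  trivial
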