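import Cfsg.Agent.Bu.Base1

/-!
# Involutions and fusion for `GU₂(q)/Z`
-/

set_option autoImplicit false
set_option linter.unusedSectionVars false

open Cfsg Subgroup CA.Dih CA.FG CA.Br Cfsg.Agent.Unit

namespace CA.Bu

universe u v

variable {K : Type v} [Field K] [StarRing K] {q : ℕ}

local notation "dt" => Matrix.GeneralLinearGroup.det

section Mat

variable {m : U2 K}

theorem inv_tr (h2 : (2 : K) ≠ 0) (hm : m * m = 1) (hz : m.1 ∉ center (GL (Fin 2) K)) :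
    m.1 0 0 + m.1 1 1 = 0 ∧ dt m.1 = -1 := by
  obtain ⟨c, hc⟩ := inv_conj0 h2 (congrArg Subtype.val hm) hz
  exact ⟨by rw [← tr_conj hc]; simp, by rw [← hc, det_cj, det_dg, one_mul]⟩

theorem inv_conj1 (hq : FQ K q) (h2 : (2 : K) ≠ 0) (t : m.1 0 0 + m.1 1 1 = 0) (d : dt m.1 = -1) :
    ∃ c, c * uU K * c⁻¹ = m := by
  obtain ⟨a1, -, a3, -⟩ := neg_ent m.2 d
  have e : m.1 0 0 * m.1 1 1 - m.1 0 1 * m.1 1 0 = -1 := by rw [← det_ent, d]; rfl
  have t' : m.1 1 1 = - m.1 0 0 := by linear_combination t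
  rw [t'] at e
  have c0 : m.1 1 0 ≠ 0 := fun k => by
    rw [k] at e
    rcases mul_self_eq_one_iff.1 (show m.1 0 0 * m.1 0 0 = 1 by linear_combination -e) with a | a <;>
      rw [a] at a1 <;> simp at a1
    exacts [h2 (by linear_combination a1), h2 (by linear_combination -a1)]
  obtain ⟨l, hl⟩ := hq.exists_norm_eq (c := (m.1 1 0)⁻¹) (by simp [a3])
  have l0 : l ≠ 0 := left_ne_zero_of_mul (hl ▸ inv_ne_zero c0)
  have hl' : l * star l * m.1 1 0 = 1 := by rw [hl, inv_mul_cancel₀ c0]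
  refine ⟨⟨mk2 l (l * m.1 0 0) 0 (l * m.1 1 0) (by simp [l0, c0]), mem_U2.2 ⟨by simp, ?_, ?_⟩⟩,
    mul_inv_eq_iff_eq_mul.2 (Subtype.ext (gl_ext ?_ ?_ ?_ ?_))⟩ <;> simp [mul_ent, a1, a3, t']
  · ring
  · linear_combination hl'
  · ring
  · linear_combination l * e
  · ring
  · ring

theorem cen_sq' (hz : m.1 ∈ center (GL (Fin 2) K)) (hm : m * m = 1) : m = 1 ∨ m = tU K :=
  (cen_sq hz (congrArg Subtype.val hm)).imp Subtype.ext Subtype.ext

/-- the centre of `GU₂` consists of scalars -/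
theorem cen_of_comm (hq : FQ K q) (h : ∀ c : U2 K, c * m * c⁻¹ = m) : m.1 ∈ center (GL (Fin 2) K) := by
  obtain ⟨s, s0, hs⟩ := exists_trace_zero hq.exists_star_ne
  have a := ents (congrArg Subtype.val (h (uU K))) 0 0
  have b := ents (congrArg Subtype.val (h (uU K))) 0 1
  have c := ents (congrArg Subtype.val (h (xU s hs))) 0 0
  simp [s0] at a b c
  exact mem_cen.2 ⟨a ▸ c, c, b.symm⟩

end Mat

variable {G : Type u} [Group G] {φ : U2 K →* G} {g m : U2 K}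

theorem tt_mul : tt φ * tt φ = 1 := by rw [tt, ← map_mul, tU_mul, map_one]

theorem uu_mul : uu φ * uu φ = 1 := by rw [uu, ← map_mul, uU_mul, map_one]

theorem tt_Zt : tt φ ∈ Zt φ := ⟨_, dg_cen _, rfl⟩

theorem uu_Tt : uu φ ∈ Tt φ := ⟨_, ww_nsT, rfl⟩

theorem tt_comm {c : G} (hc : c ∈ φ.range) : tt φ * c = c * tt φ := cen tt_Zt hc

theorem tt_conj {c : G} (hc : c ∈ φ.range) : c * tt φ * c⁻¹ = tt φ := by rw [← tt_comm hc, mul_inv_cancel_right]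

theorem Rho.rtu {r : G} (h : Rho φ r) : r * (tt φ * uu φ) * r⁻¹ = tt φ := by
  rw [conj_mul', h.rt, h.ru, ← mul_assoc, ← tt_comm (c := uu φ) ⟨_, rfl⟩, mul_assoc, uu_mul, mul_one]

namespace UK

variable (h : UK φ q)
include h

theorem w_u {w : U2 K} (hw : IsW w) : φ w * uu φ * (φ w)⁻¹ = tt φ * uu φ := by
  rw [uu, cj, hw.u h.two, map_mul, tt]

theorem w_tu {w : U2 K} (hw : IsW w) : φ w * (tt φ * uu φ) * (φ w)⁻¹ = uu φ := by
  rw [conj_mul', h.w_u hw, tt_conj (c := φ w) ⟨_, rfl⟩, ← mul_assoc, tt_mul, one_mul]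

theorem lift2 (e : φ m * φ m = 1) : ∃ k : ℕ, φ (m ^ k) = φ m ∧ m ^ k * m ^ k = 1 := by
  obtain ⟨j, hj⟩ := h.ker_odd (show φ (m * m) = 1 by rw [map_mul, e])
  exact ⟨orderOf (m * m), by rw [map_pow, hj, pow_succ, pow_mul, sq, e, one_pow, one_mul],
    by rw [← (Commute.refl m).mul_pow, pow_orderOf_eq_one]⟩

theorem t1 : tt φ ≠ 1 := fun e => by
  have := h.ker_odd e
  rw [orderOf_eq_prime (p := 2) (by rw [sq, tU_mul]) fun k => h.neg_ne (dg_inj (congrArg Subtype.val k |>.trans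
    dg_one.symm)).1] at this
  exact absurd this (by decide)

theorem uZ : uu φ ∉ Zt φ := fun k => by simpa using (mem_cen.1 (h.mem_Zt.1 k)).1

theorem invZ {i : G} (hi : i ∈ Zt φ) (e : i * i = 1) : i = 1 ∨ i = tt φ := by
  obtain ⟨m, hm, rfl⟩ := hi
  obtain ⟨k, k1, k2⟩ := h.lift2 e
  rcases cen_sq' (pow_mem (show m.1 ∈ _ from hm) k) k2 with a | a
  · left; rw [← k1, a, map_one]
  · right; rw [← k1, a, tt]

theorem J_of {i : G} (hi : i ∈ φ.range) (e : i * i = 1) (i1 : i ≠ 1) (it : i ≠ tt φ) :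
    ∃ m : U2 K, φ m = i ∧ m.1 0 0 + m.1 1 1 = 0 ∧ dt m.1 = -1 := by
  obtain ⟨m, rfl⟩ := hi
  obtain ⟨k, k1, k2⟩ := h.lift2 e
  exact ⟨_, k1, inv_tr h.two k2 fun a => (h.invZ (k1 ▸ h.mem_Zt.2 a) e).elim i1 it⟩

theorem inv_cj {i : G} (hi : i ∈ φ.range) (e : i * i = 1) (i1 : i ≠ 1) (it : i ≠ tt φ) :
    ∃ c ∈ φ.range, c * uu φ * c⁻¹ = i := by
  obtain ⟨m, rfl, k1, k2⟩ := h.J_of hi e i1 it
  obtain ⟨c, hc⟩ := inv_conj1 h.fq h.two k1 k2
  exact ⟨_, ⟨c, rfl⟩, by rw [uu, cj, hc]⟩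

theorem invY {i : G} (hi : i ∈ Yt φ) (e : i * i = 1) : i = 1 ∨ i = tt φ := by
  obtain ⟨a, rfl⟩ := mem_Yt'.1 hi
  obtain ⟨k, k1, k2⟩ := h.lift2 e
  rw [dU_pow, dU_mul, ← dU_one] at k2
  rw [← k1, dU_pow]
  rcases unit_sq (dU_inj k2) with a | a <;> rw [a]
  exacts [.inl (by rw [dU_one, map_one]), .inr (by rw [dU_neg, tt])]

theorem tu_eq : tt φ * uu φ = φ ⟨tg h.two (-1) 1, tg_U2.2 (by simp)⟩ := by
  rw [tt, uu, ← map_mul]
  exact congrArg φ (Subtype.ext (by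
    rw [Subgroup.coe_mul, tU_val, uU_val, ← tg_ww (h2 := h.two), ← tg_self (h2 := h.two), tg_mul]; simp))

theorem invT {i : G} (hi : i ∈ Tt φ) (e : i * i = 1) : i = 1 ∨ i = tt φ ∨ i = uu φ ∨ i = tt φ * uu φ := by
  obtain ⟨m, hm, rfl⟩ := hi
  obtain ⟨k, k1, k2⟩ := h.lift2 e
  obtain ⟨a, d, l⟩ := exists_tg (g := (m ^ k).1) h.two (pow_mem (show m.1 ∈ _ from hm) k)
  have k3 := congrArg Subtype.val k2
  rw [Subgroup.coe_mul, l, tg_mul, OneMemClass.coe_one, ← tg_one (h2 := h.two)] at k3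
  rw [← k1, h.tu_eq]
  rcases unit_sq (tg_inj k3).1 with rfl | rfl <;> rcases unit_sq (tg_inj k3).2 with rfl | rfl
  exacts [.inl (by rw [show m ^ k = 1 from Subtype.ext (l.trans tg_one), map_one]),
    .inr (.inr (.inl (congrArg φ (Subtype.ext (l.trans tg_ww))))), .inr (.inr (.inr (congrArg φ (Subtype.ext l)))),
    .inr (.inl (congrArg φ (Subtype.ext (l.trans (tg_self _)))))]

theorem cent_u : φ.range ⊓ 𝒞[uu φ] = Tt φ := by
  ext x
  refine ⟨fun ⟨⟨c, hc⟩, k⟩ => ?_, fun k => ?_⟩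
  · subst hc
    have k := congrArg Subtype.val (h.conj_lift (mul_inv_eq_iff_eq_mul.2 (mem_centralizer_singleton_iff.1 k)))
    have a := ents k 0 0
    have b := ents k 0 1
    simp at a b
    exact h.mem_Tt.2 ⟨b, by rw [a, mul_one]⟩
  · obtain ⟨c, hc, rfl⟩ := k
    exact ⟨⟨_, rfl⟩, mem_centralizer_singleton_iff.2 (by
      rw [uu, ← map_mul, ← map_mul, show c * uU K = uU K * c from Subtype.ext (nsT_comm hc ww_nsT)])⟩

theorem finC : Finite φ.range := have := h.finU; Finite.of_surjective _ φ.rangeRestrict_surjective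

theorem Zpos : 0 < Nat.card (Zt φ) := Nat.pos_of_ne_zero fun k => by simpa [k] using h.kZ

theorem relT : (Tt φ).relIndex φ.range = q * (q - 1) := by
  have k := card_mul_relIndex (show Tt φ ≤ φ.range from im_le)
  obtain ⟨n, rfl⟩ : ∃ n, q = n + 1 := ⟨_, (Nat.sub_add_cancel (by have := h.q3; omega)).symm⟩
  rw [h.kT, h.kC, show (n + 1) ^ 2 - 1 = n * (n + 2) from Nat.sub_eq_of_eq_add (by ring)] at k
  exact Nat.eq_of_mul_eq_mul_left (Nat.mul_pos (Nat.succ_pos _) h.Zpos) (k.trans (by rw [Nat.add_sub_cancel, Nat.succ_eq_add_one]; ring))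

theorem mem_center : g ∈ center (U2 K) ↔ g.1 ∈ center (GL (Fin 2) K) :=
  ⟨fun k => cen_of_comm h.fq fun c => mul_inv_eq_iff_eq_mul.2 (mem_center_iff.1 k c),
    fun k => mem_center_iff.2 fun c => (cen_comm k c).symm⟩

/-- an element of `C` centralising `C` lies in `Z` -/
theorem Z_of {z : G} (hz : z ∈ φ.range) (k : ∀ c ∈ φ.range, c * z * c⁻¹ = z) : z ∈ Zt φ := by
  obtain ⟨z, rfl⟩ := hz
  exact h.mem_Zt.2 (cen_of_comm h.fq fun c => h.conj_lift (k _ ⟨c, rfl⟩))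

end UK

namespace BU

variable (h : BU φ q)
include h

theorem mem_C {x : G} : x ∈ φ.range ↔ x * tt φ = tt φ * x := by rw [h.rng, mem_centralizer_singleton_iff]

theorem mem_T {x : G} : x ∈ Tt φ ↔ x * tt φ * x⁻¹ = tt φ ∧ x * uu φ * x⁻¹ = uu φ := by
  rw [← h.toUK.cent_u, mem_inf, h.mem_C, mem_centralizer_singleton_iff, mul_inv_eq_iff_eq_mul, mul_inv_eq_iff_eq_mul]

theorem exists_rho : ∃ r, Rho φ r := by
  obtain ⟨w, hw⟩ := exists_W h.fq h.toUK.two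
  obtain ⟨g, hg⟩ := isConj_iff.1 h.fus.symm
  obtain ⟨c, hc, e⟩ := h.toUK.inv_cj (i := g * tt φ * g⁻¹) (h.mem_C.2 (by
      rw [← hg]; nth_rewrite 1 [hg]; nth_rewrite 3 [hg]
      rw [← conj_mul', ← conj_mul', tt_comm (c := uu φ) ⟨_, rfl⟩]))
    (by rw [← conj_mul', tt_mul]; simp) (by simpa using h.toUK.t1) fun e => h.toUK.uZ (by
      rw [← hg] at e; nth_rewrite 1 [hg] at e
      rw [← mul_left_cancel (mul_right_cancel e)]; exact tt_Zt)
  have n1 : c⁻¹ * g * tt φ * (c⁻¹ * g)⁻¹ = uu φ := by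
    rw [show c⁻¹ * g * tt φ * (c⁻¹ * g)⁻¹ = c⁻¹ * (g * tt φ * g⁻¹) * c by group, ← e]; group
  have n2 : c⁻¹ * g * uu φ * (c⁻¹ * g)⁻¹ = tt φ := by
    rw [show c⁻¹ * g * uu φ * (c⁻¹ * g)⁻¹ = c⁻¹ * (g * uu φ * g⁻¹) * c⁻¹⁻¹ by group, hg, tt_conj (inv_mem hc)]
  generalize c⁻¹ * g = n at n1 n2
  have k : ∀ x, n * φ w * x * (n * φ w)⁻¹ = n * (φ w * x * (φ w)⁻¹) * n⁻¹ := fun x => by group
  exact ⟨n * φ w, by rw [k, tt_conj (c := φ w) ⟨_, rfl⟩, n1],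
    by rw [k, h.toUK.w_u hw, conj_mul', n1, n2, tt_comm (c := uu φ) ⟨_, rfl⟩]⟩

theorem syl [Finite G] {S : Subgroup G} (hS : IsSylowOf 2 S φ.range) : IsSylowOf 2 S ⊤ := by
  refine IsSylowOf.of_norm_le hS Nat.prime_two le_top fun n hn => h.mem_C.2 (mul_inv_eq_iff_eq_mul.1 ?_)
  have tS : tt φ ∈ S := zpowers_le.1 (hS.le_of_norm_le (π := {2})
    (piGrp_zpowers_iff.2 (pElt_of_pow_eq_one Nat.prime_two (by rw [sq, tt_mul]))) (zpowers_le.2 ⟨_, rfl⟩)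
    fun s hs => centralizer_le_normalizer _ (by
      rw [mem_centralizer_iff]; rintro _ ⟨k, rfl⟩
      exact (Commute.zpow_left (tt_comm (hS.le hs)) k).eq))
  by_contra ne
  obtain ⟨c, hc, e⟩ := h.toUK.inv_cj (i := n * tt φ * n⁻¹) (hS.le ((mem_normalizer_iff.1 hn.2 _).1 tS))
    (by rw [← conj_mul', tt_mul]; simp) (by simpa using h.toUK.t1) ne
  have le : S :^ c⁻¹ ≤ Tt φ := by
    rw [← h.toUK.cent_u]
    refine le_inf (hS.conjg_of_mem (inv_mem hc)).le fun x hx => mem_centralizer_singleton_iff.2 ?_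
    have k := tt_comm (hS.le ((mem_normalizer_iff.1 (inv_mem hn.2) _).1 (mem_conjg.1 hx)))
    have e' : uu φ = c⁻¹ * (n * tt φ * n⁻¹) * c := by rw [← e]; group
    rw [e']
    calc x * (c⁻¹ * (n * tt φ * n⁻¹) * c) = c⁻¹ * n * (n⁻¹ * (c⁻¹⁻¹ * x * c⁻¹) * n⁻¹⁻¹ * tt φ) * n⁻¹ * c := by group
      _ = _ := by rw [← k]; group
  refine IsSylowOf.not_dvd_index (hS.conjg_of_mem (inv_mem hc)) Nat.prime_two
    (Dvd.dvd.trans ?_ (relIndex_dvd_of_le_left _ le))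
  rw [h.toUK.relT]
  exact (Nat.even_mul_pred_self _).two_dvd

theorem oddC [Finite G] : ¬ 2 ∣ φ.range.index := fun k => by
  obtain ⟨S, hS⟩ := sylow_exists Nat.prime_two φ.range
  refine IsSylowOf.not_dvd_index (h.syl hS) Nat.prime_two (k.trans ?_)
  rw [relIndex_top_right]
  exact index_dvd_of_le hS.le

theorem cjt [Finite G] {i : G} (e : i * i = 1) (i1 : i ≠ 1) : IsConj (tt φ) i := by
  obtain ⟨S, hS⟩ := sylow_exists Nat.prime_two φ.range
  obtain ⟨x, -, hx⟩ := sylow_Jsub Nat.prime_two (h.syl hS)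
    (piGrp_zpowers_iff.2 (pElt_of_pow_eq_one Nat.prime_two (show i ^ 2 = 1 by rw [sq, e]))) le_top
  refine IsConj.trans ?_ (isConj_iff.2 ⟨x, rfl⟩ : IsConj i (x * i * x⁻¹)).symm
  by_cases k : x * i * x⁻¹ = tt φ
  · rw [k]
  obtain ⟨c, -, hc⟩ := h.toUK.inv_cj (hS.le (hx (conj_mem_conjg x (mem_zpowers i))))
    (by rw [← conj_mul', e]; simp) (by simpa using i1) k
  exact h.fus.trans (isConj_iff.2 ⟨c, hc⟩)

end BU

theorem exists_BU [Finite G] [IsSimpleGroup G] (hq : FQ K q) (ho : Odd q) (Z : Subgroup (GU 2 K q))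
    [Z.Normal] (hZc : Z ≤ center (GU 2 K q)) (hZo : Odd (Nat.card Z)) (t : G) (ht : orderOf t = 2)
    (hC : Nonempty (centralizer ({t} : Set G) ≃* (GU 2 K q ⧸ Z))) : ∃ φ : U2 K →* G, BU φ q := by
  obtain ⟨e⟩ := hC
  obtain ⟨f⟩ := gu_equiv hq
  let φ : U2 K →* G :=
    (centralizer {t}).subtype.comp (e.symm.toMonoidHom.comp ((QuotientGroup.mk' Z).comp f.symm.toMonoidHom))
  have k : φ.ker = Z.map f.toMonoidHom := by
    ext x; rw [mem_map_equiv]; simp [φ]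
  have r : φ.range = centralizer {t} := by
    rw [MonoidHom.range_comp, MonoidHom.range_eq_top.2 (e.symm.surjective.comp
      ((QuotientGroup.mk'_surjective Z).comp f.symm.surjective)), ← MonoidHom.range_eq_map, range_subtype]
  have h : UK φ q := ⟨hq, ho, fun g a => cen_of_comm hq fun c => by
    obtain ⟨z, hz, rfl⟩ : g ∈ Z.map f.toMonoidHom := k ▸ a
    obtain ⟨c, rfl⟩ := f.surjective c
    exact mul_inv_eq_iff_eq_mul.2 (by simpa using congrArg f (mem_center_iff.1 (hZc hz) c)),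
    by rwa [k, card_map_of_injective f.injective]⟩
  have t2 : t * t = 1 := by rw [← sq, ← ht, pow_orderOf_eq_one]
  have t1 : t ≠ 1 := by rintro rfl; simp at ht
  have et : t = tt φ := (h.invZ (h.Z_of (r ▸ mem_centralizer_singleton_iff.2 rfl) fun c hc =>
    mul_inv_eq_iff_eq_mul.2 (mem_centralizer_singleton_iff.1 (r ▸ hc))) t2).resolve_left t1
  obtain ⟨g, g1, g2⟩ := CA.Blk.exists_fused_of_simple (fun a => h.uZ (h.Z_of ⟨_, rfl⟩ fun c _ =>
    mul_inv_eq_iff_eq_mul.2 (a.1.1 _ _))) ht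
  obtain ⟨c, -, hc⟩ := h.inv_cj (r ▸ mem_centralizer_singleton_iff.2 g1.eq.symm)
    (by rw [← conj_mul', t2]; simp) (by simpa using t1) (et ▸ g2)
  exact ⟨φ, h, et ▸ r, et ▸ (isConj_iff.2 ⟨g, rfl⟩).trans (isConj_iff.2 ⟨c, hc⟩).symm⟩

end CA.Bu
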