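import Cfsg.Agent.Bu.CU
import Cfsg.Agent.Br.BW

/-!
# The possible values of the index of `C(t)`
-/

set_option autoImplicit false
set_option linter.unusedSectionVars false

open Cfsg Subgroup CA.Dih CA.FG CA.BG CA.GW CA.GW.BA CA.Br

namespace CA.Bu

universe u

theorem arith {q p f n : ℕ} (hp : p.Prime) (hq : q = p ^ f) (qo : Odd q) (q3 : 3 ≤ q) {y z : ℤ}
    (hy : y ∣ q * (q ^ 2 - 1)) (hz : z ∣ q * (q - 1) ^ 2) (e : y + z = 1 - q)
    (hn : (n : ℤ) = (q ^ 2 - 1 + y) * (q ^ 2 - q + y)) (h2 : ¬ 2 ∣ n)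
    (hr : ∀ l : ℕ, l.Prime → l ≠ 2 → l ∣ q - 1 → ¬ l ∣ n) :
    y = 1 ∨ y = -q ∨ (q = 9 ∧ y = -5) ∨ (q = 3 ∧ y = -1) ∨ (q = 5 ∧ y = -3) := by
  have co : IsCoprime y (q - 1 : ℤ) := by
    rw [Int.isCoprime_iff_gcd_eq_one]
    by_contra ne
    obtain ⟨r, hr1, hr2⟩ := Nat.exists_prime_and_dvd ne
    have a : (r : ℤ) ∣ y := (Int.natCast_dvd_natCast.2 hr2).trans (Int.gcd_dvd_left ..)
    have b : (r : ℤ) ∣ q - 1 := (Int.natCast_dvd_natCast.2 hr2).trans (Int.gcd_dvd_right ..)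
    have c : r ∣ n := Int.natCast_dvd_natCast.1 (hn ▸ Dvd.dvd.mul_left (dvd_add
      (by rw [show (q : ℤ) ^ 2 - q = (q - 1) * q by ring]; exact b.mul_right _) a) _)
    by_cases r2 : r = 2
    · exact h2 (r2 ▸ c)
    · exact hr r hr1 r2 (Int.natCast_dvd_natCast.1 (by rwa [Nat.cast_sub (by omega), Nat.cast_one])) c
  have cz : IsCoprime z (q - 1 : ℤ) := by
    rw [show z = -y + (q - 1) * (-1) by linear_combination e]
    exact co.neg_left.add_mul_left_left _
  have zq : z ∣ q := (cz.pow_right (n := 2)).dvd_of_dvd_mul_right hz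
  have yq : y ∣ q * (q + 1) := co.dvd_of_dvd_mul_right (by rwa [show (q : ℤ) * (q + 1) * (q - 1) = q * (q ^ 2 - 1) by ring])
  have q3' : (3 : ℤ) ≤ q := by exact_mod_cast q3
  obtain ⟨k, hk⟩ := qo
  have hk' : (q : ℤ) = 2 * k + 1 := by exact_mod_cast hk
  by_cases pz : (p : ℤ) ∣ z
  · have f0 : f ≠ 0 := by rintro rfl; simp at hq; omega
    have pq : (p : ℤ) ∣ q := by rw [hq]; exact_mod_cast dvd_pow_self p f0
    have cy : IsCoprime y (q : ℤ) := by
      rw [hq]; push_cast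
      obtain ⟨a, ha⟩ := dvd_add pq pz
      exact IsCoprime.pow_right (by
        rw [show y = 1 + p * (-a) by linear_combination e - ha]; exact isCoprime_one_left.add_mul_left_left _)
    have y1 := cy.dvd_of_dvd_mul_left yq
    have p3 : (3 : ℤ) ≤ p := by
      have : p ≠ 2 := by rintro rfl; omega
      have := hp.two_le
      omega
    have z0 : z ≠ 0 := by rintro rfl; have := zero_dvd_iff.1 zq; omega
    have z3 := Int.le_of_dvd (abs_pos.2 z0) ((dvd_abs _ _).2 pz)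
    rcases lt_or_gt_of_ne z0 with z1 | z1
    · obtain ⟨b, hb⟩ := neg_dvd.2 zq
      rw [abs_of_neg z1] at z3
      have b0 : 0 < b := by by_contra c; nlinarith
      by_cases b1 : b = 1
      · subst b1; omega
      have b2 : b ≠ 2 := by rintro rfl; omega
      have z4 : 3 * -z ≤ q := by nlinarith [show 3 ≤ b by omega]
      obtain ⟨a, ha⟩ := neg_dvd.2 y1
      have y0 : 0 < -y := by omega
      have a0 : 0 < a := by by_contra c; nlinarith
      have a3 : a < 3 := by by_contra c; nlinarith [show 3 ≤ a by omega]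
      obtain rfl | rfl : a = 1 ∨ a = 2 := by omega
      · omega
      · have : -z ∣ 3 := by
          have := dvd_sub (neg_dvd.2 zq) (Dvd.intro 2 rfl : -z ∣ -z * 2)
          rwa [show (q : ℤ) - -z * 2 = 3 by omega] at this
        have := Int.le_of_dvd (by decide) this
        omega
    · rw [abs_of_pos z1] at z3
      have := Int.le_of_dvd (by omega) (neg_dvd.2 y1)
      omega
  · have : IsCoprime z (q : ℤ) := by
      rw [hq]; push_cast
      exact ((Int.prime_iff_natAbs_prime.2 (by simpa)).coprime_iff_not_dvd.2 pz).symm.pow_right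
    rcases Int.isUnit_iff.1 (this.isUnit_of_dvd' dvd_rfl zq) with rfl | rfl
    · omega
    · have d6 : -y ∣ 6 := by
        have := dvd_sub (neg_dvd.2 yq) (Dvd.intro (q + 3) rfl : -y ∣ -y * (q + 3))
        rwa [show (q : ℤ) * (q + 1) - -y * (q + 3) = 6 by rw [show y = 2 - q by omega]; ring] at this
      have l := Int.le_of_dvd (by decide) d6
      have : y ≠ -5 := by rintro rfl; exact absurd d6 (by decide)
      omega

theorem arith_p {q p f n : ℕ} (hq : q = p ^ f) (q3 : 3 ≤ q) (hp : p.Prime)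
    (h : n = q ^ 2 * (q ^ 2 - q + 1) ∨ n = q * (q - 2) * (q ^ 2 - q - 1) ∨ (q = 9 ∧ n = 5025)) : p ∣ n := by
  have pq : p ∣ q := hq ▸ dvd_pow_self p (by rintro rfl; simp at hq; omega)
  rcases h with rfl | rfl | ⟨rfl, rfl⟩
  · exact (pq.trans (dvd_pow_self q two_ne_zero)).mul_right _
  · exact (pq.mul_right _).mul_right _
  · obtain rfl := (Nat.prime_dvd_prime_iff_eq hp Nat.prime_three).1 (hp.dvd_of_dvd_pow (n := 2) pq)
    decide

theorem arith2 {q p f n k : ℕ} (hq : q = p ^ f) (q3 : 3 ≤ q) (qo : Odd q) (hp : p.Prime)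
    (h : n = q ^ 2 * (q ^ 2 - q + 1) ∨ n = q * (q - 2) * (q ^ 2 - q - 1) ∨ (q = 9 ∧ n = 5025))
    (d : p ^ k ∣ n) (k0 : 0 < k) (m : 2 * (q - 1) ∣ p ^ k - 1) : n = q ^ 2 * (q ^ 2 - q + 1) ∧ p ^ k = q ^ 2 := by
  have pq : p ∣ q := hq ▸ dvd_pow_self p (by rintro rfl; simp at hq; omega)
  have p1 : 1 < p ^ k := Nat.one_lt_pow k0.ne' hp.one_lt
  have big : q < p ^ k := by have := Nat.le_of_dvd (by omega) m; omega
  have co : ∀ {a b : ℕ}, ¬ p ∣ b → p ^ k ∣ a * b → p ^ k ∣ a := fun h d =>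
    (((Nat.Prime.coprime_iff_not_dvd hp).2 h).pow_left k).dvd_of_dvd_mul_right d
  have sq : q ≤ q ^ 2 := Nat.le_self_pow two_ne_zero q
  have sq' : q + 1 ≤ q ^ 2 := by nlinarith
  have pd : p ∣ q ^ 2 - q := Nat.dvd_sub (pq.trans (dvd_pow_self q two_ne_zero)) pq
  rcases h with rfl | rfl | ⟨rfl, rfl⟩
  · refine ⟨rfl, ?_⟩
    have d2 := co (fun e => hp.one_lt.ne' (Nat.dvd_one.1 ((Nat.dvd_add_right pd).1 e))) d
    obtain ⟨j, hj⟩ : q ∣ p ^ k := hq ▸ pow_dvd_pow p ((Nat.pow_lt_pow_iff_right hp.one_lt).1 (hq ▸ big)).le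
    rw [hj] at d2 m big ⊢
    have j1 : 1 < j := by by_contra c; nlinarith
    have jq : j ≤ q := Nat.le_of_dvd (by omega) (Nat.dvd_of_mul_dvd_mul_left (by omega) (pow_two q ▸ d2))
    have : q - 1 ∣ j - 1 := by
      have e : q * j - 1 = (q - 1) * j + (j - 1) := by
        obtain ⟨a, rfl⟩ : ∃ a, q = a + 1 := ⟨q - 1, by omega⟩
        rw [Nat.add_sub_cancel, add_mul, one_mul]; omega
      exact (Nat.dvd_add_right (Dvd.intro _ rfl)).1 (e ▸ (Dvd.intro_left 2 rfl).trans m)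
    have := Nat.le_of_dvd (by omega) this
    rw [show j = q by omega, pow_two]
  · have p2 : ¬ p ∣ q - 2 := fun e => by
      have := (Nat.dvd_sub_iff_right (by omega) pq).1 e
      rw [(Nat.prime_dvd_prime_iff_eq hp Nat.prime_two).1 this] at pq
      obtain ⟨a, rfl⟩ := qo
      omega
    have := co p2 (co (fun e => hp.one_lt.ne' (Nat.dvd_one.1 ((Nat.dvd_sub_iff_right (by omega) pd).1 e))) d)
    have := Nat.le_of_dvd (by omega) this
    omega
  · obtain rfl := (Nat.prime_dvd_prime_iff_eq hp Nat.prime_three).1 (hp.dvd_of_dvd_pow (n := 2) pq)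
    have := Nat.le_of_dvd (by decide) (co (a := 3) (b := 1675) (by decide) d)
    omega

theorem all_dvd {n : ℕ} {P : ℕ → Prop} (h : ∀ i < 60, ∀ j < 60, 60 * i + j ∣ n → P (60 * i + j)) (n0 : 0 < n)
    (hn : n < 3600) {a : ℕ} (d : a ∣ n) : P a := by
  have := Nat.le_of_dvd n0 d
  rw [← Nat.div_add_mod a 60] at d ⊢
  exact h _ (by omega) _ (by omega) d

variable {G : Type u} [Group G] [Finite G]

theorem norm_mod {P : Subgroup G} {s : ℕ} (hs : s.Prime) (hP : Nat.card P = s) (h : ¬ s * s ∣ Nat.card G) :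
    (𝒩(P)).index % s = 1 := by
  haveI := Fact.mk hs
  have p : IsPGroup s P := IsPGroup.of_card (n := 1) (by rw [hP, pow_one])
  have := card_sylow_modEq_one s G
  rw [Sylow.card_eq_index_normalizer (p.toSylow fun e => h (by
    rw [← P.card_mul_index, hP]; exact Nat.mul_dvd_mul_left s e))] at this
  exact Eq.trans this (Nat.mod_eq_of_lt hs.one_lt)

theorem rel_dvd {P : Subgroup G} {s : ℕ} (hs : s.Prime) (hP : Nat.card P = s) : (𝒞(P)).relIndex (𝒩(P)) ∣ s - 1 := by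
  haveI := Fact.mk hs
  haveI := isCyclic_of_prime_card hP
  have := card_subgroup_dvd_card P.normalizerMonoidHom.range
  rwa [← index_ker, normalizerMonoidHom_ker, IsCyclic.card_mulAut, hP, Nat.totient_prime hs] at this

theorem no_85 [IsSimpleGroup G] {N : Subgroup G} (hN : N ≠ ⊤) (hi : N.index ≤ 21) {g : G} (hg : orderOf g = 85) :
    False := by
  classical
  have := Fintype.ofFinite (G ⧸ N)
  have inj : Function.Injective (MulAction.toPermHom G (G ⧸ N)) := by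
    rw [← MonoidHom.ker_eq_bot_iff, ← normalCore_eq_ker]
    exact (normalCore_normal N).eq_bot_or_eq_top.resolve_right fun e => hN (top_le_iff.1 (e ▸ normalCore_le N))
  rw [← orderOf_injective _ inj] at hg
  generalize MulAction.toPermHom G (G ⧸ N) g = σ at hg
  have h1 := σ.sum_cycleType_le
  rw [← Nat.card_eq_fintype_card, ← index_eq_card] at h1
  have h2 : ∀ a ∈ σ.cycleType, a = 5 ∨ a = 17 := fun a ha => by
    have := (Multiset.single_le_sum (fun _ _ => Nat.zero_le _) a ha).trans (h1.trans hi)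
    exact (show ∀ a < 22, 2 ≤ a → a ∣ 85 → a = 5 ∨ a = 17 by decide) a (by omega)
      (Equiv.Perm.two_le_of_mem_cycleType ha) (hg ▸ Equiv.Perm.dvd_of_mem_cycleType ha)
  have h5 : 5 ∈ σ.cycleType := by_contra fun c => absurd (hg ▸ σ.lcm_cycleType ▸ Multiset.lcm_dvd.2 fun a ha => by
    rw [(h2 a ha).resolve_left fun e => c (e ▸ ha)] : 85 ∣ 17) (by decide)
  have h17 : 17 ∈ σ.cycleType := by_contra fun c => absurd (hg ▸ σ.lcm_cycleType ▸ Multiset.lcm_dvd.2 fun a ha => by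
    rw [(h2 a ha).resolve_right fun e => c (e ▸ ha)] : 85 ∣ 5) (by decide)
  have := Multiset.single_le_sum (fun _ _ => Nat.zero_le _) 5 ((Multiset.mem_erase_of_ne (by decide)).2 h5 :
    5 ∈ σ.cycleType.erase 17)
  rw [← Multiset.cons_erase h17, Multiset.sum_cons] at h1
  omega

namespace CU

variable [Fintype G] {q : ℕ} {C Z T Y U X H Y1 : Subgroup G} {t w u x r : G} {lam : C →* ℂˣ} {θ1 θ2 : Y →* ℂˣ}
  (c : CU q C Z T Y U X H Y1 t w u x r lam θ1 θ2)
include c

theorem not_four {P : Subgroup G} (hP : Nat.card P = 7) (h : ¬ 7 ∣ Nat.card C) : ¬ 4 ∣ Nat.card (𝒩(P)) := by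
  have o : ¬ 2 ∣ Nat.card (𝒞(P)) := fun e => by
    obtain ⟨i, hi⟩ := exists_prime_orderOf_dvd_card' 2 e
    have i2 : (i : G) * i = 1 := congrArg Subtype.val (show i * i = 1 by rw [← sq, ← hi, pow_orderOf_eq_one])
    obtain ⟨g, hg⟩ := isConj_iff.1 (c.cj i i2 fun e => by rw [show i = 1 from Subtype.ext e] at hi; simp at hi)
    have : P ≤ C :^ g := by
      rw [c.hC]
      exact fun a ha => (conjg_cent1 t g).ge (hg ▸ mem_c1.2 (i.2 a ha))
    exact h (by rw [← hP, ← card_conjg C g]; exact card_dvd_of_le this)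
  obtain ⟨k, hk⟩ := rel_dvd (by decide) hP
  rw [← card_mul_relIndex (centralizer_le_normalizer (P : Set G))]
  intro d
  have := ((Nat.coprime_two_left.2 (Nat.odd_iff.2 (Nat.two_dvd_ne_zero.1 o))).pow_left 2).dvd_of_dvd_mul_left d
  exact absurd (this.trans (Dvd.intro _ hk.symm)) (by decide)

theorem not_3_35 (h : q = 3) (hn : C.index = 35) : False := by
  subst h
  obtain ⟨m, ⟨a, rfl⟩, hm⟩ := c.oZ
  have z : Nat.card Z = 4 := by
    have := Nat.le_of_dvd (by decide) (Dvd.intro_left _ hm)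
    obtain rfl | rfl : a = 0 ∨ a = 1 := by omega
    all_goals omega
  have k := c.kC
  rw [z] at k
  have kG : Nat.card G = 3360 := by rw [← index_mul_card C, hn, k]; rfl
  haveI : Fact (Nat.Prime 7) := ⟨by decide⟩
  obtain ⟨g, hg⟩ := exists_prime_orderOf_dvd_card' (G := G) 7 (by rw [kG]; decide)
  rw [← Nat.card_zpowers] at hg
  have h1 := c.not_four hg (by rw [k]; decide)
  have h2 := norm_mod (by decide) hg (by rw [kG]; decide)
  have h3 := index_mul_card (𝒩(zpowers g))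
  rw [kG] at h3
  have := all_dvd (P := fun a => a % 7 = 1 → 4 ∣ 3360 / a) (by decide +kernel) (by decide) (by decide)
    (Dvd.intro _ h3) h2
  rw [← h3, Nat.mul_div_cancel_left _ (by omega)] at this
  exact h1 this

set_option synthInstance.maxSize 1000 in
theorem not_5_357 [IsSimpleGroup G] (h : q = 5) (hn : C.index = 357) : False := by
  subst h
  obtain ⟨m, ⟨a, rfl⟩, hm⟩ := c.oZ
  have z : Nat.card Z = 2 ∨ Nat.card Z = 6 := by
    have := Nat.le_of_dvd (by decide) (Dvd.intro_left _ hm)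
    obtain rfl | rfl | rfl : a = 0 ∨ a = 1 ∨ a = 2 := by omega
    all_goals omega
  have k := c.kC
  have kG : Nat.card G = 42840 * Nat.card Z := by rw [← index_mul_card C, hn, k]; ring
  have x5 : orderOf x = 5 := ((show Nat.Prime 5 by decide).eq_one_or_self_of_dvd _
    (c.cs.kX ▸ orderOf_dvd_natCard X c.cs.xX)).resolve_left fun e => c.cs.x1 (orderOf_eq_one_iff.1 e)
  have kP : Nat.card (zpowers x) = 5 := by rw [Nat.card_zpowers, x5]
  have xx : ∀ {i : ℕ}, x ^ i = 1 → 5 ∣ i := fun e => x5 ▸ orderOf_dvd_of_pow_eq_one e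
  have UD : 𝒞[x] ⊓ 𝒞[t] = U := le_antisymm (fun g hg => c.cs.tiX 1 (one_mem _) g (c.hC ▸ hg.2)
    (by rw [one_mul]; exact conj_eq_iff.2 hg.1)) fun g hg => ⟨conj_eq_iff.1 (c.cs.Ux g hg), c.hC ▸ c.cs.UC hg⟩
  have it : IsInv t := ⟨c.t2, c.t1⟩
  have tU : t ∈ U := UD ▸ ⟨mem_c1.2 (c.cen t c.tZ x (c.XC c.cs.xX)), mem_c1.2 rfl⟩
  have kt : Nat.card (zpowers t) = 2 := by rw [Nat.card_zpowers, it.ord]
  have s2 := (npc (K := 𝒞[x]) it (mem_zpowers t) (UD.symm ▸ sylow_mk (zpowers_le.2 tU) (two_zpowers c.t2) (by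
    have := card_mul_relIndex (zpowers_le.2 tU)
    rw [kt, c.cs.kU] at this
    omega)) inferInstance).1
  have d4 : ¬ 4 ∣ Nat.card (𝒞[x]) := by
    have a := card_mul_relIndex s2.le
    have := IsSylowOf.not_dvd_index s2 Nat.prime_two
    rw [kt] at a
    omega
  obtain ⟨g, -, hg⟩ := c.cs.cjX (x ^ 2) (pow_mem c.cs.xX 2) fun e => absurd (xx e) (by decide)
  have gN : g ∈ 𝒩(zpowers x) := mem_norm_of_forall (by
    rintro _ ⟨i, rfl⟩
    exact ⟨2 * i, by simp only; rw [← conj_zpow, hg, zpow_mul, zpow_ofNat]⟩)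
  have four : ∀ {N : Subgroup G} {m : G}, m ∈ N → m * x * m⁻¹ = x ^ 2 → ∀ j, m ^ j * x * (m ^ j)⁻¹ = x → 4 ∣ j := by
    intro N m _ hm j e
    have f : ∀ j, m ^ j * x * (m ^ j)⁻¹ = x ^ 2 ^ j := fun j => by
      induction j with
      | zero => simp
      | succ j ih =>
        rw [show m ^ (j + 1) * x * (m ^ (j + 1))⁻¹ = m ^ j * (m * x * m⁻¹) * (m ^ j)⁻¹ by rw [pow_succ]; group, hm,
          ← conj_pow, ih, ← pow_mul, ← pow_succ]
    have : 2 ^ j ≡ 1 [MOD 5] := x5 ▸ pow_eq_pow_iff_modEq.1 ((f j).symm.trans (e.trans (pow_one x).symm))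
    rw [← Nat.div_add_mod j 4, pow_add, pow_mul] at this
    have := (((show 2 ^ 4 ≡ 1 [MOD 5] by decide).pow (j / 4)).mul_right (2 ^ (j % 4))).symm.trans this
    rw [one_pow, one_mul] at this
    exact Nat.dvd_of_mod_eq_zero ((show ∀ i < 4, 2 ^ i ≡ 1 [MOD 5] → i = 0 by decide) _ (Nat.mod_lt _ (by decide)) this)
  have r4 : (𝒞[x]).relIndex (𝒩(zpowers x)) = 4 := by
    have a := rel_dvd (by decide) kP
    rw [cent_zpowers] at a
    refine Nat.dvd_antisymm a (four gN hg _ (conj_eq_iff.2 ?_))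
    haveI : ((𝒞[x]).subgroupOf (𝒩(zpowers x))).Normal := cent_zpowers x ▸ normal_subgroupOf_centralizer_normalizer _
    exact pow_index_mem (H := (𝒞[x]).subgroupOf (𝒩(zpowers x))) ⟨g, gN⟩
  have d7 : ¬ 7 ∣ Nat.card (𝒞[x]) := fun e => by
    obtain ⟨P, hP⟩ := sylow_exists (show Nat.Prime 7 by decide) (𝒞[x])
    have kP : Nat.card P = 7 := by
      obtain ⟨i, hi⟩ := (pGrp_iff_card (show Nat.Prime 7 by decide)).1 hP.pGrp
      have a := (hP.dvd_card_iff (by decide) rfl).2 e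
      have b := card_subgroup_dvd_card P
      rw [hi] at a b ⊢
      rw [kG] at b
      match i, a, b with
      | 0, a, _ => exact absurd a (by decide)
      | 1, _, _ => rfl
      | i + 2, _, b => exact absurd ((pow_dvd_pow 7 (Nat.le_add_left 2 i)).trans b) (by omega)
    obtain ⟨d, hd, m, hm, e⟩ := frattini_arg_mem (by decide) hP (g := g) (cent_zpowers x ▸ norm_cent le_rfl gN)
    refine c.not_four kP (by rw [k]; omega) (four hm ?_ _ ?_)
    · rw [show m = d⁻¹ * g by rw [e]; group, show d⁻¹ * g * x * (d⁻¹ * g)⁻¹ = d⁻¹ * (g * x * g⁻¹) * d⁻¹⁻¹ by group, hg,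
        ← conj_pow, conj_eq_iff.2 (inv_mem hd)]
    · rw [show m ^ Nat.card (𝒩(P)) = 1 from congrArg Subtype.val (pow_card_eq_one' (x := (⟨m, hm⟩ : 𝒩(P))))]
      simp
  have d17 : 17 ∣ Nat.card (𝒞[x]) := by
    obtain ⟨κ, hκ⟩ := card_dvd_of_le (UD ▸ inf_le_left : U ≤ 𝒞[x])
    have h1 := norm_mod (by decide) kP (by rw [kG]; omega)
    have h2 := index_mul_card (𝒩(zpowers x))
    have h3 := card_mul_relIndex (cent_zpowers x ▸ centralizer_le_normalizer _ : 𝒞[x] ≤ 𝒩(zpowers x))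
    rw [c.cs.kU] at hκ
    rw [← h3, r4, hκ, kG] at h2
    have h4 : κ * (𝒩(zpowers x)).index = 2142 := Nat.eq_of_mul_eq_mul_left (show 0 < 20 * Nat.card Z by omega)
      (by linear_combination h2)
    rw [hκ] at d4 d7 ⊢
    refine Dvd.dvd.mul_left (all_dvd (P := fun a => 2142 / a % 5 = 1 → ¬ 2 ∣ a → ¬ 7 ∣ a → 17 ∣ a) (by decide +kernel)
      (by decide) (by decide) (Dvd.intro _ h4) ?_ (fun e => d4 ?_) fun e => d7 (e.mul_left _)) _
    · rwa [← h4, Nat.mul_div_cancel_left _ (Nat.pos_of_ne_zero (by rintro rfl; omega))]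
    · exact Nat.mul_dvd_mul (show 2 ∣ 5 * Nat.card Z by omega) e
  haveI : Fact (Nat.Prime 17) := ⟨by decide⟩
  obtain ⟨⟨h, hD⟩, h17⟩ := exists_prime_orderOf_dvd_card' 17 d17
  rw [orderOf_mk] at h17
  have cm : Commute h x := mem_c1.1 hD
  have o85 : orderOf (h * x) = 85 := by rw [cm.orderOf_mul_eq_mul_orderOf_of_coprime (by rw [h17, x5]; decide), h17, x5]
  have kh : Nat.card (zpowers h) = 17 := by rw [Nat.card_zpowers, h17]
  refine no_85 (N := 𝒩(zpowers h)) (fun e => ?_) ?_ o85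
  · rcases (normalizer_eq_top_iff.1 e).eq_bot_or_eq_top with e | e <;> rw [e] at kh
    · simp at kh
    · rw [card_top, kG] at kh; omega
  · have h1 := norm_mod (by decide) kh (by rw [kG]; omega)
    have h2 := index_mul_card (𝒩(zpowers h))
    obtain ⟨b, hb⟩ : 85 ∣ Nat.card (𝒩(zpowers h)) := o85 ▸ orderOf_dvd_natCard _ (mul_mem (le_normalizer (mem_zpowers h))
      (centralizer_le_normalizer _ (cent_zpowers h ▸ mem_c1.2 cm.symm)))
    rw [hb, kG] at h2
    have h3 : (𝒩(zpowers h)).index ∣ 3024 := (Dvd.intro b (show _ = 504 * Nat.card Z by linarith)).trans (by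
      rcases z with e | e <;> rw [e] <;> decide)
    exact all_dvd (P := fun a => a % 17 = 1 → a ≤ 21) (by decide +kernel) (by decide) (by decide) h3 h1

theorem index_cases [IsSimpleGroup G] {p f : ℕ} (hp : p.Prime) (hq : q = p ^ f) {y z : ℤ}
    (hy : y ∣ q * (q ^ 2 - 1)) (hz : z ∣ q * (q - 1) ^ 2) (e : y + z = 1 - q)
    (hn : (C.index : ℤ) = (q ^ 2 - 1 + y) * (q ^ 2 - q + y))
    (hr : ∀ l : ℕ, l.Prime → l ≠ 2 → l ∣ q - 1 → ¬ l ∣ C.index) :
    C.index = q ^ 2 * (q ^ 2 - q + 1) ∨ C.index = q * (q - 2) * (q ^ 2 - q - 1) ∨ (q = 9 ∧ C.index = 5025) := by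
  have q3 := c.q3
  have sq : q + 1 ≤ q ^ 2 := by nlinarith
  rcases arith hp hq c.qo q3 hy hz e hn c.oddC hr with rfl | rfl | ⟨a, rfl⟩ | ⟨a, rfl⟩ | ⟨a, rfl⟩
  · left
    zify [show q ≤ q ^ 2 by omega]
    rw [hn]; ring
  · right; left
    zify [show q ≤ q ^ 2 by omega, show 2 ≤ q by omega, show 1 ≤ q ^ 2 - q by omega]
    rw [hn]; ring
  · exact .inr (.inr ⟨a, by rw [a] at hn; omega⟩)
  · exact (c.not_3_35 a (by rw [a] at hn; omega)).elim
  · exact (c.not_5_357 a (by rw [a] at hn; omega)).elim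

end CU

end CA.Bu

theorem CA.realizeEqns_Bu_Arith : True := by

  trivial
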