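import Cfsg.Agent.Bu.Loc1

/-!
# Local analysis for `C(t) = GU₂(q)/Z₀`: centralisers of elements of `Y` and the group `Q`
-/

set_option autoImplicit false
set_option linter.unusedSectionVars false

open Cfsg Subgroup CA.Dih CA.FG CA.BG CA.GW CA.GW.BA CA.Br

namespace CA.Bu

universe u

variable {G : Type u} [Group G] [Finite G]

theorem semi {A H D : Subgroup G} (hH : A ≤ 𝒩(H)) (hD : A ≤ 𝒩(D)) (h : ∀ a ∈ A, (orderOf a).Prime → H ⊓ 𝒞[a] ≤ D) :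
    Nat.card A ∣ Nat.card (D ⊓ H : Subgroup G) * (D.relIndex H - 1) := by
  let i : MulAction G G := MulAction.compHom G (MulAut.conj : G →* MulAut G)
  have := @dvd_ncard_of_orbits G _ _ G i _ A ((H : Set G) \ (D ⊓ H : Subgroup G)) (fun a ha x hx =>
    ⟨conj_mem_of_mem_norm (hH ha) hx.1, fun e => hx.2 ⟨(mem_normalizer_iff.1 (hD ha) x).2 e.1, hx.1⟩⟩) (Nat.card A)
    fun x hx => by
      rw [← inf_relIndex_right, show @MulAction.stabilizer G G _ i x ⊓ A = ⊥ from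
        (eq_bot_iff_forall _).2 fun a ha => by_contra fun a1 => by
          obtain ⟨b, hb, pb⟩ := exists_prime_orderOf_mem_zpowers a1
          have := zpowers_le.2 ha hb
          exact hx.2 ⟨h b this.2 pb ⟨hx.1, conj_eq_iff'.1 this.1⟩, hx.1⟩, relIndex_bot_left]
  rwa [Set.ncard_diff (show ((D ⊓ H : Subgroup G) : Set G) ⊆ H from fun _ h => h.2), ← Nat.card_coe_set_eq, ← Nat.card_coe_set_eq,
    SetLike.coe_sort_coe, SetLike.coe_sort_coe, ← card_inf_mul_relIndex D H, ← Nat.mul_sub_one] at this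

theorem sq_dvd {p f k : ℕ} (hp : 1 < p) (k0 : 1 < p ^ k) (h : 2 * (p ^ f - 1) ∣ p ^ k - 1) : (p ^ f) ^ 2 ∣ p ^ k := by
  have h1 := Nat.gcd_eq_left (Dvd.dvd.trans (Dvd.intro_left 2 rfl) h)
  rw [Nat.pow_sub_one_gcd_pow_sub_one] at h1
  have := Nat.one_le_pow (Nat.gcd f k) p hp.le
  have := Nat.one_le_pow f p hp.le
  obtain ⟨s, rfl⟩ := Nat.gcd_eq_left_iff_dvd.1 (Nat.pow_right_injective hp (by omega : p ^ Nat.gcd f k = p ^ f))
  rcases s with _ | _ | s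
  · simp at k0
  · rw [zero_add, mul_one] at h k0
    have := Nat.le_of_dvd (by omega) h
    omega
  · rw [← pow_mul]; exact pow_dvd_pow p (Nat.mul_le_mul_left f (by omega))

namespace LS

variable {q p : ℕ} {C Z T Y U X : Subgroup G} {t w u x r : G} (c : LS q p C Z T Y U X t w u x r)
include c

theorem inv {i : G} (hi : i ∈ Y) (e : IsInv i) : i = t := by
  obtain ⟨y, -, rfl⟩ := exists_gen_of_cyclic c.cyc
  exact dih_uniq hi (c.ZY c.tZ) e c.four.it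

theorem cY {a b : G} (ha : a ∈ Y) (hb : b ∈ Y) : a * b = b * a := abelian_iff_forall.1 (abelian_of_cyclic c.cyc) a ha b hb

/-- the centraliser of an element of `Y` of odd order dividing `q - 1` -/
theorem cent (hF : ∀ a ∈ Z, a ≠ 1 → ∀ g ∈ 𝒞[a], g * t * g⁻¹ ≠ u) (h4 : Z ≠ zpowers t) {l : ℕ} (hl : l.Prime) (l2 : l ≠ 2)
    (lq : l ∣ q - 1) {y : G} (yY : y ∈ Y) (py : IsPiElt {l} y) (y1 : y ≠ 1) {s : ℕ} (hs : s = l ∨ s = p) :
    𝒞[y] ⊓ 𝒞[t] = Y ∧ ¬ s ∣ (𝒞[t]).relIndex 𝒞[y] := by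
  have f := c.four
  have rz : ∀ a ∈ Z, IsPiElt {l} a → a = 1 := fun a ha pa => pa.eq_one (((piGrp_compl_singleton_iff hl).2
    fun d => (c.not_dvd hl l2 lq).2 (d.trans c.kZ)).piElt ha)
  have uy : u * y * u⁻¹ = y⁻¹ := eq_inv_of_mul_eq_one_right (rz _ (c.uZ y yY) (py.mul (py.conj _) (c.cY yY (c.uY y yY))))
  have cy : 𝒞[y] ⊓ 𝒞[t] = Y := by
    rw [← c.hC]
    refine le_antisymm (fun g hg => (c.tiY y yY (fun e => y1 (rz y e py)) g hg.2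
      (by rwa [conj_eq_iff.2 hg.1])).resolve_right fun e => y1 ?_) fun g hg => ⟨mem_c1.2 (c.cY hg yY), c.YC hg⟩
    refine eq_one_of_inv (py.mono (by simpa using l2.symm)) ?_
    have : g * u * y * (g * u)⁻¹ = y := conj_eq_iff.2 (mem_c1.2 (c.cY e yY))
    rw [show g * u * y * (g * u)⁻¹ = g * (u * y * u⁻¹) * g⁻¹ by group, uy, ← conj_inv, conj_eq_iff.2 hg.1] at this
    exact this.symm
  obtain ⟨R, hR, tR⟩ := sylow_superset Nat.prime_two (two_zpowers c.t2) (zpowers_le.2 (c.ZY c.tZ))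
  obtain ⟨-, sd, hO⟩ := npc f.it (tR (mem_zpowers _)) (cy.symm ▸ hR) (cyclic_of_le c.cyc hR.le)
  have ZK : Z ≤ 𝒞[y] := c.ZY.trans (cy ▸ inf_le_left)
  have nO : ∀ g ∈ 𝒩(𝒞[y]), g ∈ 𝒩(OO 𝒞[y]) := fun g hg => norm_pcore _ le_rfl hg
  have uK : u ∈ 𝒩(𝒞[y]) := mem_norm_of_forall fun g hg => cent1_symm.1 (by
    have := conj_mem_conjg u (inv_mem (cent1_symm.1 hg))
    rwa [conjg_cent1, ← conj_inv, uy, inv_inv] at this)
  have bw := BW' hO.piGrp f (nO _ (le_normalizer (ZK c.tZ))) (nO _ uK)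
  obtain ⟨z, zZ, z2⟩ : ∃ z ∈ Z, z * z ≠ 1 ∧ (IsPiElt {2}ᶜ z ∨ IsPiElt {2} z) := by
    obtain ⟨z, zZ, zt⟩ := SetLike.exists_of_lt (lt_of_le_of_ne (zpowers_le.2 c.tZ) h4.symm)
    obtain ⟨a, b, ha, hb, pa, pb, e, -⟩ := exists_piPart {2} z
    by_cases b1 : b = 1
    · rw [b1, mul_one] at e
      exact ⟨z, zZ, fun e => zt ((mem_zpowers_inv c.t2).2 (or_iff_not_imp_left.2 fun k => c.inv (c.ZY zZ) ⟨e, k⟩)),
        .inr (e ▸ pa)⟩
    · exact ⟨b, zpowers_le.2 zZ hb, fun e => b1 (eq_one_of_inv pb (eq_inv_of_mul_eq_one_left e)), .inl pb⟩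
  have key : ∀ g j, g * j * g⁻¹ = t → (∀ a ∈ T, g * a * g⁻¹ ∈ T) → (∃ a ∈ C, ∃ b ∈ 𝒞[j], a * b * t * (a * b)⁻¹ = u) →
      ¬ s ∣ Nat.card (OO 𝒞[y] ⊓ 𝒞[j] : Subgroup G) := fun g j gj gT ⟨a, ha, b, hb, ab⟩ d => by
    have e : 𝒞[j] :^ g = C := by rw [conjg_cent1, gj, c.hC]
    have zj : z ∈ 𝒞[j] := by
      rw [← conj_mem_conjg_iff (g := g), e]; exact c.TC (gT z (c.ZT zZ))
    have k1 : g * z * g⁻¹ * (g * z * g⁻¹) ∉ Z := fun k => hF _ (mul_mem zZ zZ) z2.1 _ (mul_mem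
      (mem_c1.2 (c.cen _ (mul_mem zZ zZ) a ha).symm) (mem_c1.2 (by
        have := c.cen _ k _ (e ▸ conj_mem_conjg g hb)
        rw [← conj_mul', ← conj_mul', ← conj_mul'] at this
        exact (mul_left_cancel (mul_right_cancel this)).symm))) ab
    have k2 : g * z * g⁻¹ ∈ (OO 𝒞[y] ⊓ 𝒞[j]) :^ g ∨ IsPiElt {2} (g * z * g⁻¹) ∧ g * z * g⁻¹ ∈ 𝒩((OO 𝒞[y] ⊓ 𝒞[j]) :^ g) :=
      z2.2.imp (fun a => conj_mem_conjg g ⟨hO.mem_of_normal (pcore_norm _ _) a (ZK zZ), zj⟩) fun a => ⟨a.conj g, by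
        rw [← conjg_norm]; exact conj_mem_conjg g (norm_inf_c1 (nO _ (le_normalizer (ZK zZ))) zj)⟩
    have o := (hO.piGrp.inf_left 𝒞[j]).conjg g
    have k3 := e ▸ conjg_mono g (inf_le_right : OO 𝒞[y] ⊓ 𝒞[j] ≤ _)
    rw [← card_conjg _ g] at d
    rcases hs with rfl | rfl
    exacts [c.core hl l2 lq o k3 d (gT z (c.ZT zZ)) k1 k2, c.coreP o k3 d (gT z (c.ZT zZ)) k1 k2]
  have wt : w * t * w⁻¹ = t := conj_eq_iff.2 (c.hC ▸ c.wC)
  have rtu : r * (t * u) * r⁻¹ = t := by rw [conj_mul', c.rt, c.ru, f.sts]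
  have wtu : w * (t * u) * w⁻¹ = u := by rw [conj_mul', wt, c.wu, f.tts]
  have k1 := key (r * r) u (by rw [← rtu, ← c.ru]; group) (fun a ha => by convert c.rT _ (c.rT a ha) using 1; group)
    ⟨w, c.wC, r * w * r⁻¹, by rw [← c.rt, ← conjg_cent1, ← c.hC]; exact conj_mem_conjg r c.wC, by
      rw [show w * (r * w * r⁻¹) * t * (w * (r * w * r⁻¹))⁻¹ = w * (r * (w * (r⁻¹ * t * r) * w⁻¹) * r⁻¹) * w⁻¹ by group,
        show r⁻¹ * t * r = t * u by rw [mul_assoc, inv_mul_eq_iff_eq_mul, ← mul_inv_eq_iff_eq_mul.1 rtu], wtu, c.ru, wtu]⟩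
  have k2 := key r _ rtu c.rT ⟨1, one_mem _, r⁻¹ * w * r, mem_conjg.1 (by rw [conjg_cent1, rtu, ← c.hC]; exact c.wC), by
      rw [show 1 * (r⁻¹ * w * r) * t * (1 * (r⁻¹ * w * r))⁻¹ = r⁻¹ * (w * (r * t * r⁻¹) * w⁻¹) * r by group, c.rt, c.wu,
        ← c.ru]; group⟩
  refine ⟨cy, fun d => ?_⟩
  rw [rel_cj hO.le fun n hn => by
    obtain ⟨o, ho, a, ha, rfl⟩ := (mem_sup_of_right_le_norm sd.norm).1 (sd.sup_eq.ge hn)
    exact ⟨o, ho, by rw [show o * a * t * (o * a)⁻¹ = o * (a * t * a⁻¹) * o⁻¹ by group,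
      conj_eq_iff.2 (c.hC.le (c.YC (hR.le ha)))]⟩] at d
  exact (((hs.elim (· ▸ hl) (· ▸ c.hp)) : s.Prime).dvd_mul.1 (bw ▸ d.mul_right _)).elim k1 k2

theorem gcd (hF : ∀ a ∈ Z, a ≠ 1 → ∀ g ∈ 𝒞[a], g * t * g⁻¹ ≠ u) (h4 : Z ≠ zpowers t) {l : ℕ} (hl : l.Prime) (l2 : l ≠ 2)
    (lq : l ∣ q - 1) : ¬ l ∣ C.index := fun rh => by
  obtain ⟨P, hP⟩ := sylow_exists hl Y
  obtain ⟨S, hS, PS⟩ := sylow_superset hl hP.piGrp (le_top (a := P))
  have lt := nilpotent_proper_norm hS.pGrp.nil (lt_of_le_of_ne PS fun e => IsSylowOf.not_dvd_index hS hl (by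
    rw [← e, relIndex_top_right]; exact rh.trans (index_dvd_of_le (hP.le.trans c.YC))))
  have pN : IsPGrp l (S ⊓ 𝒩(P)) := hS.piGrp.inf_left _
  obtain ⟨y, hy, y1⟩ := exists_mem_ne_one (meet_center_nil pN.nil ⟨lt.le, inf_le_right⟩
    (IsSylowOf.ne_bot' hP hl (c.kY ▸ lq.mul_right _)))
  obtain ⟨e, d⟩ := c.cent hF h4 hl l2 lq (hP.le hy.1) (hP.piGrp.piElt hy.1) y1 (.inl rfl)
  have d1 := card_dvd_of_le (show S ⊓ 𝒩(P) ≤ 𝒞[y] from fun g hg => mem_c1.2 (hy.2.2 g hg))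
  rw [← card_inf_mul_relIndex 𝒞[t] 𝒞[y], inf_comm 𝒞[t], e, ← card_mul_relIndex hP.le] at d1
  exact (card_lt_of_lt lt).not_ge (Nat.le_of_dvd Nat.card_pos (pN.dvd_of_dvd_mul hP.index
    (pN.dvd_of_dvd_mul ((piNat_compl_singleton_iff hl).2 d) d1)))

theorem nop (hF : ∀ a ∈ Z, a ≠ 1 → ∀ g ∈ 𝒞[a], g * t * g⁻¹ ≠ u) (h4 : Z ≠ zpowers t) {y : G} (yY : y ∈ Y)
    (hl : (orderOf y).Prime) (l2 : orderOf y ≠ 2) (lq : orderOf y ∣ q - 1) : ¬ p ∣ Nat.card 𝒞[y] := fun k => by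
  obtain ⟨e, d⟩ := c.cent hF h4 hl l2 lq yY (piNat_singleton_self hl) (fun e => by simp [e, Nat.not_prime_one] at hl) (.inr rfl)
  rw [← card_inf_mul_relIndex 𝒞[t], inf_comm, e, c.kY, c.hp.dvd_mul, c.hp.dvd_mul] at k
  exact k.elim (·.elim c.nd' c.pZ) d

/-- `N(X) = O(C(X)) N_C(X)` -/
theorem exO : ∃ O, IsPiGrp {2}ᶜ O ∧ X ≤ O ∧ O ≤ 𝒞(X) ∧ 𝒩(X) ≤ 𝒩(O) ∧
    (𝒩(X)).index * (𝒞[t]).relIndex O = C.index * (q + 1) ∧ X.relIndex 𝒩(X) = Nat.card Y * (𝒞[t]).relIndex O := by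
  have f := c.four
  have q3 := c.q3
  obtain ⟨S, hS, tS⟩ := sylow_superset Nat.prime_two (two_zpowers c.t2) (zpowers_le.2 c.tZ)
  have cy := cyclic_of_le c.cyc (hS.le.trans c.ZY)
  have ZU : Z ≤ U := c.U_eq ▸ le_sup_left
  have hU : IsSylowOf 2 S (𝒞(X) ⊓ 𝒞[t]) := c.hC ▸ c.cXC ▸ hS.trans_index ZU
    ((piNat_compl_singleton_iff Nat.prime_two).2 (by
      have := (card_mul_relIndex ZU).trans c.kU
      rw [mul_comm] at this
      rw [Nat.eq_of_mul_eq_mul_right Nat.card_pos this]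
      exact c.qo.not_two_dvd_nat))
  obtain ⟨s, sd, hO⟩ := npc f.it (tS (mem_zpowers _)) hU cy
  have e := rel_cj (N := 𝒩(X)) (t := t) (hO.le.trans (cent_le_norm _)) fun n hn => by
    obtain ⟨x, hx, m, hm, rfl⟩ := frattini_arg_mem Nat.prime_two s (norm_cent le_rfl hn)
    obtain ⟨o, ho, y, hy, rfl⟩ := (mem_sup_of_right_le_norm sd.norm).1 (sd.sup_eq.ge hx)
    obtain ⟨c, -, rfl⟩ := exists_gen_of_cyclic cy
    refine ⟨o, ho, ?_⟩
    rw [show o * y * m * t * (o * y * m)⁻¹ = o * (y * (m * t * m⁻¹) * y⁻¹) * o⁻¹ by group,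
      dih_uniq (conj_mem_of_mem_norm hm (tS (mem_zpowers _))) (tS (mem_zpowers _)) (f.it.conj m) f.it,
      conj_eq_iff.2 (hU.le hy).2]
  refine ⟨_, hO.piGrp, hO.le_of_normal (pcore_norm _ _) (odd_of_pGrp c.sylX.piGrp c.p2) (abelian_iff_le_cent.1 c.cX),
    hO.le, norm_pcore _ (norm_cent le_rfl), ?_⟩
  have k := (index_mul_card 𝒩(X)).trans (index_mul_card C).symm
  have k' := card_mul_relIndex (le_normalizer : X ≤ _)
  rw [← card_inf_mul_relIndex 𝒞[t] 𝒩(X), e, ← c.hC, c.kN] at k k'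
  rw [← c.hC]
  rw [c.kX, mul_assoc] at k'
  exact ⟨Nat.eq_of_mul_eq_mul_left (Nat.mul_pos (by omega : 0 < q) (Nat.card_pos (α := Y))) (by rw [c.kC'] at k; linarith),
    Nat.eq_of_mul_eq_mul_left (by omega) k'⟩

theorem exA {d : ℕ} (h : d ∣ Nat.card Y) : ∃ A ≤ Y, Nat.card A = d := by
  obtain ⟨y, -, rfl⟩ := exists_gen_of_cyclic c.cyc
  rw [Nat.card_zpowers] at h
  exact ⟨zpowers (y ^ (orderOf y / d)), zpowers_le.2 (pow_mem (mem_zpowers y) _), by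
    rw [Nat.card_zpowers, orderOf_pow_orderOf_div (orderOf_pos y).ne' h]⟩

theorem pl (hg : ∀ l : ℕ, l.Prime → l ≠ 2 → l ∣ q - 1 → ¬ l ∣ C.index)
    (hn : ∀ y ∈ Y, (orderOf y).Prime → orderOf y ≠ 2 → orderOf y ∣ q - 1 → ¬ p ∣ Nat.card 𝒞[y]) (d : p ∣ C.index) :
    ∃ (Q : Subgroup G) (m : ℕ), X ≤ Q ∧ Q ≤ 𝒞(X) ∧ t ∈ 𝒩(Q) ∧ Nat.card Q = q * m ∧ PiNat {p} m ∧ q ^ 2 ∣ m ∧
      m ∣ C.index := by
  obtain ⟨O, oO, XO, OX, nO, e, e'⟩ := c.exO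
  have q3 := c.q3
  have hp := c.hp
  have t2 : 2 ∣ Nat.card Z := c.four.it.ord ▸ orderOf_dvd_card_of_mem c.tZ
  obtain ⟨A, AY, kA⟩ := c.exA (d := 2 * (q - 1)) (by rw [c.kY, mul_comm]; exact Nat.mul_dvd_mul_left _ t2)
  have OU : 𝒞[t] ⊓ O ≤ U := by rw [← c.cXC, c.hC, inf_comm]; exact inf_le_inf_right _ OX
  obtain ⟨P, hP, nP⟩ := sol_coprime_Sylow_exists hp (.inr (sol_of_abelian (abelian_of_cyclic (cyclic_of_le c.cyc AY)))) (AY.trans (c.YN.trans nO))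
    (Nat.coprime_of_dvd fun l hl d1 d2 => by
      have l2 : l ≠ 2 := oO l hl d1
      rw [kA, hl.dvd_mul] at d2
      replace d2 := d2.resolve_left fun k => l2 ((Nat.prime_dvd_prime_iff_eq hl Nat.prime_two).1 k)
      have := c.not_dvd hl l2 d2
      rw [← card_inf_mul_relIndex 𝒞[t], hl.dvd_mul] at d1
      rcases d1 with d1 | d1
      · exact (hl.dvd_mul.1 (c.kU ▸ d1.trans (card_dvd_of_le OU))).elim this.1 fun k => this.2 (k.trans c.kZ)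
      · exact (hl.dvd_mul.1 (e ▸ d1.mul_left _)).elim (hg l hl l2 d2) this.2)
  have XP : X ≤ P := hP.le_of_norm_le c.sylX.piGrp XO (norm_of_cent (hP.le.trans OX))
  have cP : 𝒞[t] ⊓ P = X := c.sylX.eq_of_le (hP.piGrp.inf_right _) (le_inf (c.hC ▸ c.XC) XP) (c.hC ▸ inf_le_left)
  have tA : t ∈ A := by
    obtain ⟨i, hi, oi⟩ := exists_mem_orderOf_eq Nat.prime_two (kA ▸ dvd_mul_right 2 (q - 1))
    exact c.inv (AY hi) (isInv_of_ord oi) ▸ hi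
  have k := card_inf_mul_relIndex 𝒞[t] P
  have s := semi nP (norm_of_le (AY.trans (c.hC ▸ c.YC))) fun a ha pa => by
    by_cases a2 : orderOf a = 2
    · exact c.inv (AY ha) (isInv_of_ord a2) ▸ inf_le_right
    · have := orderOf_dvd_card_of_mem ha
      rw [kA, pa.dvd_mul] at this
      rw [hP.piGrp.inf_eq_bot ((piGrp_compl_singleton_iff hp).2 (hn a (AY ha) pa a2 (this.resolve_left fun k =>
        a2 ((Nat.prime_dvd_prime_iff_eq pa Nat.prime_two).1 k))))]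
      exact bot_le
  rw [cP, c.kX] at k s
  have pm := hP.piGrp.relIndex 𝒞[t]
  have m1 : (𝒞[t]).relIndex P ≠ 1 := fun m1 => by
    have : IsSylowOf p X ⊤ := sylow_of_sylow_norm hp le_top (by
      rw [top_inf_eq]
      refine sylow_mk le_normalizer c.sylX.piGrp fun k => ?_
      rw [e', c.kY, hp.dvd_mul, hp.dvd_mul, ← inf_relIndex_right] at k
      exact k.elim (·.elim c.nd' c.pZ) fun k => IsSylowOf.not_dvd_index hP hp
        (k.trans (relIndex_dvd_of_le_left _ (le_inf (relIndex_eq_one.1 m1) hP.le))))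
    exact IsSylowOf.not_dvd_index this hp (by rw [relIndex_top_right]; exact d.trans (index_dvd_of_le c.XC))
  refine ⟨P, _, XP, hP.le.trans OX, nP tA, k.symm, pm, ?_, ?_⟩
  · obtain ⟨f, rfl⟩ := (piNat_singleton_iff hp (by omega)).1 c.hq
    obtain ⟨i, hi⟩ := (piNat_singleton_iff hp (relIndex_pos _ _).ne').1 pm
    have := relIndex_pos 𝒞[t] P
    rw [hi] at s m1 this ⊢
    refine sq_dvd hp.one_lt (by omega) (kA ▸ Nat.Coprime.dvd_of_dvd_mul_left (Nat.Coprime.pow_right _ ?_) s)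
    rw [kA, Nat.coprime_comm, hp.coprime_iff_not_dvd, hp.dvd_mul]
    exact fun k => k.elim (fun k => c.p2 ((Nat.prime_dvd_prime_iff_eq hp Nat.prime_two).1 k)) c.nd'
  · have := card_subgroup_dvd_card P
    rw [← k, ← index_mul_card C, c.kC', mul_assoc, mul_left_comm, Nat.mul_dvd_mul_iff_left (by omega : 0 < q), c.kY] at this
    exact pm.dvd_of_dvd_mul ((piNat_compl_singleton_iff hp).2 fun k => (hp.dvd_mul.1 k).elim c.nd fun k =>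
      (hp.dvd_mul.1 k).elim c.nd' c.pZ) this

theorem hyps (hF : ∀ a ∈ Z, a ≠ 1 → ∀ g ∈ 𝒞[a], g * t * g⁻¹ ≠ u) (iv : Z = zpowers t → q = 5 ∨ q = 9) :
    (∀ l : ℕ, l.Prime → l ≠ 2 → l ∣ q - 1 → ¬ l ∣ C.index) ∧
    ∀ y ∈ Y, (orderOf y).Prime → orderOf y ≠ 2 → orderOf y ∣ q - 1 → ¬ p ∣ Nat.card 𝒞[y] := by
  by_cases h4 : Z = zpowers t
  · have : ∀ l : ℕ, l.Prime → l ≠ 2 → ¬ l ∣ q - 1 := fun l hl l2 d =>
      l2 ((Nat.prime_dvd_prime_iff_eq hl Nat.prime_two).1 (hl.dvd_of_dvd_pow (n := 3) (d.trans (by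
        rcases iv h4 with rfl | rfl <;> decide))))
    exact ⟨fun l hl l2 d => (this l hl l2 d).elim, fun y _ hl l2 d => (this _ hl l2 d).elim⟩
  · exact ⟨fun l hl l2 => c.gcd hF h4 hl l2, fun y hy => c.nop hF h4 hy⟩

theorem main (hF : ∀ a ∈ Z, a ≠ 1 → ∀ g ∈ 𝒞[a], g * t * g⁻¹ ≠ u) (iv : Z = zpowers t → q = 5 ∨ q = 9)
    (h : C.index = q ^ 2 * (q ^ 2 - q + 1) ∨ C.index = q * (q - 2) * (q ^ 2 - q - 1) ∨ (q = 9 ∧ C.index = 5025)) :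
    C.index = q ^ 2 * (q ^ 2 - q + 1) ∧ ∃ Q : Subgroup G, Nat.card Q = q ^ 3 ∧ X ≤ Q ∧ Q ≤ 𝒞(X) ∧ t ∈ 𝒩(Q) := by
  have pq := c.pq
  have q3 := c.q3
  obtain ⟨Q, m, h1, h2, h3, h4, h5, h6, h7⟩ := c.pl (c.hyps hF iv).1 (c.hyps hF iv).2 (by
    rcases h with h | h | ⟨rfl, h⟩ <;> rw [h]
    exacts [(dvd_pow pq two_ne_zero).mul_right _, (pq.mul_right _).mul_right _,
      (c.hp.dvd_of_dvd_pow (n := 2) (m := 3) pq).trans (by decide)])
  rcases h with h | h | ⟨rfl, h⟩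
  · refine ⟨h, Q, ?_, h1, h2, h3⟩
    rw [h4, Nat.dvd_antisymm (h5.dvd_of_dvd_mul ((piNat_compl_singleton_iff c.hp).2 fun d => c.hp.one_lt.ne' (Nat.dvd_one.1
      ((Nat.dvd_add_right (Nat.dvd_sub (dvd_pow pq two_ne_zero) pq)).1 d))) (h ▸ h7)) h6]
    ring
  · have := h6.trans h7
    rw [h, sq, mul_assoc, Nat.mul_dvd_mul_iff_left (by omega : 0 < q)] at this
    have k : (q : ℤ) ∣ (q - 2) * (q * q - q - 1) := by
      have h1 : q + 1 ≤ q * q := by nlinarith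
      rw [Nat.sub_sub] at this
      have := Int.natCast_dvd_natCast.2 this
      push_cast [h1, (by omega : 2 ≤ q)] at this
      convert this using 2; ring
    have : (q : ℤ) ∣ 2 := by
      have := dvd_sub k (dvd_mul_right (q : ℤ) (q * q - 3 * q + 1))
      rwa [show ((q : ℤ) - 2) * (q * q - q - 1) - q * (q * q - 3 * q + 1) = 2 by ring] at this
    have := Int.le_of_dvd two_pos this
    omega
  · exact absurd (h ▸ h6.trans h7) (by decide)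

end LS

end CA.Bu
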