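import Cfsg.Agent.Br.Ch3

/-!
# The abstract shape of `GU₂(q)/Z` used by the character theory
-/

set_option autoImplicit false
set_option linter.unusedSectionVars false

open Cfsg Subgroup CA.Dih CA.Br

namespace CA.Bu

universe u

variable {G : Type u} [Group G]

open Classical in
/-- `C = C(t) = GU₂(q)/Z₀`, `Z` centre, `T = C(u)` of order `(q+1)|Z|`, `Y` cyclic of order `(q-1)|Z|` (so `CS` holds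
with the roles of the two tori and of `u`, `w` exchanged), `H = T ∩ SU₂`, `Y1 = Y ∩ SU₂`, `r` of order three modulo `T`,
`lam` = (a character of `2`-power order of the norm one group with `lam(-1) = -1`) ∘ det, `θ1 θ2` characters of
`2`-power order of `Y` not fixed by `u`. -/
structure CU [Fintype G] (q : ℕ) (C Z T Y U X H Y1 : Subgroup G) (t w u x r : G)
    (lam : C →* ℂˣ) (θ1 θ2 : Y →* ℂˣ) : Prop where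
  cs : CS q C Z Y T U X u w x
  qo : Odd q
  hC : C = centralizer {t}
  t2 : t * t = 1
  t1 : t ≠ 1
  tZ : t ∈ Z
  uT : u ∈ T
  wu : w * u * w⁻¹ = t * u
  cyY : IsCyclic Y
  cyH : IsCyclic H
  invY : ∀ y ∈ Y, y * y = 1 → y = 1 ∨ y = t
  invT : ∀ g ∈ T, g * g = 1 → g = 1 ∨ g = t ∨ g = u ∨ g = t * u
  cj : ∀ i : G, i * i = 1 → i ≠ 1 → IsConj t i
  oddC : ¬ 2 ∣ C.index
  rt : r * t * r⁻¹ = u
  ru : r * u * r⁻¹ = t * u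
  rT : ∀ g ∈ T, r * g * r⁻¹ ∈ T
  r3 : r * r * r ∈ T
  wr : w * r * w⁻¹ * r ∈ T
  linT : ∀ μ : C →* ℂˣ, (∀ g : C, (g : G) ∈ T → μ g = 1) → μ = 1
  linY : ∀ μ : C →* ℂˣ, (∀ g : C, (g : G) ∈ Y → μ g = 1) → μ = 1
  linH : ∀ (μ : C →* ℂˣ) (g : C), (g : G) ∈ H → μ g = 1
  linY1 : ∀ (μ : C →* ℂˣ) (g : C), (g : G) ∈ Y1 → μ g = 1
  extY : ∀ θ : Y →* ℂˣ, (∀ y y' : Y, (y' : G) = u * y * u⁻¹ → θ y' = θ y) →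
    ∃ μ : C →* ℂˣ, ∀ (y : Y) (g : C), (g : G) = y → μ g = θ y
  HT : H ≤ T
  kH : Nat.card H = q + 1
  tH : t ∈ H
  HZ : ∀ g ∈ H, g ∈ Z → g = 1 ∨ g = t
  invH : ∀ g ∈ H, g * g = 1 → g = 1 ∨ g = t
  Hw : ∀ g ∈ T, g⁻¹ * (w * g * w⁻¹) ∈ H
  Hi : ∀ g ∈ H, w * g * w⁻¹ = g⁻¹
  Y1Y : Y1 ≤ Y
  kY1 : Nat.card Y1 = q - 1
  tY1 : t ∈ Y1
  Y1Z : ∀ g ∈ Y1, g ∈ Z → g = 1 ∨ g = t
  Y1u : ∀ y ∈ Y, y⁻¹ * (u * y * u⁻¹) ∈ Y1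
  Y1i : ∀ y ∈ Y1, u * y * u⁻¹ = y⁻¹
  oZ : ∃ m, Odd m ∧ Nat.card Z * m = q + 1
  rrt : rr t = q * (q - 1)
  rrtx : rr (t * x) = 0
  rrZ : ∀ z ∈ Z, t ∈ zpowers z → z ≠ t → rr z = 0 ∧ rr (z * x) = 0
  rrT : ∀ g ∈ T, t ∈ zpowers g → g ∉ Z → rr g = if g ∈ H then q + 1 else 0
  rrY : ∀ g ∈ Y, t ∈ zpowers g → g ∉ Z → rr g = if g ∈ Y1 then q - 1 else 0
  lP : Pr lam
  lu : ∀ g : C, (g : G) = u → lam g = -1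
  P1 : Pr θ1
  P2 : Pr θ2
  n1 : ∃ y y' : Y, (y' : G) = u * y * u⁻¹ ∧ θ1 y' ≠ θ1 y
  n2 : ∃ y y' : Y, (y' : G) = u * y * u⁻¹ ∧ θ2 y' ≠ θ2 y
  n12 : θ1 ≠ θ2
  n12' : ∃ y y' : Y, (y' : G) = u * y * u⁻¹ ∧ θ1 y' ≠ θ2 y
  θt : ∀ y : Y, (y : G) = t → θ1 y = -1
  /-- `q ≡ 3 mod 4`, or `q ≡ 1 mod 4` (then `T₂ = V`) -/
  cas : lam * lam ≠ 1 ∨
    ∀ g ∈ T, Odd (orderOf g) ∨ Odd (orderOf (t * g)) ∨ Odd (orderOf (u * g)) ∨ Odd (orderOf (t * u * g))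

namespace CU

variable [Fintype G] {q : ℕ} {C Z T Y U X H Y1 : Subgroup G} {t w u x r : G} {lam : C →* ℂˣ} {θ1 θ2 : Y →* ℂˣ}
  (h : CU q C Z T Y U X H Y1 t w u x r lam θ1 θ2)
include h

theorem q3 : 3 ≤ q := h.cs.q3
theorem ZT : Z ≤ T := h.cs.ZY
theorem ZY : Z ≤ Y := h.cs.ZT
theorem TC : T ≤ C := h.cs.YC
theorem YC : Y ≤ C := h.cs.TC
theorem XC : X ≤ C := h.cs.XC
theorem cen : ∀ z ∈ Z, ∀ c ∈ C, z * c = c * z := h.cs.cen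
theorem cT : IsMulCommutative T := h.cs.cY
theorem cY : IsMulCommutative Y := h.cs.cT
theorem kT : Nat.card T = (q + 1) * Nat.card Z := h.cs.kY
theorem kY : Nat.card Y = (q - 1) * Nat.card Z := h.cs.kT
theorem kC : Nat.card C = q * (q ^ 2 - 1) * Nat.card Z := h.cs.kC
theorem wC : w ∈ C := h.cs.uC
theorem w2 : w * w = 1 := h.cs.u2
theorem wn : w ∉ T := h.cs.un
theorem wT : ∀ g ∈ T, w * g * w⁻¹ ∈ T := h.cs.uY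
theorem wZ : ∀ g ∈ T, g * (w * g * w⁻¹) ∈ Z := h.cs.uZ
theorem uC : u ∈ C := h.cs.wC
theorem u2 : u * u = 1 := h.cs.w2
theorem un : u ∉ Y := h.cs.wn
theorem uY : ∀ g ∈ Y, u * g * u⁻¹ ∈ Y := h.cs.wT
theorem uZ : ∀ g ∈ Y, g * (u * g * u⁻¹) ∈ Z := h.cs.wZ
theorem xo : Odd (orderOf x) := h.cs.xo
theorem tiT : ∀ g ∈ T, g ∉ Z → ∀ c ∈ C, c * g * c⁻¹ ∈ T → c ∈ T ∨ c * w ∈ T := h.cs.tiY
theorem tiY : ∀ g ∈ Y, g ∉ Z → ∀ c ∈ C, c * g * c⁻¹ ∈ Y → c ∈ Y ∨ c * u ∈ Y := h.cs.tiT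
theorem YT : ∀ g ∈ Y, g ∉ Z → ∀ c ∈ C, c * g * c⁻¹ ∉ T := h.cs.TY

end CU

end CA.Bu
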