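import Cfsg.Agent.Br.W3
import Cfsg.Agent.Bu.CU

/-!
# Unitary case, `Z(C(t)) = ⟨t⟩`: only `q = 5, 9` survive
-/

set_option autoImplicit false
set_option linter.unusedSectionVars false

open Cfsg Subgroup CA.Chr CA.Dih CA.FG CA.BG CA.GW CA.GW.BA CA.Br Finset
open scoped ComplexConjugate Classical

namespace CA.Bu

universe u v

variable {G : Type u} [Group G] [Fintype G]

theorem ws_rho3 {T H : Subgroup G} {t u w r y : G} (h : WS T H t u w r) (hy : y ∈ H) (y1 : y ≠ 1)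
    (e60 : Nat.card 𝒞(H) = 60 * Nat.card H) :
    ∃ ρ ∈ 𝒞[w] ⊓ 𝒞(H), orderOf ρ = 3 ∧ ∀ x ∈ 𝒞(H) ⊓ 𝒞[ρ], IsPiElt {5} x → x ∈ H := by
  have cC := h.cardC hy y1
  have eW := h.cent hy y1
  have c5 : 0 < Nat.card H := Nat.card_pos
  rcases h.act hy y1 with ⟨-, e⟩ | ⟨e, f, sf, hf⟩
  · rw [eW] at cC e; rw [e60, e] at cC; omega
  have WN : 𝒞(H) ≤ Nn y := eW ▸ le_Nn y
  have HW : H ≤ 𝒞(H) := h.HT.trans h.TH
  have k1 : f.ker ≤ (𝒞(H)).subgroupOf (Nn y) := fun g hg => HW ((hf g).1 hg)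
  have a1 : ((𝒞(H)).subgroupOf (Nn y)).map f = alternatingGroup (Fin 5) :=
    Equiv.Perm.eq_alternatingGroup_of_index_eq_two (by rw [index_map_eq _ sf k1, ← eW]; exact h.idxN hy y1)
  have sg : ∀ g : Nn y, Equiv.Perm.sign (f g) = 1 ↔ (g : G) ∈ 𝒞(H) := fun g => by
    rw [← Equiv.Perm.mem_alternatingGroup, ← a1, ← mem_comap, comap_map_eq_self k1, mem_subgroupOf]
  let w' : Nn y := ⟨w, h.wN hy⟩
  let t' : Nn y := ⟨t, WN (h.TH h.tT)⟩
  have ww : w' * w' = 1 := Subtype.ext h.w2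
  obtain ⟨-, s2⟩ := s5_tab (f w') (by rw [← map_mul, ww, map_one]) fun c => h.wc hy y1 (eW ▸ (sg w').1 c)
  obtain ⟨ρ, r1, r2, r3, -, r5⟩ := s2 (f t') (by
      rw [← map_mul, ← map_mul]; exact congrArg f (Subtype.ext (mul_inv_eq_iff_eq_mul.1 h.wt).symm))
    (by rw [← map_mul, show t' * t' = 1 from Subtype.ext h.f.it.1, map_one])
    (fun c => h.f.it.2 (eq_one_of_odd h.oH ((hf t').1 c) h.f.it.1)) ((sg t').2 (h.TH h.tT))
  obtain ⟨x, rfl⟩ := sf ρ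
  have x3 : f x ^ 3 = 1 := by rw [← r2, pow_succ, pow_two]
  have xW : (x : G) ∈ 𝒞(H) := (sg _).1 (by
    have := congrArg Equiv.Perm.sign x3
    rwa [map_pow, pow_succ, Int.units_sq, one_mul, map_one] at this)
  have fw : f (w' * x * w'⁻¹) = f x := by rw [map_mul, map_mul, ← r1, map_inv, mul_inv_cancel_right]
  have e1 := (hf (w' * x * w'⁻¹ * x⁻¹)).1 (by rw [map_mul, fw, map_inv, mul_inv_cancel])
  have e2 : w' * x * w'⁻¹ * x = x * (w' * x * w'⁻¹) := by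
    have : w' * x * w'⁻¹ * x⁻¹ * x = x * (w' * x * w'⁻¹ * x⁻¹) := Subtype.ext (mem_centralizer_iff.1 xW _ e1)
    calc _ = w' * x * w'⁻¹ * x⁻¹ * x * x := by group
      _ = _ := by rw [this]; group
  have zw : w' * (x * (w' * x * w'⁻¹)) * w'⁻¹ = x * (w' * x * w'⁻¹) := by
    calc _ = w' * x * w'⁻¹ * ((w' * w') * x * (w' * w')⁻¹) := by group
      _ = _ := by rw [ww, ← e2]; simp
  have fz : f (x * (w' * x * w'⁻¹)) = f x ^ 2 := by rw [map_mul, fw, pow_two]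
  have zW : ((x * (w' * x * w'⁻¹) : Nn y) : G) ∈ 𝒞(H) := (sg _).1 (by rw [fz, map_pow, Int.units_sq])
  generalize x * (w' * x * w'⁻¹) = z at zw fz zW
  have zw' : w * z * w⁻¹ = z := congrArg Subtype.val zw
  have e3 := (hf (z ^ 3)).1 (by rw [map_pow, fz, ← pow_mul, mul_comm, pow_mul, x3, one_pow])
  have z3 : (z : G) ^ 3 = 1 := eq_one_of_inv (h.oH.piElt e3) (by
    have := h.wH _ e3
    rw [Subgroup.coe_pow] at this
    rw [← this, ← conj_pow, zw'])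
  have fx : f x = f z ^ 2 := by rw [fz, ← pow_mul, show 2 * 2 = 3 + 1 by norm_num, pow_succ, x3, one_mul]
  refine ⟨z, ⟨conj_eq_iff'.1 zw', zW⟩, orderOf_eq_prime z3 fun c => r3 (by
    rw [fx, show z = 1 from Subtype.ext c, map_one, one_pow]), fun a ha p => ?_⟩
  have c : Commute (f ⟨a, WN ha.1⟩) (f z) := by
    rw [Commute, SemiconjBy, ← map_mul, ← map_mul]; exact congrArg f (Subtype.ext (mem_c1.1 ha.2))
  have e1 := r5 (f ⟨a, WN ha.1⟩) (by rw [fx]; exact (c.pow_right 2).eq)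
  obtain ⟨k, hk⟩ := (pElt_iff Nat.prime_five).1 p
  have e2 : f ⟨a, WN ha.1⟩ ^ 5 ^ k = 1 := by rw [← map_pow, show (⟨a, WN ha.1⟩ : Nn y) ^ 5 ^ k = 1 from Subtype.ext hk, map_one]
  have e3 := pow_gcd_eq_one.2 ⟨e1, e2⟩
  rw [show Nat.gcd 6 (5 ^ k) = 1 from Nat.Coprime.pow_right k (by norm_num), pow_one] at e3
  exact (hf _).1 e3

namespace CU

variable {q : ℕ} {C Z T Y U X H Y1 : Subgroup G} {t w u x r : G} {lam : C →* ℂˣ} {θ1 θ2 : Y →* ℂˣ}
  (h : CU q C Z T Y U X H Y1 t w u x r lam θ1 θ2) (hZ : Z = zpowers t)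
include h hZ

theorem wMemZ {z : G} : z ∈ Z ↔ z = 1 ∨ z = t := hZ ▸ mem_zpowers_inv h.t2

theorem wkZ : Nat.card Z = 2 := by rw [hZ, Nat.card_zpowers, IsInv.ord ⟨h.t2, h.t1⟩]

omit hZ in
theorem wmo : ∀ g ∈ T, Odd (orderOf g) → g ∈ OO T := fun _ hg o =>
  (nilpotent_pcore_Hall _ (nil_of_abelian h.cT)).mem_of_normal (pcore_norm _ _)
    ((piNat_compl_singleton_iff Nat.prime_two).2 o.not_two_dvd_nat) hg

theorem ws : WS T (OO T) t u w r := by
  have f : Four t u := ⟨⟨h.t2, h.t1⟩, ⟨h.u2, fun e => h.un (e ▸ Y.one_mem)⟩, fun e => h.un (e ▸ h.ZY h.tZ),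
    h.cen t h.tZ u h.uC⟩
  have tT := h.ZT h.tZ
  have hall : IsPiHallOf {2}ᶜ (OO T) T := nilpotent_pcore_Hall _ (nil_of_abelian h.cT)
  have mo := h.wmo
  have cj : ∀ c, (∀ g ∈ T, c * g * c⁻¹ ∈ T) → ∀ g ∈ OO T, c * g * c⁻¹ ∈ OO T := fun c hc g hg =>
    hall.mem_of_normal (pcore_norm _ _) ((hall.piGrp.piElt hg).conj c) (hc g (hall.le hg))
  have oz : ∀ g ∈ OO T, g ∈ Z → g = 1 := fun g hg hz => eq_one_of_odd hall.piGrp hg (by
    rcases (h.wMemZ hZ).1 hz with e | e <;> simp [e, h.t2])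
  have wH : ∀ y ∈ OO T, w * y * w⁻¹ = y⁻¹ := fun y hy =>
    eq_inv_of_mul_eq_one_right (oz _ (mul_mem hy (cj w h.wT y hy)) (h.wZ y (hall.le hy)))
  have cT := abelian_iff_forall.1 h.cT
  refine ⟨f, tT, h.uT, hall.le, cT, hall.piGrp, fun g hg => ?_, h.w2, conj_eq_iff.2 (h.hC ▸ h.wC), h.wu, wH, h.rt,
    h.ru, ?_, fun y hy y1 c hc => h.tiT y (hall.le hy) (fun e => y1 (oz y hy e)) c (h.hC ▸ hc)⟩
  · have k : ∀ v ∈ V4 t u, v * v = 1 → Odd (orderOf (v * g)) → ∃ v ∈ V4 t u, ∃ y ∈ OO T, g = v * y := fun v hv v2 o =>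
      ⟨v, hv, _, mo _ (mul_mem (Four.le tT h.uT hv) hg) o, by rw [← mul_assoc, v2, one_mul]⟩
    rcases h.cas with c | c
    · refine absurd (h.linT _ fun g hg => ?_) c
      have e := h.wZ g hg
      have : lam (g * (⟨w, h.wC⟩ * g * ⟨w, h.wC⟩⁻¹)) = 1 := by
        rcases (h.wMemZ hZ).1 e with e | e
        · rw [show g * (⟨w, h.wC⟩ * g * ⟨w, h.wC⟩⁻¹) = 1 from Subtype.ext e, map_one]
        · exact h.linH lam _ (by rw [show ((g * (⟨w, h.wC⟩ * g * ⟨w, h.wC⟩⁻¹) : C) : G) = t from e]; exact h.tH)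
      simpa [mul_comm (lam _) (lam g)] using this
    rcases c g hg with o | o | o | o
    exacts [k 1 (one_mem _) (mul_one 1) (by rwa [one_mul]), k t (Four.t_mem t u) h.t2 o, k u (Four.s_mem t u) h.u2 o,
      k _ (mul_mem (Four.t_mem t u) (Four.s_mem t u)) f.ts.1 o]
  · refine mem_centralizer_iff.2 fun y hy => ?_
    have e1 := cT _ h.wr y (hall.le hy)
    have e2 := cT _ h.r3 y (hall.le hy)
    have e3 := wH _ (cj r h.rT y hy)
    have e4 := wH _ (cj r h.rT _ (cj r h.rT y hy))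
    have wi := inv_inv' h.w2
    have e5 : r * (r * y * r⁻¹) * r⁻¹ = y := by
      calc _ = (w * (r * (r * y * r⁻¹) * r⁻¹) * w⁻¹)⁻¹ := by rw [e4, inv_inv]
        _ = w * r * (r * y * r⁻¹)⁻¹ * r⁻¹ * w⁻¹ := by simp only [mul_inv_rev, inv_inv, mul_assoc]
        _ = w * r * w * r * y * (w * r * w * r)⁻¹ := by rw [← e3]; group
        _ = y := by rw [wi] at e1; rw [e1, mul_inv_cancel_right]
    calc y * r = r * r * r * y * (r * r * r)⁻¹ * r := by rw [e2, mul_inv_cancel_right]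
      _ = r * (r * (r * y * r⁻¹) * r⁻¹) := by group
      _ = _ := by rw [e5]

omit hZ in
theorem no29 (s : WS T (OO T) t u w r) (hq : q = 29) {y : G} (hy : y ∈ OO T) (oy : orderOf y = 5)
    (e60 : Nat.card 𝒞(OO T) = 60 * Nat.card (OO T)) : False := by
  have y1 : y ≠ 1 := fun e => by rw [e, orderOf_one] at oy; omega
  obtain ⟨ρ, h1, o3, h5⟩ := ws_rho3 s hy y1 e60
  have w1 : w ≠ 1 := fun e => h.wn (e ▸ one_mem _)
  obtain ⟨g0, e0⟩ := isConj_iff.1 (h.cj w h.w2 w1).symm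
  have cw : ∀ g a : G, g * w * g⁻¹ = t → a ∈ 𝒞[w] → g * a * g⁻¹ ∈ C := fun g a e ha => by
    rw [h.hC, ← e, ← conjg_cent1]; exact conj_mem_conjg g ha
  obtain ⟨P, hP⟩ := sylow_exists Nat.prime_three T
  have p3 : ∀ g : G, IsPiElt {3} (g * ρ * g⁻¹) := fun g =>
    IsPiElt.conj (by rw [IsPiElt, o3]; exact piNat_singleton_self Nat.prime_three) g
  obtain ⟨c, hc, e1⟩ := sylow_Jsub Nat.prime_three (h.cs.sylY Nat.prime_three (by norm_num) (by norm_num [hq]) hP)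
    (piGrp_zpowers_iff.2 (p3 g0)) (zpowers_le.2 (cw g0 ρ e0 h1.1))
  have yT := hP.le (e1 (conj_mem_conjg c (mem_zpowers _)))
  rw [show c * (g0 * ρ * g0⁻¹) * c⁻¹ = c * g0 * ρ * (c * g0)⁻¹ by group] at yT
  have e2 : c * g0 * w * (c * g0)⁻¹ = t := by rw [← conj_eq_iff.2 (h.hC ▸ hc : c ∈ 𝒞[t]), ← e0]; group
  generalize c * g0 = g at yT e2
  have o3' : orderOf (g * ρ * g⁻¹) = 3 := (orderOf_cj g ρ).trans o3
  have yH := h.wmo _ yT (by rw [o3']; decide)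
  have eW := s.cent yH fun e => by rw [e, orderOf_one] at o3'; omega
  have c1 : g * y * g⁻¹ ∈ 𝒞(OO T) := by
    rw [← eW, ← conjg_cent1]; exact conj_mem_conjg g (cent1_symm.1 (cent_le_cent_singleton hy h1.2))
  have c2 := mem_centralizer_iff.1 c1 y hy
  have aH : g⁻¹ * y * g ∈ OO T := h5 _ (mem_inf.2 ⟨?_, ?_⟩) (by
    simpa using IsPiElt.conj (show IsPiElt {5} y by rw [IsPiElt, oy]; exact piNat_singleton_self Nat.prime_five) g⁻¹)
  · have e3 := s.wH _ aH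
    have e4 : w * (g⁻¹ * y * g) * w⁻¹ = g⁻¹ * y * g := by
      calc _ = g⁻¹ * (g * w * g⁻¹ * y * (g * w * g⁻¹)⁻¹) * g := by group
        _ = _ := by rw [e2, s.cT t s.tT y (s.HT hy), mul_inv_cancel_right]
    have := eq_one_of_inv (s.oH.piElt aH) (e4.symm.trans e3)
    exact y1 (by rw [show y = g * (g⁻¹ * y * g) * g⁻¹ by group, this]; group)
  · rw [← s.cent hy y1, mem_c1]
    calc _ = g⁻¹ * (y * (g * y * g⁻¹)) * g := by group
      _ = _ := by rw [c2]; group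
  · rw [mem_c1]
    calc _ = g⁻¹ * (y * (g * ρ * g⁻¹)) * g := by group
      _ = _ := by rw [s.cT y (s.HT hy) _ yT]; group

omit hZ in
theorem wPhi3 {a b : G → ℂ} (ha : Dirr a) (hb : Dirr b) {P : ℂ} (e : Phi (1 + a + b) = C.index * P) :
    C.index * (a 1 * b 1 + b 1 * a t ^ 2 + a 1 * b t ^ 2) = P * a 1 * b 1 := by
  have ci : (invs G).card = C.index := by
    rw [h.hC, ← card_class]
    congr 1
    ext i
    simp only [mem_invs, mem_filter, mem_univ, true_and]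
    refine ⟨fun e => h.cj i e.1 e.2, fun e => ?_⟩
    obtain ⟨g, rfl⟩ := isConj_iff.1 e
    exact mem_invs.1 ((conj_mem_invs g).2 (mem_invs.2 ⟨h.t2, h.t1⟩))
  have e1 := Phi_dirr h.cj ha
  have e2 := Phi_dirr h.cj hb
  rw [Phi_add, Phi_add, Phi_one, ci] at e
  rw [ci] at e1 e2
  have : (C.index : ℂ) ≠ 0 := Nat.cast_ne_zero.2 index_ne_zero_of_finite
  apply mul_left_cancel₀ this
  linear_combination a 1 * b 1 * e - b 1 * e1 - a 1 * e2

/-- `Z = ⟨t⟩` forces `q = 5` or `q = 9` (the conclusion of `CU.alpha` is taken as a hypothesis) -/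
theorem no_iv' {ψ χ1 χ2 : G → ℂ} {n : ℤ} (dψ : Dirr ψ) (d1 : Dirr χ1) (d2 : Dirr χ2) (o0 : ⟪ψ, 1⟫ = 0)
    (o1 : ⟪χ1, 1⟫ = 0) (o2 : ⟪χ2, 1⟫ = 0) (o3 : ⟪χ1, χ2⟫ = 0) (a1 : ψ 1 = n) (a2 : ψ t = -q)
    (a3 : 3 * q ≤ n ∨ n ≤ -3 * q - 2)
    (a4 : (C.index : ℤ) * (n + q) ^ 2 = q * (q + 1) * (q - 1) ^ 2 * n * (n - 1))
    (van : ∀ g, (Odd (orderOf g) ∨ (g ∈ T ∧ g ∉ Z ∧ t ∈ zpowers g)) → 1 + χ1 g - ψ g = 0 ∧ 1 + χ2 g - ψ g = 0) :
    q = 5 ∨ q = 9 := by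
  by_contra hq
  have s := h.ws hZ
  have q3 := h.q3
  have kT := s.cardT
  rw [h.kT, h.wkZ hZ] at kT
  have ok := (piGrp_compl_singleton_iff Nat.prime_two).1 s.oH
  have cH : IsCyclic (OO T) := cyclic_of_le h.cyH fun y hy => mem_of_sq s.oH hy (by
    have := inv_mem (h.Hw y (s.HT hy))
    rwa [s.wH y hy, mul_inv_rev, inv_inv] at this)
  obtain ⟨y, hy, ey⟩ := cyclic_iff_eq_zpowers.1 cH
  have oy : orderOf y = Nat.card (OO T) := by rw [← Nat.card_zpowers, ← ey]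
  have cr := card_mul_relIndex (s.HT.trans s.TH)
  have ci := card_inf_mul_relIndex 𝒞[w] 𝒞(OO T)
  have st := s.str hy fun e => by rw [e, orderOf_one] at oy; omega
  have n29 := fun e => h.no29 s e (pow_mem hy 3)
  generalize Nat.card (OO T) = k at *
  obtain ⟨l, rfl⟩ : ∃ l, k = l + 1 := ⟨k - 1, by omega⟩
  have hk : q = 2 * l + 1 := by clear st; omega
  subst hk
  have k0 : 0 < l + 1 := by omega
  obtain ⟨c, j, dc, c1, c2, c3, c4⟩ := s.theta hy (fun e => by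
    have e := oy ▸ orderOf_dvd_of_pow_eq_one e
    rcases st with ⟨a, -⟩ | ⟨a, -, b⟩
    · rw [Nat.eq_of_mul_eq_mul_left k0 (cr.trans (a.trans (mul_comm _ _)))] at e
      have := Nat.le_of_dvd (by norm_num) e
      have : l ≤ 11 := by omega
      interval_cases l <;> omega
    · rw [Nat.eq_of_mul_eq_mul_left k0 (cr.trans (a.trans (mul_comm _ _)))] at e
      have := Nat.le_of_dvd (by norm_num) e
      have : l ≤ 59 := by omega
      have k5 : l = 14 := by clear b; interval_cases l <;> omega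
      subst k5
      exact n29 rfl (by rw [orderOf_pow' y (by norm_num), oy]; rfl) a) dψ d1 d2 o0 o1 o2 o3 a1 (hZ ▸ van)
  have b : 5 * (l + 1) * Nat.card 𝒞(OO T) ≤ 3 * j ^ 2 := by
    rcases st with ⟨a, b⟩ | ⟨a, b, -⟩ <;> rw [a] at ci ⊢
    · have : 6 * (l + 1) ≤ j := by nlinarith [Nat.mul_le_mul b c4]
      nlinarith
    · have : 10 * (l + 1) ≤ j := by nlinarith [Nat.mul_le_mul b c4]
      nlinarith
  have W0 : 0 < Nat.card 𝒞(OO T) := Nat.card_pos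
  generalize Nat.card 𝒞(OO T) = m at *
  have m0 : (m : ℂ) ≠ 0 := Nat.cast_ne_zero.2 W0.ne'
  have kC := h.cs.kC'
  rw [h.wkZ hZ] at kC
  have e := h.wPhi3 dψ dc (P := Nat.card C * j ^ 2 / m) (by
    rw [← index_mul_card C] at c3; push_cast at c3; field_simp; linear_combination c3)
  rw [c1, c2, a1, a2, kC] at e
  have a4' := congrArg (Int.cast (R := ℂ)) a4
  push_cast at a4' e
  field_simp at e
  have l1 : (1 : ℤ) ≤ l := by omega
  push_cast at a3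
  have n0 : n ≠ 0 := by rintro rfl; omega
  have e2 : (l * (n - 1) * m : ℤ) = j ^ 2 * (n + 1) := by
    have : (8 * (l : ℂ) * (l + 1) * (2 * l + 1) * n) ≠ 0 := by
      have : (8 * (l : ℤ) * (l + 1) * (2 * l + 1) * n) ≠ 0 := mul_ne_zero (by positivity) n0
      exact_mod_cast this
    refine Int.cast_injective (α := ℂ) (mul_left_cancel₀ this ?_)
    push_cast
    linear_combination -e - m * a4'
  have b' : (5 * (l + 1) * m : ℤ) ≤ 3 * j ^ 2 := by exact_mod_cast b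
  have m1 : (0 : ℤ) < m := by omega
  rcases a3 with a | a
  · have : 5 * (l + 1) * m * (n + 1) ≤ 3 * l * (n - 1) * (m : ℤ) := by nlinarith
    have : 5 * (l + 1) * (n + 1) ≤ 3 * l * (n - 1 : ℤ) := le_of_mul_le_mul_right (by linarith) m1
    nlinarith
  · have : 5 * (l + 1) * m * (-n - 1) ≤ 3 * l * (1 - n) * (m : ℤ) := by nlinarith
    have : 5 * (l + 1) * (-n - 1) ≤ 3 * l * (1 - n : ℤ) := le_of_mul_le_mul_right (by linarith) m1
    nlinarith

end CU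

end CA.Bu
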