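import Cfsg.Agent.Bu.Fus
import Cfsg.Agent.Bu.Arith
import Cfsg.Agent.Bu.Loc2
import Cfsg.Agent.Bu.W

/-!
# The index of `C(t)` and the Sylow `p`-subgroup
-/

set_option autoImplicit false
set_option linter.unusedSectionVars false

open Cfsg Subgroup CA.Chr CA.Dih CA.FG CA.BG CA.GW CA.GW.BA CA.Br

namespace CA.Bu

universe u v

variable {G : Type u} [Group G] {K : Type v} [Field K] [StarRing K] {φ : U2 K →* G} {q : ℕ}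

theorem UK.YX : Yt φ ≤ 𝒩(Xp φ) := fun y hy => by
  obtain ⟨a, rfl⟩ := mem_Yt'.1 hy
  have k : ∀ (a : Kˣ) x, x ∈ Xp φ → φ (dU a) * x * (φ (dU a))⁻¹ ∈ Xp φ := fun a x hx => by
    obtain ⟨c, hc, rfl⟩ := mem_Xp.1 hx
    rw [cj, dU_xU]; exact mem_Xp.2 ⟨_, _, rfl⟩
  refine mem_normalizer_iff.2 fun x => ⟨k a x, fun hx => ?_⟩
  have := k a⁻¹ _ hx
  rwa [← dU_inv, map_inv, show ∀ g : G, g⁻¹ * (g * x * g⁻¹) * g⁻¹⁻¹ = x from fun g => by group] at this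

theorem BU.pl [Finite G] [IsSimpleGroup G] (h : BU φ q) : φ.range.index = q ^ 2 * (q ^ 2 - q + 1) ∧
    ∃ Q : Subgroup G, Nat.card Q = q ^ 3 ∧ Xp φ ≤ Q ∧ Q ≤ 𝒞(Xp φ) ∧ tt φ ∈ 𝒩(Q) := by
  have := Fintype.ofFinite G
  have := h.fq.finite
  have := Fintype.ofFinite K
  obtain ⟨r, hr⟩ := h.exists_rho
  obtain ⟨w, s, hs, lam, θ1, θ2, c⟩ := h.cu hr
  obtain ⟨p, _, ⟨n, hp, hn⟩⟩ := FiniteField.card' K
  obtain ⟨f, -, hf⟩ := (Nat.dvd_prime_pow hp).1 (show q ∣ p ^ (n : ℕ) by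
    rw [← hn, ← Nat.card_eq_fintype_card, h.fq.card]; exact dvd_pow_self q two_ne_zero)
  have l := c.ls hp (fun a ha d => (Nat.prime_dvd_prime_iff_eq ha hp).1 (ha.dvd_of_dvd_pow (hf ▸ d))) UK.YX
  have iv : Zt φ = zpowers (tt φ) → q = 5 ∨ q = 9 := fun hZ => by
    obtain ⟨ψ, χ1, χ2, s, dψ, d1, d2, o0, o1, o2, -, -, o3, a1, a2, a3, a4, van⟩ := c.alpha
    exact c.no_iv' hZ dψ d1 d2 o0 o1 o2 o3 a1 a2 a3 a4 van
  obtain ⟨y, z, hy, hz, e, hi, -⟩ := c.main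
  exact l.main h.noFus iv (c.index_cases hp hf hy hz e hi (l.hyps h.noFus iv).1)

end CA.Bu
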