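import Cfsg.Agent.Bu.Id3
import Cfsg.Agent.Bu.Base2
import Cfsg.Agent.Br.BW

/-!
# The doubly transitive action
-/

set_option autoImplicit false
set_option linter.unusedSectionVars false

open Cfsg Subgroup CA.Dih CA.FG CA.GW CA.GW.BA CA.Br Cfsg.Agent.Unit

namespace CA.Bu

universe u v

variable {K : Type v} [Field K] [StarRing K] {q : ℕ} {G : Type u} [Group G] {φ : U2 K →* G}

local notation "dt" => Matrix.GeneralLinearGroup.det

theorem upper_eq {γ : U2 K} (h : γ.1 1 0 = 0) : ∃ s hs a, γ = xU s hs * dU a := by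
  obtain ⟨-, h2, h3⟩ := mem_U2.1 γ.2
  rw [h, zero_mul, add_zero] at h3
  have h4 := congrArg star h3
  simp only [star_mul', star_star, star_one] at h4
  have a0 : γ.1 0 0 ≠ 0 := left_ne_zero_of_mul_eq_one h3
  have b0 : star (γ.1 0 0) ≠ 0 := left_ne_zero_of_mul_eq_one h4
  refine ⟨γ.1 0 1 * star (γ.1 0 0), ?_, Units.mk0 _ a0, Subtype.ext (gl_ext ?_ ?_ ?_ ?_)⟩
  · rw [star_mul', star_star]
    linear_combination γ.1 0 0 * star (γ.1 0 0) * h2 - γ.1 0 1 * star (γ.1 0 0) * h3 - star (γ.1 0 1) * γ.1 0 0 * h4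
  all_goals simp [xU_val, dU_val, Matrix.mul_apply, Fin.sum_univ_two, h, b0]
  exact eq_inv_of_mul_eq_one_right h4

variable [Finite G]

theorem Yt_norm : Yt φ ≤ 𝒩(Xp φ) := fun y hy => by
  obtain ⟨a, rfl⟩ := mem_Yt'.1 hy
  refine mem_norm_of_forall fun x hx => ?_
  obtain ⟨c, hc, rfl⟩ := mem_Xp.1 hx
  rw [cj, dU_xU]
  exact mem_Xp.2 ⟨_, _, rfl⟩

theorem UK.nX (h : UK φ q) (γ : U2 K) : φ γ ∈ 𝒩(Xp φ) ↔ γ.1 1 0 = 0 := by
  constructor
  · intro n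
    obtain ⟨s, s0, hs⟩ := h.exists_im
    obtain ⟨c, hc, e⟩ := mem_Xp.1 ((mem_normalizer_iff.1 n _).1 (mem_Xp.2 ⟨s, hs, rfl⟩))
    rw [cj] at e
    have e := eq_mul_inv_iff_mul_eq.1 (h.eq_of_det e (by simp [det_xp]))
    simpa [xU_val, Matrix.mul_apply, Fin.sum_univ_two, s0] using congrArg (fun g : U2 K => g.1 1 1) e
  · intro e
    obtain ⟨s, hs, a, rfl⟩ := upper_eq e
    rw [map_mul]
    exact mul_mem (le_normalizer (mem_Xp.2 ⟨s, hs, rfl⟩)) (Yt_norm (mem_Yt'.2 ⟨a, rfl⟩))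

theorem BU.two_fix (h : BU φ q) {g : G} (h1 : g ∈ 𝒩(Xp φ)) (h2 : uu φ * g * uu φ ∈ 𝒩(Xp φ)) : g ∈ Yt φ := by
  have k := h.toUK
  have ui : (uu φ)⁻¹ = uu φ := inv_eq_of_mul_eq_one_right uu_mul
  have m : tU K ∈ ((Lt φ).comap (MulAut.conj g).toMonoidHom).comap φ := by
    refine SU_le k.fq (fun s hs => ?_) (fun s hs => ?_) (by simp [tU_val, det_dg])
    · obtain ⟨c, hc, e⟩ := mem_Xp.1 ((mem_normalizer_iff.1 h1 _).1 (mem_Xp.2 ⟨s, hs, rfl⟩))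
      exact ⟨xU c hc, by simp [mem_subgroupOf, xU_val, det_xp], e⟩
    · obtain ⟨c, hc, e⟩ := mem_Xp.1 ((mem_normalizer_iff.1 h2 _).1 (mem_Xp.2 ⟨s, hs, rfl⟩))
      refine ⟨yU c hc, by simp [mem_subgroupOf, yU_val, det_xm], ?_⟩
      change _ = g * φ (yU s hs) * g⁻¹
      rw [← u_xU, ← u_xU, ← cj, ← cj, e]
      change uu φ * _ * (uu φ)⁻¹ = g * (uu φ * _ * (uu φ)⁻¹) * g⁻¹
      rw [mul_inv_rev, mul_inv_rev, ui]
      simp only [← mul_assoc, uu_mul, one_mul]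
      rw [mul_assoc _ (uu φ) (uu φ), uu_mul, mul_one]
  obtain ⟨δ, d, e⟩ := m
  replace d : dt δ.1 = 1 := d
  replace e : φ δ = g * tt φ * g⁻¹ := e
  have d2 : δ * δ = 1 := k.eq_of_det (by rw [map_mul, e, ← conj_mul', tt_mul]; simp) (by simp [d])
  have dc : δ.1 ∈ center (GL (Fin 2) K) := by_contra fun c => k.neg_ne ((inv_tr k.two d2 c).2.symm.trans d)
  rcases cen_sq' dc d2 with rfl | rfl
  · exact absurd (by simpa using e.symm) k.t1
  obtain ⟨γ, rfl⟩ := h.mem_C.2 (mul_inv_eq_iff_eq_mul.1 e.symm)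
  obtain ⟨s, hs, a, rfl⟩ := upper_eq ((k.nX γ).1 h1)
  have := (k.nX (uU K * (xU s hs * dU a) * uU K)).1 (by rwa [map_mul, map_mul])
  obtain rfl : s = 0 := by
    simpa [uU_val, xU_val, dU_val, Matrix.mul_apply, Matrix.vecMul, dotProduct, Fin.sum_univ_two] using this
  rw [xU_zero, one_mul]
  exact mem_Yt'.2 ⟨a, rfl⟩

theorem UK.QY (h : UK φ q) {Q : Subgroup G} (kQ : Nat.card Q = q ^ 3) (QC : Q ≤ 𝒞(Xp φ)) {x : G} (h1 : x ∈ Q)
    (h2 : x ∈ Yt φ) : x = 1 := by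
  obtain ⟨a, rfl⟩ := mem_Yt'.1 h2
  obtain ⟨s, s0, hs⟩ := h.exists_im
  have e := mul_inv_eq_iff_eq_mul.2 (QC h1 _ (mem_Xp.2 ⟨s, hs, rfl⟩)).symm
  rw [cj, dU_xU] at e
  have z : φ (dU a) ∈ Zt φ := mem_Zt'.2 ⟨a, (mul_eq_right₀ s0).1 (h.xU_inj e), rfl⟩
  exact orderOf_eq_one_iff.1 (Nat.eq_one_of_dvd_coprimes (((Nat.coprime_self_add_right.2 q.coprime_one_right)).pow_left 3)
    (kQ ▸ orderOf_dvd_natCard Q h1) ((orderOf_dvd_natCard _ z).trans (Dvd.intro _ h.kZ)))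

theorem BU.bn (h : BU φ q) {Q : Subgroup G} (kQ : Nat.card Q = q ^ 3) (XQ : Xp φ ≤ Q) (QC : Q ≤ 𝒞(Xp φ))
    (tQ : tt φ ∈ 𝒩(Q)) (hi : φ.range.index = q ^ 2 * (q ^ 2 - q + 1)) : BN φ q Q := by
  have k := h.toUK
  have q3 := k.q3
  have ui : (uu φ)⁻¹ = uu φ := inv_eq_of_mul_eq_one_right uu_mul
  have ti : (tt φ)⁻¹ = tt φ := inv_eq_of_mul_eq_one_right tt_mul
  have QN : Q ≤ 𝒩(Xp φ) := QC.trans (centralizer_le_normalizer _)
  have oQ : Odd (Nat.card Q) := kQ ▸ k.odd.pow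
  have pQ : IsPiGrp {2}ᶜ Q := (piGrp_compl_singleton_iff Nat.prime_two).2 oQ.not_two_dvd_nat
  have fr : ∀ x ∈ Q, uu φ * x * uu φ ∈ 𝒩(Xp φ) → x = 1 := fun x hx e => k.QY kQ QC hx (h.two_fix (QN hx) e)
  have kG : Nat.card G = (q ^ 3 + 1) * (q ^ 3 * Nat.card (Yt φ)) := by
    rw [← index_mul_card φ.range, hi, k.kC, k.kY]
    zify [show q ≤ q ^ 2 by nlinarith, show 1 ≤ q ^ 2 by nlinarith, show 1 ≤ q by omega]
    ring
  let f : Q × Yt φ → 𝒩(Xp φ) := fun p => ⟨p.1 * p.2, mul_mem (QN p.1.2) (Yt_norm p.2.2)⟩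
  have fi : Function.Injective f := fun a b e => by
    have e : (a.1 : G) * a.2 = b.1 * b.2 := congrArg Subtype.val e
    have e' : (b.1 : G)⁻¹ * a.1 = b.2 * (a.2 : G)⁻¹ := by rw [inv_mul_eq_iff_eq_mul, ← mul_assoc, ← e]; simp
    have := k.QY kQ QC (mul_mem (inv_mem b.1.2) a.1.2) (e' ▸ mul_mem b.2.2 (inv_mem a.2.2))
    exact Prod.ext (Subtype.ext (inv_mul_eq_one.1 this).symm) (Subtype.ext (mul_inv_eq_one.1 (e' ▸ this)).symm)
  have uN : uu φ ∉ 𝒩(Xp φ) := fun e => by simpa [uU_val] using (k.nX _).1 e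
  let g : Option Q → G ⧸ 𝒩(Xp φ) := fun o => o.elim ((1 : G) : _) fun x => ((x * uu φ : G) : _)
  have gi : Function.Injective g := by
    rintro (_ | a) (_ | b) e
    · rfl
    · exact absurd ((mul_mem_cancel_left (QN b.2)).1 (by simpa using QuotientGroup.eq.1 e)) uN
    · exact absurd ((mul_mem_cancel_left (QN a.2)).1 (by simpa using QuotientGroup.eq.1 e.symm)) uN
    · have := fr _ (mul_mem (inv_mem a.2) b.2) (by
        convert QuotientGroup.eq.1 e using 1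
        rw [mul_inv_rev, ui]; group)
      rw [Subtype.ext (inv_mul_eq_one.1 this)]
  have c1 := Nat.card_le_card_of_injective f fi
  have c2 := Nat.card_le_card_of_injective g gi
  rw [Nat.card_prod, kQ] at c1
  rw [Finite.card_option, kQ, ← index_eq_card] at c2
  have c3 := index_mul_card (𝒩(Xp φ))
  rw [kG] at c3
  have pos : 0 < q ^ 3 * Nat.card (Yt φ) := Nat.mul_pos (by positivity) Nat.card_pos
  have idx : (𝒩(Xp φ)).index = q ^ 3 + 1 := le_antisymm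
    (Nat.le_of_mul_le_mul_right ((Nat.mul_le_mul_left _ c1).trans c3.le) pos) c2
  rw [idx] at c3
  have fs : ∀ n ∈ 𝒩(Xp φ), ∃ x ∈ Q, ∃ y ∈ Yt φ, n = x * y := fun n hn => by
    obtain ⟨p, e⟩ := (fi.bijective_of_nat_card_le (by
      rw [Nat.card_prod, kQ, Nat.eq_of_mul_eq_mul_left (Nat.succ_pos _) c3])).2 ⟨n, hn⟩
    exact ⟨p.1, p.1.2, p.2, p.2.2, (congrArg Subtype.val e).symm⟩
  have gs := (gi.bijective_of_nat_card_le (by rw [Finite.card_option, kQ, ← index_eq_card, idx])).2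
  have cX : ∀ x ∈ Q ⊓ 𝒞[tt φ], x ∈ Xp φ := fun x hx => by
    obtain ⟨γ, rfl⟩ := h.mem_C.2 (mem_c1.1 hx.2)
    obtain ⟨s, hs, a, rfl⟩ := upper_eq ((k.nX γ).1 (QN hx.1))
    have m : φ (xU s hs) ∈ Xp φ := mem_Xp.2 ⟨s, hs, rfl⟩
    rw [map_mul] at hx ⊢
    rwa [k.QY kQ QC ((mul_mem_cancel_left (XQ m)).1 hx.1) (mem_Yt'.2 ⟨a, rfl⟩), mul_one]
  have inv : ∀ {i s : G}, tt φ * i * (tt φ)⁻¹ = i⁻¹ → s ∈ zpowers i → tt φ * s * (tt φ)⁻¹ = s⁻¹ := by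
    rintro i _ e ⟨n, rfl⟩
    simp only
    rw [← conj_zpow, e, inv_zpow]
  have Yc : ∀ y ∈ Yt φ, y * tt φ * y⁻¹ = tt φ := fun y hy => tt_conj (im_le hy)
  have YQ : Yt φ ≤ 𝒩(Q) := fun y hy => mem_norm_of_forall fun x hx => by
    obtain ⟨i, hi, b, hb, rfl⟩ := exists_inv_mul pQ tt_mul tQ hx
    rw [conj_mul']
    refine mul_mem ?_ (XQ ((mem_normalizer_iff.1 (Yt_norm hy) _).1 (cX b hb)))
    obtain ⟨s, hs, rfl⟩ := exists_sqrt pQ hi.1
    obtain ⟨l, hl, y1, hy1, e⟩ := fs _ (mul_mem (Yt_norm hy) (QN (zpowers_le.2 hi.1 hs)))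
    have a := inv hi.2 hs
    have : y * (s * s) * y⁻¹ = l * (tt φ * l⁻¹ * (tt φ)⁻¹) := calc
      _ = y * s * (tt φ * s * (tt φ)⁻¹)⁻¹ * y⁻¹ := by rw [a]; group
      _ = y * s * tt φ * (y * s)⁻¹ * (y * tt φ * y⁻¹)⁻¹ := by group
      _ = l * (y1 * tt φ * y1⁻¹) * l⁻¹ * (tt φ)⁻¹ := by rw [e, Yc y hy]; group
      _ = _ := by rw [Yc y1 hy1]; group
    exact this ▸ mul_mem hl ((mem_normalizer_iff.1 tQ _).1 (inv_mem hl))
  refine ⟨h, XQ, QC, oQ, k.nX, fun g => h.two_fix, fr, idx, fun x => ?_, YQ, fun x hx => ?_, fun i hi i2 i1 => ?_,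
    fun y hy e y1 => (k.invY hy e).resolve_left y1, fun h3 => ?_, ?_, ?_⟩
  · obtain ⟨_ | a, e⟩ := gs (x : G ⧸ 𝒩(Xp φ))
    · exact .inl (by simpa using QuotientGroup.eq.1 e)
    · exact .inr ⟨a, a.2, _, QuotientGroup.eq.1 e, by group⟩
  · obtain ⟨i, hi, b, hb, rfl⟩ := exists_inv_mul pQ tt_mul tQ hx
    have bX := cX b hb
    have c : b * i⁻¹ = i⁻¹ * b := QC (inv_mem hi.1) b bX
    refine ⟨b⁻¹ * b⁻¹, mul_mem (inv_mem bX) (inv_mem bX), ?_⟩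
    have e : tt φ * (i * b) * tt φ = i⁻¹ * b := by
      rw [← hi.2, ti, ← mul_assoc, mul_assoc _ b, mem_c1.1 hb.2, ← mul_assoc]
    rw [e, ← c]; group
  · obtain ⟨x, hx, y, hy, rfl⟩ := fs i hi
    have m : x * (y * x * y⁻¹) ∈ Q := mul_mem hx ((mem_normalizer_iff.1 (YQ hy) _).1 hx)
    have e : y * y = (x * (y * x * y⁻¹))⁻¹ := eq_inv_of_mul_eq_one_right (by rw [← i2]; group)
    rcases k.invY hy (k.QY kQ QC (e ▸ inv_mem m) (mul_mem hy hy)) with rfl | rfl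
    · rw [mul_one] at i2 i1
      exact absurd (eq_one_of_inv (pQ.piElt hx) (eq_inv_of_mul_eq_one_left i2)) i1
    · rwa [mul_assoc, tt_mul, mul_one]
  · obtain ⟨x, hx, xX⟩ := SetLike.not_le_iff_exists.1 fun e : Q ≤ Xp φ => by
      have := card_le_of_le e
      rw [kQ, k.kX] at this
      exact absurd this (not_le.2 (by simpa using Nat.pow_lt_pow_right (show 1 < q by omega) (show 1 < 3 by decide)))
    obtain ⟨i, hi, b, hb, rfl⟩ := exists_inv_mul pQ tt_mul tQ hx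
    have i1 : i ≠ 1 := by rintro rfl; exact xX (by rw [one_mul]; exact cX b hb)
    obtain ⟨l, hl, d⟩ := Nat.exists_prime_and_dvd (mt orderOf_eq_one_iff.1 i1)
    have : Finite K := Nat.finite_of_card_ne_zero (by rw [k.fq.card]; positivity)
    have := Fintype.ofFinite K
    haveI := Fact.mk hl
    obtain rfl : l = 3 := (Nat.prime_dvd_prime_iff_eq hl Nat.prime_three).1 (((prime_dvd_char_iff_dvd_card l).2 (by
      rw [← Nat.card_eq_fintype_card, k.fq.card]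
      exact (hl.dvd_of_dvd_pow (d.trans (kQ ▸ orderOf_dvd_natCard Q hi.1))).trans (dvd_pow_self q two_ne_zero))).trans
      ((ringChar.spec K 3).1 h3))
    obtain ⟨y, hy, o⟩ := exists_mem_orderOf_eq (H := zpowers i) hl (by rwa [Nat.card_zpowers])
    have yQ := zpowers_le.2 hi.1 hy
    refine ⟨y, yQ, o ▸ pow_orderOf_eq_one y, fun m => ?_⟩
    have := eq_one_of_inv (pQ.piElt yQ) ((mul_inv_eq_iff_eq_mul.2 (tt_comm (im_le m))).symm.trans (inv hi.2 hy))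
    rw [this, orderOf_one] at o
    exact absurd o (by decide)
  · rw [kG, k.kY, mul_comm, show q ^ 2 - 1 = (q - 1) * (q + 1) by
      zify [show 1 ≤ q ^ 2 by nlinarith, show 1 ≤ q by omega]; ring]
    gcongr
    exact Nat.le_of_dvd (by omega) (Dvd.intro _ k.kZ)
  · have := Nat.le_of_dvd Nat.card_pos (card_subgroup_dvd_card Q)
    have := Nat.pow_le_pow_left q3 3
    omega

end CA.Bu

theorem CA.realizeEqns_Bu_Id4 : True := by

  trivial
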