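import Cfsg.Agent.Bu.Base1

/-!
# The split `BN`-pair of rank one
-/

set_option autoImplicit false

open Cfsg Subgroup CA.FG CA.Br Cfsg.Agent.Unit

namespace CA.Bu

universe u v

variable {K : Type v} [Field K] [StarRing K] {G : Type u} [Group G]

/-- `G` acts doubly transitively on the `q³ + 1` cosets of `N(X) = Q Y` -/
structure BN (φ : U2 K →* G) (q : ℕ) (Q : Subgroup G) : Prop extends BU φ q where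
  XQ : Xp φ ≤ Q
  QC : Q ≤ 𝒞(Xp φ)
  oQ : Odd (Nat.card Q)
  nX : ∀ γ : U2 K, φ γ ∈ 𝒩(Xp φ) ↔ γ.1 1 0 = 0
  two : ∀ g ∈ 𝒩(Xp φ), uu φ * g * uu φ ∈ 𝒩(Xp φ) → g ∈ Yt φ
  fr : ∀ x ∈ Q, uu φ * x * uu φ ∈ 𝒩(Xp φ) → x = 1
  idx : (𝒩(Xp φ)).index = q ^ 3 + 1
  tr : ∀ g, g ∈ 𝒩(Xp φ) ∨ ∃ x ∈ Q, ∃ n ∈ 𝒩(Xp φ), g = x * uu φ * n
  YQ : Yt φ ≤ 𝒩(Q)
  iv : ∀ x ∈ Q, ∃ z ∈ Xp φ, x⁻¹ = z * (tt φ * x * tt φ)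
  i2 : ∀ i ∈ 𝒩(Xp φ), i * i = 1 → i ≠ 1 → i * tt φ ∈ Q
  invY : ∀ y ∈ Yt φ, y * y = 1 → y ≠ 1 → y = tt φ
  three : (3 : K) = 0 → ∃ x ∈ Q, x ^ 3 = 1 ∧ x ∉ Xp φ
  c1 : Nat.card G ≤ q ^ 3 * (q ^ 2 - 1) * (q ^ 3 + 1)
  c2 : 6 < Nat.card G

end CA.Bu
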