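import Cfsg.Agent.Bu.Id2
import Cfsg.Agent.Bu.Id3

/-!
# Unitary coordinates on the cosets of `N(X)`
-/

set_option autoImplicit false
set_option linter.unusedSectionVars false

open Cfsg Subgroup CA.FG CA.Br Cfsg.Agent.Unit

namespace CA.Bu

universe u v

variable {K : Type v} [Field K] [StarRing K] {q : ℕ}

local notation "dt" => Matrix.GeneralLinearGroup.det

/-- `g` maps `(-1, 1)` to `(x, y)` -/
def Sv (g : U2 K) (x y : K) : Prop := g.1 0 1 - g.1 0 0 = x ∧ g.1 1 1 - g.1 1 0 = y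

theorem Sv.mul {g : U2 K} {x y x' y' : K} (h : Sv g x y) (γ : U2 K) (e1 : γ.1 0 0 * x + γ.1 0 1 * y = x')
    (e2 : γ.1 1 0 * x + γ.1 1 1 * y = y') : Sv (γ * g) x' y' := by
  obtain ⟨rfl, rfl⟩ := h
  constructor <;> simp only [Subgroup.coe_mul, mul_ent]
  exacts [by linear_combination e1, by linear_combination e2]

theorem Sv.uniq (h2 : (2 : K) ≠ 0) {g g' : U2 K} {x y : K} (d : dt g.1 = 1) (d' : dt g'.1 = 1) (h : Sv g x y)
    (h' : Sv g' x y) : g = g' := by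
  obtain ⟨a1, a2, a3, a4⟩ := su_ent g.2 d
  obtain ⟨b1, b2, b3, b4⟩ := su_ent g'.2 d'
  have e1 := h.1.trans h'.1.symm
  have e2 := h.2.trans h'.2.symm
  have f1 := congrArg star e1
  have f2 := congrArg star e2
  simp only [star_sub, a1, a2, a3, a4, b1, b2, b3, b4] at f1 f2
  refine Subtype.ext (gl_ext ?_ ?_ ?_ ?_) <;> apply mul_left_cancel₀ h2
  exacts [by linear_combination -e1 - f1, by linear_combination e1 - f1, by linear_combination f2 - e2,
    by linear_combination e2 + f2]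

theorem exists_Sv (h2 : (2 : K) ≠ 0) {x y : K} (k : x * star y + y * star x = -2) :
    ∃ g : U2 K, dt g.1 = 1 ∧ Sv g x y := by
  have d : -(x + star x) / 2 * ((y + star y) / 2) - (x - star x) / 2 * ((star y - y) / 2) = 1 := by
    field_simp; linear_combination -2 * k
  refine ⟨⟨mk2 _ _ _ _ (d ▸ one_ne_zero), mem_U2.2 ?_⟩, Units.ext (by simpa [det_ent] using d), ?_⟩
  · simp only [mk2_val, Matrix.of_apply, Matrix.cons_val', Matrix.cons_val_zero, Matrix.cons_val_one,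
      Matrix.cons_val_fin_one, star_div₀, star_neg, star_add, star_sub, star_star, star_ofNat]
    refine ⟨by ring, by ring, by linear_combination d⟩
  · constructor <;> simp <;> field_simp <;> ring

theorem comm_u {s : U2 K} (e : s * uU K * s⁻¹ = uU K) : s.1 0 0 = s.1 1 1 ∧ s.1 0 1 = s.1 1 0 := by
  have e := congrArg Subtype.val e
  exact ⟨by simpa using ents e 0 1, by simpa using ents e 0 0⟩

theorem Sv.mul_u {s : U2 K} (e : s * uU K * s⁻¹ = uU K) : ∃ μ : K, μ * star μ = 1 ∧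
    ∀ g x y, Sv g x y → Sv (g * s) (μ * x) (μ * y) := by
  obtain ⟨e1, e2⟩ := comm_u e
  obtain ⟨k1, -, k2⟩ := mem_U2.1 s.2
  refine ⟨s.1 0 0 - s.1 0 1, by rw [star_sub, ← e2, ← e1] at *; linear_combination k2 - k1, ?_⟩
  rintro g _ _ ⟨rfl, rfl⟩
  constructor <;> simp only [Subgroup.coe_mul, mul_ent, e1, e2] <;> ring

variable {G : Type u} [Group G] {φ : U2 K →* G} {Q : Subgroup G} {Ω : Type*} [MulAction G Ω] {inf : Ω}

theorem cj1 {k a : G} : k⁻¹ * a * k = 1 ↔ a = 1 := by simpa only [inv_inv] using conj_eq_one_iff (a := k⁻¹) (b := a)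

theorem cjm (k a b : G) : k⁻¹ * a * k * (k⁻¹ * b * k) = k⁻¹ * (a * b) * k := by group

theorem cm (k : G) {a b : G} : Commute (k⁻¹ * a * k) (k⁻¹ * b * k) ↔ Commute a b := by
  simp only [Commute, SemiconjBy, cjm, mul_left_inj, mul_right_inj]

namespace BN

variable (h : BN φ q Q) (hN : ∀ g : G, g • inf = inf ↔ g ∈ 𝒩(Xp φ)) (ht : ∀ ω, ∃ g : G, g • inf = ω)
include h

omit h in
theorem u2 : uu φ * uu φ = 1 := by rw [uu, ← map_mul, uU_mul, map_one]

omit h in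
theorem t2 : tt φ * tt φ = 1 := by rw [tt, ← map_mul, tU_mul, map_one]

omit h in
theorem tc (γ : U2 K) : Commute (tt φ) (φ γ) := by
  rw [Commute, SemiconjBy, tt, ← map_mul, cen_comm (dg_cen _), map_mul]

theorem t1 : tt φ ≠ 1 := fun e => h.neg_ne (dU_inj (dU_neg.trans ((h.eq_of_det (e.trans φ.map_one.symm)
  (by simp [det_dg])).trans dU_one.symm)))

include hN

theorem ou : uu φ • inf ≠ inf := fun e => by simpa using (h.nX _).1 ((hN _).1 e)

theorem ti : tt φ • inf = inf := (hN _).2 ((h.nX _).2 (by simp))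

omit h in
theorem fo {g : G} : g • uu φ • inf = uu φ • inf ↔ uu φ * g * uu φ ∈ 𝒩(Xp φ) := by
  rw [← hN, mul_smul, mul_smul, ← smul_left_cancel_iff (uu φ), smul_smul (uu φ) (uu φ), u2, one_smul]

theorem col {g g' : U2 K} (e : g.1 0 0 * g'.1 1 0 = g.1 1 0 * g'.1 0 0) : φ g • inf = φ g' • inf := by
  obtain ⟨n, rfl⟩ : ∃ n, g = g' * n := ⟨g'⁻¹ * g, by simp⟩
  simp only [Subgroup.coe_mul, mul_ent] at e
  rw [map_mul, mul_smul, (hN _).2 ((h.nX n).2 (mul_left_cancel₀ (dne g'.1) (by linear_combination -e)))]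

theorem Qi {x : G} (hx : x ∈ Q) : x • inf = inf := (hN x).2 (cent_le_norm _ (h.QC hx))

theorem two' {k g : G} (e1 : g • k • inf = k • inf) (e2 : g • k • uu φ • inf = k • uu φ • inf) : k⁻¹ * g * k ∈ Yt φ :=
  h.two _ ((hN _).1 (by rw [mul_smul, mul_smul, e1, inv_smul_smul]))
    ((fo hN).1 (by rw [mul_smul, mul_smul, e2, inv_smul_smul]))

theorem i2' {k i j : G} (ei : i • k • inf = k • inf) (ej : j • k • inf = k • inf) (a : i * i = 1) (a' : i ≠ 1)
    (b : j * j = 1) (b' : j ≠ 1) : k⁻¹ * (i * j) * k ∈ Q := by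
  have A {i : G} (ei : i • k • inf = k • inf) (a : i * i = 1) (a' : i ≠ 1) : k⁻¹ * i * k * tt φ ∈ Q :=
    h.i2 _ ((hN _).1 (by rw [mul_smul, mul_smul, ei, inv_smul_smul]))
      (by rw [cjm, a, cj1]) (mt cj1.1 a')
  have := mul_mem (A ei a a') (inv_mem (A ej b b'))
  rw [← inv_eq_of_mul_eq_one_left b]
  convert this using 1; group

include ht

theorem ex (ω : Ω) : ω = inf ∨ ∃ x ∈ Q, x • uu φ • inf = ω := by
  obtain ⟨g, rfl⟩ := ht ω
  rcases h.tr g with k | ⟨x, hx, n, hn, rfl⟩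
  exacts [.inl ((hN g).2 k), .inr ⟨x, hx, by rw [mul_smul, mul_smul, (hN n).2 hn]⟩]

theorem free {k d : G} (hd : k⁻¹ * d * k ∈ Q) {ω : Ω} (n : ω ≠ k • inf) (e : d • ω = ω) : d = 1 := by
  obtain ⟨x, hx, ex⟩ := (h.ex hN ht (k⁻¹ • ω)).resolve_left fun e => n (inv_smul_eq_iff.1 e)
  have := h.fr _ (mul_mem (mul_mem (inv_mem hx) hd) hx) ((fo hN).1 (by
    rw [mul_smul, mul_smul, mul_smul, mul_smul, ex, smul_inv_smul, e, ← ex, inv_smul_smul]))
  exact cj1.1 (cj1.1 this)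

variable {k : G} (hk : k * tt φ * k⁻¹ = uu φ)
include hk

omit ht in
theorem up : uu φ • k • inf = k • inf := by rw [← hk, mul_smul, mul_smul, inv_smul_smul, h.ti hN]

omit ht in
theorem u1 : uu φ ≠ 1 := by rw [← hk, Ne, conj_eq_one_iff]; exact h.t1

omit ht in
theorem tp : tt φ • k • inf ≠ k • inf := fun e => by
  have m := h.i2' hN e (h.up hN hk) t2 h.t1 u2 (h.u1 hN hk)
  have s : (k⁻¹ * (tt φ * uu φ) * k) ^ 2 = 1 := by
    rw [pow_two, cjm, cj1, mul_assoc, ← mul_assoc (uu φ), uu, ← (tc _).eq, mul_assoc, ← uu, u2, mul_one, t2]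
  have := orderOf_eq_one_iff.1 (Nat.eq_one_of_dvd_coprimes (Nat.coprime_two_right.2 h.oQ) (orderOf_dvd_natCard Q m)
    (orderOf_dvd_of_pow_eq_one s))
  rw [cj1, mul_eq_one_iff_inv_eq, inv_eq_of_mul_eq_one_left t2] at this
  exact h.ou hN (this ▸ h.ti hN)

theorem cu {c : U2 K} (e : φ c • k • inf = k • inf) : c * uU K * c⁻¹ = uU K := by
  have m := h.i2' hN (h.up hN hk) (j := φ c * uu φ * (φ c)⁻¹)
    (by rw [mul_smul, mul_smul, inv_smul_eq_iff.2 e.symm, h.up hN hk, e]) u2 (h.u1 hN hk)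
    (by rw [conj_mul, u2, mul_one, mul_inv_cancel]) (by rw [Ne, conj_eq_one_iff]; exact h.u1 hN hk)
  have := h.free hN ht m (h.tp hN hk) (by
    rw [uu, cj, ← map_mul, ← mul_smul, ← (tc _).eq, mul_smul, map_mul, ← cj, mul_smul (φ (uU K)), mul_smul, mul_smul,
      inv_smul_eq_iff.2 e.symm, ← uu, h.up hN hk, e, h.up hN hk])
  exact h.conj_lift ((eq_inv_of_mul_eq_one_right this).trans (inv_eq_of_mul_eq_one_left u2))

theorem Lp (hZ : ∀ a ∈ Zt φ, a ≠ 1 → 𝒞[a] = φ.range) {s : U2 K} (d : dt s.1 = 1) (e : φ s • k • inf = k • inf) :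
    s = 1 := by
  obtain ⟨x, hx, ex⟩ := (h.ex hN ht (k⁻¹ • tt φ • k • inf)).resolve_left fun e => h.tp hN hk (inv_smul_eq_iff.1 e)
  have k1 : (k * x) • inf = k • inf := by rw [mul_smul, h.Qi hN hx]
  have k2 : (k * x) • uu φ • inf = tt φ • k • inf := by rw [mul_smul, ex, smul_inv_smul]
  generalize k * x = m at k1 k2
  have Y {γ : U2 K} (e : φ γ • k • inf = k • inf) : m⁻¹ * φ γ * m ∈ Yt φ :=
    h.two' hN (by rwa [k1]) (by rw [k2, ← mul_smul, ← (tc γ).eq, mul_smul, e])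
  have mu : m⁻¹ * uu φ * m = tt φ := h.invY _ (Y (h.up hN hk)) (by rw [cjm, u2, cj1])
    (mt cj1.1 (h.u1 hN hk))
  have cC {c : G} : c ∈ φ.range ↔ Commute c (tt φ) := h.rng ▸ mem_centralizer_singleton_iff
  obtain ⟨τ, hτ⟩ : m⁻¹ * tt φ * m ∈ φ.range := cC.2 (by have := (cm m).2 (tc (φ := φ) (uU K)); rwa [← uu, mu] at this)
  have τ0 : τ.1 1 0 ≠ 0 := fun e => h.ou hN (by
    have := (hN _).2 ((h.nX τ).2 e)
    rwa [hτ, mul_smul, mul_smul, k1, ← k2, inv_smul_smul] at this)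
  have YZ {a : Kˣ} (c : Commute (φ τ) (φ (dU a))) : (a : K) * star (a : K) = 1 := by
    have := ents (congrArg Subtype.val (h.conj_lift c.mul_inv_cancel)) 1 0
    have a0 : star (a : K) ≠ 0 := by simp
    simp at this
    field_simp at this
    exact this
  by_contra s1
  obtain ⟨a, ha⟩ := mem_Yt'.1 (Y e)
  have := hZ _ (mem_Zt'.2 ⟨a, YZ (by rw [hτ, ha, cm]; exact tc s), ha⟩)
    fun k => s1 (h.eq_of_det ((cj1.1 k).trans φ.map_one.symm) (by simp [d]))
  have key {c : G} : Commute c (φ s) ↔ Commute c (uu φ) := by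
    rw [← cm m, ← cm m (b := uu φ), mu, ← cC, ← this]; exact mem_centralizer_singleton_iff.symm
  obtain ⟨ε, hε⟩ := exists_N h.fq (c := -1) star_neg_one
  have e0 : (ε : K) * star (ε : K) = -1 := congrArg Units.val hε
  have e1 : (star ε)⁻¹ = -ε := inv_eq_of_mul_eq_one_left (by rw [neg_mul, hε, neg_neg])
  obtain ⟨s2, s3⟩ := comm_u (h.cu hN ht hk e)
  have es : φ (dU ε) * φ s * (φ (dU ε))⁻¹ = (φ s)⁻¹ := by
    have d := (det_ent s.1).symm.trans (congrArg Units.val d)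
    rw [mul_inv_eq_iff_eq_mul, eq_inv_mul_iff_mul_eq, ← map_mul, ← map_mul]
    refine congrArg φ (Subtype.ext (gl_ext ?_ ?_ ?_ ?_)) <;> simp [mul_ent, e1, s2, s3] at d ⊢
    exacts [by linear_combination ε * d, by ring, by ring, by linear_combination -ε * d]
  have eu : φ (dU ε) * uu φ * (φ (dU ε))⁻¹ = tt φ * uu φ := by
    rw [mul_inv_eq_iff_eq_mul, tt, uu, ← map_mul, ← map_mul, ← map_mul]
    refine congrArg φ (Subtype.ext (gl_ext ?_ ?_ ?_ ?_)) <;> simp [mul_ent, e1]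
  have c1 : Commute (m * φ (dU ε) * m⁻¹) (uu φ) := (cm m).1 (by rw [mu]; simpa [mul_assoc] using (tc (dU ε)).symm)
  have c2 := (cm (φ (dU ε))).2 (key.2 c1).inv_right
  rw [show (φ (dU ε))⁻¹ * (φ s)⁻¹ * φ (dU ε) = φ s by rw [← es]; group, key,
    ← show (φ (dU ε))⁻¹ * (tt φ * uu φ) * φ (dU ε) = uu φ by rw [← eu]; group, cm] at c2
  have c3 := (cm m).2 (c2.mul_right c1.inv_right)
  rw [mul_inv_cancel_right, ← hτ] at c3
  exact h.toUK.two (by linear_combination e0 - YZ (by simpa [mul_assoc] using c3.symm))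

theorem core (hZ : ∀ a ∈ Zt φ, a ≠ 1 → 𝒞[a] = φ.range) (hc : Nat.card Ω = q ^ 3 + 1) :
    ∃ (pt : K → K → Ω) (ξ : K → G) (w : G) (η : K), Core Q inf pt ξ w η := by
  classical
  have h2 := h.toUK.two
  obtain ⟨η, η0, ηs⟩ := h.exists_im
  obtain ⟨κ, hκ⟩ := h.fq.exists_norm_eq (c := 2) (by simp)
  have κ0 : κ ≠ 0 := left_ne_zero_of_mul (hκ ▸ h2)
  have : ∀ a b : K, ∃ g : U2 K, PP a b → a ≠ 0 → dt g.1 = 1 ∧ Sv g (κ * b / a) (κ / a) := fun a b => by
    by_cases p : PP a b ∧ a ≠ 0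
    · obtain ⟨g, hg⟩ := exists_Sv h2 (x := κ * b / a) (y := κ / a) (by
        have := p.2
        have := star_ne_zero.2 p.2
        have := p.1
        simp only [PP, star_div₀, star_mul'] at *; field_simp
        linear_combination κ * star κ * this - a * star a * hκ)
      exact ⟨g, fun _ _ => hg⟩
    · exact ⟨1, fun a b => absurd ⟨a, b⟩ p⟩
  choose gv hg using this
  have : ∀ c : K, ∃ x : U2 K, ∀ hc, x = xU c hc := fun c =>
    if hc : star c = -c then ⟨xU c hc, fun _ => rfl⟩ else ⟨1, fun k => absurd k hc⟩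
  choose ξ hξ using this
  obtain ⟨pt, hpt⟩ : ∃ pt : K → K → Ω, pt = fun a b =>
    if a = 0 then φ (ξ b) • uu φ • inf else φ (gv a b) • k • inf := ⟨_, rfl⟩
  have P0 {b : K} (hb : star b = -b) : pt 0 b = φ (xU b hb) • uu φ • inf := by simp [hpt, hξ b hb]
  have P1 {a b : K} (p : PP a b) (a0 : a ≠ 0) {g : U2 K} (d : dt g.1 = 1) (s : Sv g (κ * b / a) (κ / a)) :
      pt a b = φ g • k • inf := by simp [hpt, a0, Sv.uniq h2 d (hg a b p a0).1 s (hg a b p a0).2]
  have P2 {a b : K} (p : PP a b) (a0 : a ≠ 0) := P1 p a0 (hg a b p a0).1 (hg a b p a0).2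
  have P00 : pt 0 0 = uu φ • inf := by rw [P0 (by simp), xU_zero, map_one, one_smul]
  have A1 {a b a' b' : K} (p : PP a b) (a0 : a ≠ 0) (p' : PP a' b') (a0' : a' ≠ 0) {γ : U2 K} (d : dt γ.1 = 1)
      (e1 : (γ.1 0 0 * b + γ.1 0 1) * a' = b' * a) (e2 : (γ.1 1 0 * b + γ.1 1 1) * a' = a) :
      φ γ • pt a b = pt a' b' := by
    rw [P2 p a0, smul_smul, ← map_mul, P1 p' a0' (g := γ * gv a b) (by simp [d, (hg a b p a0).1])
      ((hg a b p a0).2.mul γ (by field_simp; linear_combination e1) (by field_simp; linear_combination e2))]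
  have Yi (l : Kˣ) : φ (dU l) • inf = inf := (hN _).2 ((h.nX _).2 (by simp))
  have Yo (l : Kˣ) : φ (dU l) • uu φ • inf = uu φ • inf := (fo hN).2 (by
    rw [uu, ← map_mul, ← map_mul, h.nX]; simp [mul_ent])
  have A0 (l : Kˣ) {b : K} (hb : star b = -b) : φ (dU l) • pt 0 b = pt 0 (l * star (l : K) * b) := by
    rw [P0 hb, P0 (by simp [hb, mul_comm]), ← dU_xU l b hb, ← cj, mul_smul, mul_smul, inv_smul_eq_iff.2 (Yo l).symm]
  have t0 {b : K} (hb : star b = -b) : tt φ • pt 0 b = pt 0 b := by simpa [dU_neg, tt] using A0 (-1) hb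
  have t1 (g : U2 K) : tt φ • φ g • k • inf ≠ φ g • k • inf := fun e => h.tp hN hk (by
    rwa [← mul_smul, (tc g).eq, mul_smul, smul_left_cancel_iff] at e)
  have XQ {c : K} (hc : star c = -c) : φ (xU c hc) ∈ Q := h.XQ (mem_Xp.2 ⟨c, hc, rfl⟩)
  have Qfr (x) (hx : x ∈ Q) (e : x • pt 0 0 = pt 0 0) : x = 1 := h.fr x hx ((fo hN).1 (P00 ▸ e))
  have inj {a b a' b' : K} (p : PP a b) (p' : PP a' b') (e : pt a b = pt a' b') : a = a' ∧ b = b' := by
    by_cases a0 : a = 0 <;> by_cases a0' : a' = 0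
    · subst a0 a0'
      rw [P0 (PP.im.1 p), P0 (PP.im.1 p'), ← P00, ← inv_smul_eq_iff, ← mul_smul] at e
      exact ⟨rfl, h.xU_inj (inv_mul_eq_one.1 (Qfr _ (mul_mem (inv_mem (XQ _)) (XQ _)) e)).symm⟩
    · subst a0; exact absurd (P2 p' a0' ▸ e ▸ t0 (PP.im.1 p)) (t1 _)
    · subst a0'; exact absurd (P2 p a0 ▸ e ▸ t0 (PP.im.1 p')) (t1 _)
    · rw [P2 p a0, P2 p' a0', ← inv_smul_eq_iff, ← mul_smul, ← map_inv, ← map_mul] at e
      have := inv_mul_eq_one.1 (h.Lp hN ht hk hZ (by simp [(hg a b p a0).1, (hg a' b' p' a0').1]) e)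
      obtain ⟨k1, k2⟩ := (hg a b p a0).2
      rw [← this, (hg a' b' p' a0').2.1] at k1
      rw [← this, (hg a' b' p' a0').2.2] at k2
      obtain rfl : a = a' := by field_simp at k2; exact k2
      exact ⟨rfl, by field_simp at k1; exact k1.symm⟩
  have ne {a b : K} (p : PP a b) : pt a b ≠ inf := fun e => by
    by_cases a0 : a = 0
    · subst a0
      rw [P0 (PP.im.1 p), smul_eq_iff_eq_inv_smul, h.Qi hN (inv_mem (XQ _))] at e
      exact h.ou hN e
    · exact t1 _ (P2 p a0 ▸ e ▸ h.ti hN)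
  have sur (ω : Ω) : ω = inf ∨ ∃ a b, PP a b ∧ ω = pt a b := by
    have : Finite Ω := Nat.finite_of_card_ne_zero (by omega)
    have := h.fq.finite
    have pp (x : K × {s : K // star s = -s}) := (PP.half h2 x.1).add x.2.2
    obtain ⟨_ | x, rfl⟩ := (Function.Injective.bijective_of_nat_card_le
      (f := fun x : Option (K × {s : K // star s = -s}) => x.elim inf fun x => pt x.1 (-(x.1 * star x.1) / 2 + x.2))
      (by
        rintro (_ | x) (_ | y) e
        · rfl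
        · exact absurd e.symm (ne (pp y))
        · exact absurd e (ne (pp x))
        · obtain ⟨e1, e2⟩ := inj (pp x) (pp y) e
          rw [e1, add_right_inj] at e2
          rw [Prod.ext e1 (Subtype.ext e2)])
      (by rw [hc, Finite.card_option, Nat.card_prod, h.fq.card, card_im h.fq, ← pow_succ])).2 ω
    exacts [.inl rfl, .inr ⟨_, _, pp x, rfl⟩]
  have ξa {c a b : K} (hc : star c = -c) (p : PP a b) : φ (xU c hc) • pt a b = pt a (b + c) := by
    by_cases a0 : a = 0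
    · subst a0
      rw [P0 (PP.im.1 p), P0 (PP.im.1 (p.add hc)), smul_smul, ← map_mul, xU_add]
      simp only [add_comm]
    · exact A1 p a0 (p.add hc) a0 (by simp [det_xp]) (by simp) (by simp)
  have re (l : Kˣ) (ls : star (l : K) = l) (a b : K) (p : PP a b) :
      φ (dU l) • pt a b = pt (l * a) (l * star (l : K) * b) := by
    by_cases a0 : a = 0
    · subst a0; rw [mul_zero, A0 l (PP.im.1 p)]
    · exact A1 p a0 (p.smul l) (by simp [a0]) (by rw [det_dU, show star l = l from Units.ext ls, mul_inv_cancel])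
        (by simp [ls]; ring) (by simp [ls])
  obtain ⟨W, hW⟩ : ∃ W, W = uU K * dU (Units.mk0 (-η⁻¹) (by simp [η0])) := ⟨_, rfl⟩
  have W0 : W.1 0 0 = 0 ∧ W.1 0 1 = η ∧ W.1 1 0 = -η⁻¹ ∧ W.1 1 1 = 0 := by simp [hW, mul_ent, ηs]
  have wi : φ W • inf = pt 0 0 := by rw [hW, map_mul, mul_smul, Yi, P00, uu]
  have w0 : φ W • pt 0 0 = inf := by rw [hW, map_mul, mul_smul, P00, Yo, ← uu, ← mul_smul, u2, one_smul]
  refine ⟨pt, fun c => φ (ξ c), φ W, η, h2, η0, ηs, inj, ne, sur, fun x => h.Qi hN, fun p => ?_, Qfr,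
    fun hc => hξ _ hc ▸ XQ hc, fun hc x hx => h.QC hx _ (mem_Xp.2 ⟨_, hc, by rw [hξ _ hc]⟩),
    fun hc p => hξ _ hc ▸ ξa hc p, wi, w0, fun {a b} p b0 => ?_, fun g g1 g2 => ?_, fun l l0 ls =>
      ⟨_, Yi (Units.mk0 l l0), re (Units.mk0 l l0) ls⟩, fun x hx a b p e => ?_, fun h3 => ?_⟩
  · exact P00 ▸ (h.ex hN ht _).resolve_left (ne p)
  · by_cases a0 : a = 0
    · subst a0
      have p' := p.w b0 ηs
      simp only [zero_mul, zero_div, neg_zero] at p' ⊢
      rw [P0 (PP.im.1 p), P0 (PP.im.1 p'), ← P00, ← wi, smul_smul, smul_smul, smul_smul, ← map_mul, ← map_mul, ← map_mul]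
      exact h.col hN (by simp [mul_ent, W0]; field_simp)
    · exact A1 p a0 (p.w b0 ηs) (by simp [*]) (Units.ext (by rw [det_ent]; simp [W0, η0])) (by simp [W0]; ring)
        (by simp [W0]; field_simp)
  · have gY := h.two g ((hN g).1 g1) ((fo hN).1 (P00 ▸ g2))
    refine ⟨fun x => (mem_normalizer_iff.1 (h.YQ gY) x).1, ?_⟩
    obtain ⟨l, rfl⟩ := mem_Yt'.1 gY
    obtain ⟨s, ds, es⟩ : ∃ s : U2 K, dt s.1 = 1 ∧ φ (dU l) • k • inf = φ s • k • inf := by
      obtain e | ⟨a, b, p, e⟩ := sur (φ (dU l) • k • inf)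
      · exact absurd (by rw [e, h.ti hN]) (t1 (dU l))
      by_cases a0 : a = 0
      · subst a0; exact absurd (by rw [e, t0 (PP.im.1 p)]) (t1 (dU l))
      · exact ⟨_, (hg a b p a0).1, e.trans (P2 p a0)⟩
    have e1 : φ ((dU l)⁻¹ * s) • k • inf = k • inf := by rw [map_mul, mul_smul, ← es, map_inv, inv_smul_smul]
    obtain ⟨μ, hμ, hs⟩ := Sv.mul_u (h.cu hN ht hk e1)
    have μ0 := left_ne_zero_of_mul_eq_one hμ
    have l0 : star (l : K) ≠ 0 := by simp
    have m : star (l : K) / μ * star (star (l : K) / μ) = l * star (l : K) := by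
      rw [star_div₀, star_star, div_mul_div_comm, hμ, div_one, mul_comm]
    refine ⟨star (l : K) / μ, div_ne_zero l0 μ0, fun a b p => ?_⟩
    by_cases a0 : a = 0
    · subst a0; rw [mul_zero, A0 l (PP.im.1 p), m]
    have := hs _ _ _ ((hg a b p a0).2.mul (dU l) rfl rfl)
    rw [P2 p a0, P1 (p.smul _) (by simp [*]) (g := dU l * gv a b * ((dU l)⁻¹ * s)) (by simp [ds, (hg a b p a0).1])
      (by rw [m]; convert this using 1 <;> simp <;> field_simp), map_mul, mul_smul, e1, map_mul, mul_smul]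
  · obtain ⟨_, hz, k⟩ := h.iv x hx
    obtain ⟨c, hc, rfl⟩ := mem_Xp.1 hz
    have p' : PP (-a) b := by simpa [PP] using p
    refine ⟨b + c, p'.add hc, ?_⟩
    rw [k, mul_smul, mul_smul, mul_smul, t0 (by simp), e, ← ξa hc p']
    congr 1
    simpa [dU_neg, tt] using re (-1) (by simp) a b p
  · obtain ⟨x, hx, x3, n⟩ := h.three h3
    obtain k | ⟨a, b, p, k⟩ := sur (x • pt 0 0)
    · exact absurd (smul_eq_iff_eq_inv_smul _ |>.1 k |>.trans (h.Qi hN (inv_mem hx))) (ne PP.zero)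
    refine ⟨x, hx, x3, a, b, ?_, p, k⟩
    rintro rfl
    rw [P0 (PP.im.1 p), ← P00, ← inv_smul_eq_iff, ← mul_smul] at k
    exact n (mem_Xp.2 ⟨b, _, inv_mul_eq_one.1 (Qfr _ (mul_mem (inv_mem (XQ _)) hx) k)⟩)

omit hN ht hk in
theorem psu3 [Finite G] [IsSimpleGroup G] (hZ : ∀ a ∈ Zt φ, a ≠ 1 → 𝒞[a] = φ.range) : Nonempty (G ≃* PSU 3 K q) := by
  obtain ⟨k, hk⟩ := isConj_iff.1 h.fus
  obtain ⟨pt, ξ, w, η, c⟩ := h.core (inf := ((1 : G) : G ⧸ 𝒩(Xp φ)))
    (fun g => by rw [← MulAction.mem_stabilizer_iff, MulAction.stabilizer_quotient])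
    (fun ω => MulAction.exists_smul_eq G _ ω) hk hZ h.idx
  exact c.psu h.fq h.c1 h.c2

end BN

theorem realizeEqns_Bu_Id5 : True := by
  have := @CA.Bu.Sv.eq_1.{0}
  have := @CA.Bu.Sv.eq_def.{0}
  have := @CA.Bu.Sv.congr_simp.{0}
  trivial

end CA.Bu
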