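import Cfsg.Agent.Bu.Base2
import Cfsg.Agent.Bu.CU

/-!
# Linear characters, products of two involutions, and the shape `CU`
-/

set_option autoImplicit false
set_option linter.unusedSectionVars false

open Cfsg Subgroup CA.Dih CA.FG CA.Br Cfsg.Agent.Unit

namespace CA.Bu

universe u v

variable {K : Type v} [Field K] [StarRing K] {q : ℕ}

local notation "dt" => Matrix.GeneralLinearGroup.det

variable {G : Type u} [Group G] {φ : U2 K →* G} {g m : U2 K} {r : G}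

theorem mk_im {A : Subgroup (GL (Fin 2) K)} (g : U2 K) (h : g.1 ∈ A) : φ g ∈ im φ A := ⟨g, h, rfl⟩

theorem exists_lin (l : U2 K →* ℂˣ) (hl : ∀ g, φ g = 1 → l g = 1) :
    ∃ μ : φ.range →* ℂˣ, ∀ g, μ (φ.rangeRestrict g) = l g :=
  ⟨φ.rangeRestrict.liftOfSurjective φ.rangeRestrict_surjective ⟨l, fun g k => hl g (congrArg Subtype.val k)⟩,
    fun g => MonoidHom.liftOfRightInverse_comp_apply _ _ _ _ g⟩

theorem mem_Ht' (h2 : (2 : K) ≠ 0) {x : G} : x ∈ Ht φ ↔ ∃ a h, φ ⟨tg h2 a a⁻¹, h⟩ = x := by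
  refine ⟨fun ⟨g, h, k⟩ => ?_, fun ⟨a, b, h⟩ => ⟨⟨_, b⟩, mem_subgroupOf.2 (mem_inf.2 ⟨tg_nsT a a⁻¹,
    MonoidHom.mem_ker.2 (by rw [det_tg, mul_inv_cancel])⟩), h⟩⟩
  obtain ⟨a, d, e⟩ := exists_tg (g := g.1) h2 h.1
  obtain rfl : d = a⁻¹ := eq_inv_of_mul_eq_one_right (by rw [← det_tg (h2 := h2), ← e]; exact h.2)
  exact ⟨a, e ▸ g.2, (congrArg φ (Subtype.ext e.symm)).trans k⟩

theorem card_real (hq : FQ K q) : Nat.card {a : Kˣ // star a = a} = q - 1 := by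
  rw [← hq.card_ker_sub]
  exact Nat.card_congr (Equiv.subtypeEquivRight fun a => Units.ext_iff.trans (hq.star_eq_iff a))

namespace UK

variable (h : UK φ q)
include h

theorem J_inv [Fintype G] (t : m.1 0 0 + m.1 1 1 = 0) (d : dt m.1 = -1) : φ m ∈ invs G :=
  mem_invs.2 ⟨by rw [← map_mul, show m * m = 1 from Subtype.ext (sq_of_tr t d), map_one], fun k => by
    obtain ⟨a, e⟩ := mem_cen'.1 (h.kerc _ k)
    exact a.ne_zero (mul_left_cancel₀ h.two (by simp [e] at t; linear_combination t))⟩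

theorem lin0 (μ : U2 K →* ℂˣ) (d : dt g.1 = 1) : μ g = 1 := by
  have hx : ∀ s hs, xU s hs ∈ μ.ker := fun s hs => by
    obtain ⟨a, ha⟩ := exists_N h.fq (star_neg_one (K := K))
    have k : ∀ s hs, μ (xU s hs * xU s hs) = 1 := fun s hs => by
      have := congrArg μ (dU_xU a s hs)
      rw [map_mul, map_mul, map_inv, mul_inv_cancel_comm] at this
      rw [map_mul]; nth_rewrite 1 [this]
      rw [← map_mul, xU_add, ← map_one μ, ← xU_zero (by simp)]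
      congr 2
      rw [show (a : K) * star (a : K) = -1 from congrArg Units.val ha]; ring
    have := k (s / 2) (by simp [hs, neg_div])
    rw [xU_add] at this
    simpa only [add_halves' h.two, MonoidHom.mem_ker] using this
  exact SU_le h.fq hx (fun s hs => by rw [← u_xU]; exact (MonoidHom.normal_ker μ).conj_mem _ (hx s hs) _) d
where add_halves' (h2 : (2 : K) ≠ 0) {s : K} : s / 2 + s / 2 = s := by field_simp; ring

theorem lin {μ : φ.range →* ℂˣ} (d : dt g.1 = 1) : μ (φ.rangeRestrict g) = 1 := h.lin0 (μ.comp φ.rangeRestrict) d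

theorem lin_eq {μ : φ.range →* ℂˣ} {g' : U2 K} (d : dt g.1 = dt g'.1) :
    μ (φ.rangeRestrict g) = μ (φ.rangeRestrict g') := by
  have := h.lin (μ := μ) (g := g * g'⁻¹) (by
    rw [Subgroup.coe_mul, Subgroup.coe_inv, map_mul, map_inv, d, mul_inv_cancel])
  rwa [map_mul, map_mul, map_inv, map_inv, mul_inv_eq_one] at this

theorem kH : Nat.card (Ht φ) = q + 1 := by
  rw [Ht, h.card_det, ← h.fq.card_norm_one]
  refine (Nat.card_congr (Equiv.ofBijective (fun x : {x : K // x * star x = 1} =>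
    (⟨⟨tg h.two (nu x) (nu x)⁻¹, tg_U2.2 ⟨x.2, by simp [nu, ← mul_inv, x.2]⟩⟩, tg_nsT (h2 := h.two) _ _,
      show dt (tg h.two _ _) = 1 by rw [det_tg, mul_inv_cancel]⟩ : (nsT (1 : K) ⊓ (dt).ker).subgroupOf (U2 K)))
    ⟨fun x y e => ?_, fun ⟨g, hg⟩ => ?_⟩)).symm
  · exact Subtype.ext (congrArg Units.val (tg_inj (congrArg (fun g => g.1.1) e)).1)
  · obtain ⟨a, d, e⟩ := exists_tg (g := g.1) h.two hg.1
    obtain rfl : d = a⁻¹ := eq_inv_of_mul_eq_one_right (by rw [← det_tg (h2 := h.two), ← e]; exact hg.2)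
    have n : (a : K) * star (a : K) = 1 := (tg_U2.1 (e ▸ g.2)).1
    have e' : nu (K := K) ⟨a, n⟩ = a := Units.ext rfl
    exact ⟨⟨a, n⟩, Subtype.ext (Subtype.ext (show tg h.two (nu (K := K) ⟨a, n⟩) (nu (K := K) ⟨a, n⟩)⁻¹ = g.1 by rw [e', e]))⟩

theorem kY1 : Nat.card (Y1t φ) = q - 1 := by
  rw [Y1t, h.card_det, ← card_real h.fq]
  refine (Nat.card_congr (Equiv.ofBijective (fun x : {a : Kˣ // star a = a} =>
    (⟨dU x.1, mem_dU.2 ⟨_, rfl⟩, show dt (dU x.1).1 = 1 by rw [det_dU, x.2, mul_inv_cancel]⟩ :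
      ((dgH (F := K)).range ⊓ (dt).ker).subgroupOf (U2 K)))
    ⟨fun x y e => Subtype.ext (dU_inj (congrArg Subtype.val e)), fun ⟨g, hg⟩ => ?_⟩)).symm
  obtain ⟨a, rfl⟩ := mem_dU.1 hg.1
  exact ⟨⟨a, (mul_inv_eq_one.1 ((det_dU a).symm.trans hg.2)).symm⟩, rfl⟩

theorem SL_Z (d : dt g.1 = 1) (k : φ g ∈ Zt φ) : φ g = 1 ∨ φ g = tt φ := by
  obtain ⟨a, e⟩ := mem_cen'.1 (h.mem_Zt.1 k)
  exact h.invZ k (by
    rw [← map_mul, show g * g = 1 from Subtype.ext (by rw [Subgroup.coe_mul, e, dg_mul, ← det_dg, ← e, d, dg_one]; rfl),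
      map_one])

theorem cycY : IsCyclic (Yt φ) := by
  have := h.fq.finite
  rw [show Yt φ = (⊤ : Subgroup Kˣ).map (φ.comp dUH) from Subgroup.ext fun x => mem_Yt'.trans (by simp [dUH])]
  exact cyclic_map _ inferInstance

theorem cycH : IsCyclic (Ht φ) := by
  have := h.fq.finite
  let f : Kˣ →* GL (Fin 2) K := (tH h.two).comp ((MonoidHom.id Kˣ).prod invMonoidHom)
  rw [show Ht φ = (⊤ : Subgroup ((U2 K).comap f)).map (φ.comp (f.subgroupComap _)) from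
    Subgroup.ext fun x => (mem_Ht' h.two).trans ⟨fun ⟨a, b, c⟩ => ⟨⟨a, b⟩, trivial, c⟩, fun ⟨a, _, c⟩ => ⟨a.1, a.2, c⟩⟩]
  exact cyclic_map _ inferInstance

theorem extY (θ : Yt φ →* ℂˣ) (hθ : ∀ y y' : Yt φ, (y' : G) = uu φ * y * (uu φ)⁻¹ → θ y' = θ y) :
    ∃ μ : φ.range →* ℂˣ, ∀ (y : Yt φ) (g : φ.range), (g : G) = y → μ g = θ y := by
  let ψ : Kˣ →* ℂˣ := θ.comp ((φ.comp dUH).codRestrict _ fun a => mem_Yt'.2 ⟨a, rfl⟩)
  let D := ((dt).comp (U2 K).subtype).rangeRestrict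
  let d := D.comp dUH
  have sd : Function.Surjective d := by
    rintro ⟨_, g, rfl⟩
    obtain ⟨a, ha⟩ := hilb90 h.fq (det_norm g.2)
    exact ⟨a, Subtype.ext ((det_dU a).trans ha)⟩
  have kd : d.ker ≤ ψ.ker := fun y hy => by
    obtain ⟨x, hx⟩ := exists_N h.fq (mul_inv_eq_one.1 ((det_dU y).symm.trans (congrArg Subtype.val hy))).symm
    have : ψ (star x)⁻¹ = ψ x := hθ _ _ (show φ (dU _) = uu φ * φ (dU x) * (uu φ)⁻¹ by rw [uu, cj, u_dU])
    rw [MonoidHom.mem_ker, ← hx, map_mul, ← this, ← map_mul, inv_mul_cancel, map_one]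
  have l : ∀ y, d.liftOfSurjective sd ⟨ψ, kd⟩ (d y) = ψ y := MonoidHom.liftOfRightInverse_comp_apply _ _ _ _
  obtain ⟨μ, hμ⟩ := exists_lin (φ := φ) ((d.liftOfSurjective sd ⟨ψ, kd⟩).comp D) fun g k => by
    obtain ⟨a, -, rfl⟩ := cen_dU.1 (h.kerc g k)
    exact (l a).trans ((congrArg θ (Subtype.ext k)).trans (map_one θ))
  refine ⟨μ, fun ⟨y, hy⟩ g k => ?_⟩
  obtain ⟨a, rfl⟩ := mem_Yt'.1 hy
  rw [show g = φ.rangeRestrict (dU a) from Subtype.ext k, hμ]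
  exact l a

theorem exists_i : ∃ i : Kˣ, i * i = -1 := by
  have := h.fq.finite
  have := Fintype.ofFinite K
  obtain ⟨i, hi⟩ : IsSquare (-1 : K) := FiniteField.isSquare_neg_one_iff.2 (by
    obtain ⟨k, hk⟩ := h.odd
    rw [← Nat.card_eq_fintype_card, h.fq.card, hk, show (2 * k + 1) ^ 2 = 1 + 4 * (k * k + k) by ring]
    omega)
  exact ⟨Units.mk0 i (by rintro rfl; simp at hi), Units.ext hi.symm⟩

theorem odd_or {i : Kˣ} (hi : i * i = -1) (hs : star i = i) :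
    ∃ k, Odd k ∧ ∀ a : Kˣ, (a : K) * star (a : K) = 1 → a ^ k = 1 ∨ (-1 * a) ^ k = 1 := by
  have e := (h.fq.star_eq_iff i).1 (congrArg Units.val hs)
  obtain ⟨j, hj⟩ := h.odd
  have o : Odd (j + 1) := by
    rcases Nat.even_or_odd j with k | k
    · exact k.add_one
    rw [hj, Nat.add_sub_cancel, pow_mul, sq, hi, k.neg_one_pow] at e
    exact (h.neg_ne e).elim
  refine ⟨j + 1, o, fun a n => (unit_sq ?_).imp_right fun k => by rw [mul_pow, k, o.neg_one_pow]; simp⟩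
  rw [h.fq.mul_star] at n
  rw [← pow_add, show j + 1 + (j + 1) = q + 1 by omega]
  exact Units.ext (by simpa using n)

end UK

namespace BU

variable [Fintype G] (h : BU φ q)
include h

theorem rr_aux {x i : G} (hx : tt φ ∈ zpowers x) (x2 : x * x ≠ 1) (hi : i ∈ invs G) (hi' : i * x ∈ invs G) :
    ∃ m m' : U2 K, φ m = i ∧ φ m' = i * x ∧ m.1 0 0 + m.1 1 1 = 0 ∧ dt m.1 = -1 ∧ m'.1 0 0 + m'.1 1 1 = 0 ∧
      dt m'.1 = -1 := by
  obtain ⟨i2, i1⟩ := mem_invs.1 hi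
  obtain ⟨j2, j1⟩ := mem_invs.1 hi'
  have xC : x ∈ φ.range := h.mem_C.2 (by obtain ⟨k, hk⟩ := hx; rw [← hk]; exact (Commute.self_zpow x k).eq)
  have iC : i ∈ φ.range := h.mem_C.2 (mul_inv_eq_iff_eq_mul.1 ((CA.GW.inv_of_mem_zpowers (by
    rw [inv_eq_of_mul_eq_one_right i2, eq_inv_iff_mul_eq_one, mul_assoc, j2]) hx).trans
      (inv_eq_of_mul_eq_one_right tt_mul)))
  obtain ⟨m, k1, k2, k3⟩ := h.toUK.J_of iC i2 i1 fun k => x2 (by
    rw [k, mul_assoc, ← mul_assoc x, ← tt_comm xC, ← mul_assoc, ← mul_assoc, tt_mul, one_mul] at j2; exact j2)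
  obtain ⟨m', l1, l2, l3⟩ := h.toUK.J_of (mul_mem iC xC) j2 j1 fun k => x2 (by
    rw [eq_inv_mul_of_mul_eq k, inv_eq_of_mul_eq_one_right i2, mul_assoc, ← mul_assoc (tt φ), tt_comm iC,
      mul_assoc, tt_mul, mul_one, i2])
  exact ⟨m, m', k1, l1, k2, k3, l2, l3⟩

theorem rr_zero {x : G} (hx : tt φ ∈ zpowers x) (x2 : x * x ≠ 1) (k : ∀ g : U2 K, dt g.1 = 1 → φ g ≠ x) :
    rr x = 0 := by
  classical
  rw [rr, Finset.card_eq_zero, Finset.filter_eq_empty_iff]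
  intro i hi hi'
  obtain ⟨m, m', k1, l1, -, k3, -, l3⟩ := h.rr_aux hx x2 hi hi'
  exact k (m⁻¹ * m') (by rw [Subgroup.coe_mul, Subgroup.coe_inv, map_mul, map_inv, k3, l3, inv_mul_cancel])
    (by rw [map_mul, map_inv, k1, l1]; group)

theorem rr_eq (hx : tt φ ∈ zpowers (φ g)) (x2 : φ g * φ g ≠ 1) (d : dt g.1 = 1) {A : Type*} (f : A → K × K × K)
    (hf : Function.Injective f) (hA : ∀ a b c : K, (a, b, c) ∈ Set.range f ↔
      (star a = -a ∧ star b = b ∧ star c = c) ∧ a * a + b * c = 1 ∧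
        a * (g.1 0 0 - g.1 1 1) + b * g.1 1 0 + c * g.1 0 1 = 0) : rr (φ g) = Nat.card A := by
  classical
  have p : ∀ x, (star (f x).1 = -(f x).1 ∧ star (f x).2.1 = (f x).2.1 ∧ star (f x).2.2 = (f x).2.2) ∧
    (f x).1 * (f x).1 + (f x).2.1 * (f x).2.2 = 1 ∧ _ := fun x => (hA _ _ _).1 ⟨x, rfl⟩
  let M0 : A → GL (Fin 2) K := fun x => mk2 (f x).1 (f x).2.1 (f x).2.2 (-(f x).1) fun k =>
    one_ne_zero (by linear_combination -k - (p x).2.1)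
  have dM : ∀ x, dt (M0 x) = -1 := fun x => Units.ext (by simp [det_ent, M0]; linear_combination -(p x).2.1)
  let M : A → U2 K := fun x => ⟨M0 x, mem_U2'.2 (by rw [dM]; simp [M0, (p x).1])⟩
  have tM : ∀ x, (M x * g).1 0 0 + (M x * g).1 1 1 = 0 := fun x => by
    simp [mul_ent, M, M0]; linear_combination (p x).2.2
  rw [rr, ← Nat.card_eq_finsetCard]
  refine (Nat.card_congr (Equiv.ofBijective (fun x => ⟨φ (M x), Finset.mem_filter.2
    ⟨h.toUK.J_inv (by simp [M, M0]) (dM x),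
    map_mul φ _ _ ▸ h.toUK.J_inv (tM x) (by rw [Subgroup.coe_mul, map_mul, dM, d, mul_one])⟩⟩)
      ⟨fun x y k => hf ?_, fun ⟨i, hi⟩ => ?_⟩)).symm
  · have k := congrArg Subtype.val (h.toUK.eq_of_det (congrArg Subtype.val k) ((dM x).trans (dM y).symm))
    exact Prod.ext (congrArg (fun g : GL (Fin 2) K => g 0 0) k) (Prod.ext (congrArg (fun g : GL (Fin 2) K => g 0 1) k)
      (congrArg (fun g : GL (Fin 2) K => g 1 0) k))
  · obtain ⟨m, m', rfl, l1, k2, k3, l2, l3⟩ := h.rr_aux hx x2 (Finset.mem_filter.1 hi).1 (Finset.mem_filter.1 hi).2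
    obtain rfl := h.toUK.eq_of_det (l1.trans (map_mul φ _ _).symm) (by
      rw [Subgroup.coe_mul, map_mul, k3, l3, d, mul_one])
    have k4 : m.1 1 1 = - m.1 0 0 := by linear_combination k2
    have k5 : m.1 0 0 * m.1 1 1 - m.1 0 1 * m.1 1 0 = -1 := by rw [← det_ent, k3]; rfl
    rw [Subgroup.coe_mul, mul_ent, mul_ent, k4] at l2
    obtain ⟨n1, n2, n3, -⟩ := neg_ent m.2 k3
    obtain ⟨x, hx⟩ := (hA (m.1 0 0) (m.1 0 1) (m.1 1 0)).2 ⟨⟨n1, n2, n3⟩, by rw [k4] at k5; linear_combination -k5,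
      by linear_combination l2⟩
    exact ⟨x, Subtype.ext (congrArg φ (Subtype.ext (gl_ext (by simp [M, M0, hx]) (by simp [M, M0, hx])
      (by simp [M, M0, hx]) (by simp [M, M0, hx, k4]))))⟩

theorem rrt : rr (tt φ) = q * (q - 1) := by
  rw [← h.toUK.relT, ← h.toUK.cent_u, inf_relIndex_left, ← CA.GW.ncard_conj, rr, ← Set.ncard_coe_finset]
  congr 1
  ext i
  simp only [Finset.coe_filter, mem_invs, Set.mem_setOf_eq]
  refine ⟨fun ⟨⟨i2, i1⟩, j2, j1⟩ => h.toUK.inv_cj (h.mem_C.2 ?_) i2 i1 fun k => j1 (by rw [k, tt_mul]), ?_⟩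
  · rw [eq_inv_of_mul_eq_one_left j2, mul_inv_rev, inv_eq_of_mul_eq_one_right i2, inv_eq_of_mul_eq_one_right tt_mul]
  · rintro ⟨c, hc, rfl⟩
    have u1 : uu φ ≠ 1 := fun k => h.toUK.uZ (k ▸ one_mem _)
    rw [← tt_conj hc, ← conj_mul', ← conj_mul', ← conj_mul', uu_mul, mul_assoc (uu φ), ← mul_assoc (tt φ),
      tt_comm (c := uu φ) ⟨_, rfl⟩, mul_assoc (uu φ), tt_mul, mul_one, mul_one, uu_mul]
    simp only [mul_one, mul_inv_cancel, ne_eq, conj_eq_one_iff, u1, not_false_eq_true, true_and]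
    exact fun k => h.toUK.uZ (by rw [eq_inv_of_mul_eq_one_left k]; exact inv_mem tt_Zt)

theorem zx {s : K} (hs : star s = -s) (s0 : s ≠ 0) {z : G} (hz : z ∈ Zt φ) (ht : tt φ ∈ zpowers z) :
    tt φ ∈ zpowers (z * φ (xU s hs)) ∧ z * φ (xU s hs) * (z * φ (xU s hs)) ≠ 1 := by
  have c : Commute z (φ (xU s hs)) := cen hz ⟨_, rfl⟩
  refine ⟨?_, fun k => ?_⟩
  · obtain ⟨j, hj⟩ := h.odd
    have : (z * φ (xU s hs)) ^ q = z ^ q := by
      rw [c.mul_pow, ← map_pow, h.toUK.xU_pow, map_one, mul_one]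
    obtain ⟨k, hk⟩ := ht
    have e : (z ^ q) ^ k = tt φ := by
      rw [← zpow_natCast, zpow_comm, show z ^ k = tt φ from hk, zpow_natCast, hj, pow_succ, pow_mul, sq, tt_mul,
        one_pow, one_mul]
    exact e ▸ this ▸ zpow_mem (pow_mem (mem_zpowers _) _) _
  · rw [c.symm.mul_mul_mul_comm, ← map_mul, xU_add] at k
    have : φ (xU (s + s) _) ∈ Zt φ ⊓ Xp φ := ⟨by
      rw [eq_inv_of_mul_eq_one_right k]; exact (Zt φ).inv_mem (mul_mem hz hz), mem_Xp.2 ⟨_, _, rfl⟩⟩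
    rw [h.toUK.ZX] at this
    exact h.toUK.xU_ne (by rw [← two_mul]; exact mul_ne_zero h.toUK.two s0) this

theorem rrtx {s : K} (hs : star s = -s) (s0 : s ≠ 0) : rr (tt φ * φ (xU s hs)) = 0 := by
  obtain ⟨k1, k2⟩ := h.zx hs s0 tt_Zt (mem_zpowers _)
  rw [show tt φ * φ (xU s hs) = φ (tU K * xU s hs) from (map_mul φ _ _).symm] at k1 k2 ⊢
  rw [h.rr_eq k1 k2 (by simp [det_dg, det_xp]) (fun x : Empty => x.elim) (fun x => x.elim) ?_]
  · simp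
  · intro a b c
    simp only [Subgroup.coe_mul, mul_ent]
    simp [s0]
    rintro e - - k rfl
    rcases mul_self_eq_one_iff.1 (show a * a = 1 by linear_combination k) with rfl | rfl <;> simp at e
    exacts [h.toUK.two (by linear_combination e), h.toUK.two (by linear_combination -e)]

theorem sq_ne {x : G} (hx : tt φ ∈ zpowers x) (k : x ≠ tt φ) : x * x ≠ 1 := fun e =>
  ((CA.GW.BA.mem_zpowers_inv e).1 hx).elim h.toUK.t1 k.symm

theorem rrZ {s : K} (hs : star s = -s) (s0 : s ≠ 0) {z : G} (hz : z ∈ Zt φ) (ht : tt φ ∈ zpowers z) (k : z ≠ tt φ) :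
    rr z = 0 ∧ rr (z * φ (xU s hs)) = 0 := by
  have a : ∀ g : U2 K, dt g.1 = 1 → φ g ≠ z := fun g d e => (h.toUK.SL_Z d (e ▸ hz)).elim
    (fun l => h.sq_ne ht k (by rw [← e, l, one_mul])) fun l => k (e ▸ l)
  exact ⟨h.rr_zero ht (h.sq_ne ht k) a, h.rr_zero (h.zx hs s0 hz ht).1 (h.zx hs s0 hz ht).2 fun g d e =>
    a (g * (xU s hs)⁻¹) (by simp [d, det_xp]) (by rw [map_mul, map_inv, e]; group)⟩

open Classical in
theorem rrY {x : G} (hx : x ∈ Yt φ) (ht : tt φ ∈ zpowers x) (k : x ∉ Zt φ) :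
    rr x = if x ∈ Y1t φ then q - 1 else 0 := by
  have x2 := h.sq_ne ht fun e => k (e ▸ tt_Zt)
  split_ifs with l
  · obtain ⟨s, hs, rfl⟩ := mem_Y1t'.1 l
    have hs' : star (s : K) = s := congrArg Units.val hs
    have ne : (s : K) - (s : K)⁻¹ ≠ 0 := fun e => k (h.toUK.mem_Zt.2 (mem_cen.2 ⟨rfl, rfl, by
      simpa [hs'] using sub_eq_zero.1 e⟩))
    rw [h.rr_eq ht x2 (by rw [det_dU, hs, mul_inv_cancel]) (fun x : {a : Kˣ // star a = a} => (0, x.1, (x.1 : K)⁻¹))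
      (fun a b e => Subtype.ext (Units.ext (congrArg (·.2.1) e))) fun a b c => ?_, card_real h.fq]
    simp only [dU_val, dg_val, Set.mem_range, Prod.mk.injEq]
    simp [ne, hs']
    refine ⟨?_, ?_⟩
    · rintro ⟨rfl, x, rfl, hx, rfl⟩
      have : star (x : K) = x := congrArg Units.val hx
      simp [this]
    rintro ⟨⟨-, n, -⟩, e, rfl⟩
    rw [mul_zero, zero_add] at e
    exact ⟨rfl, Units.mk0 b (left_ne_zero_of_mul_eq_one e), rfl, Units.ext n, (eq_inv_of_mul_eq_one_right e).symm⟩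
  · exact h.rr_zero ht x2 fun g d e => l ⟨g, ⟨h.toUK.mem_Yt.1 (e ▸ hx), d⟩, e⟩

open Classical in
theorem rrT {x : G} (hx : x ∈ Tt φ) (ht : tt φ ∈ zpowers x) (k : x ∉ Zt φ) :
    rr x = if x ∈ Ht φ then q + 1 else 0 := by
  have x2 := h.sq_ne ht fun e => k (e ▸ tt_Zt)
  have h2 := h.toUK.two
  split_ifs with l
  · obtain ⟨y, ⟨y1, y2⟩, rfl⟩ := l
    have y1 : y.1 ∈ nsT 1 := y1
    have ne := nsT_ne y1 (h.toUK.mem_Zt.not.1 k)
    rw [h.rr_eq ht x2 y2 (fun x : {x : K // x * star x = -1} =>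
        ((x.1 - star x.1) / 2, (x.1 + star x.1) / 2, -((x.1 + star x.1) / 2)))
      (fun a b e => ?_) fun a b c => ⟨?_, fun ⟨⟨n1, n2, _⟩, e1, e2⟩ => ?_⟩, h.fq.card_norm_eq (by simp) (by simp)]
    · obtain ⟨e1, e2⟩ : _ ∧ _ := by simpa [h2] using e
      exact Subtype.ext (mul_left_cancel₀ h2 (by linear_combination e1 + e2))
    · rintro ⟨x, e⟩
      obtain ⟨rfl, rfl, rfl⟩ : _ ∧ _ ∧ _ := by simpa only [Prod.mk.injEq] using e
      refine ⟨⟨by simp; ring, by simp; ring, by simp; ring⟩, ?_, by rw [y1.1, y1.2]; ring⟩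
      field_simp; linear_combination -4 * x.2
    · rw [y1.1, y1.2] at e2
      obtain rfl : c = -b := mul_left_cancel₀ ne (by linear_combination e2)
      refine ⟨⟨a + b, by simp [n1, n2]; linear_combination -e1⟩, ?_⟩
      simp [n1, n2]
      constructor <;> field_simp <;> ring
  · exact h.rr_zero ht x2 fun g d e => l ⟨g, ⟨h.toUK.mem_Tt.1 (e ▸ hx), d⟩, e⟩

end BU

theorem Rho.rT (hr : Rho φ r) (h : BU φ q) {g : G} (hg : g ∈ Tt φ) : r * g * r⁻¹ ∈ Tt φ := by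
  obtain ⟨a, b⟩ := h.mem_T.1 hg
  have k : ∀ x, r * g * r⁻¹ * (r * x * r⁻¹) * (r * g * r⁻¹)⁻¹ = r * (g * x * g⁻¹) * r⁻¹ := fun x => by group
  exact h.mem_T.2 ⟨by rw [← hr.rtu, k, conj_mul' g, a, b], by rw [← hr.rt, k, a]⟩

theorem Rho.r3 (hr : Rho φ r) (h : BU φ q) : r * r * r ∈ Tt φ := by
  have k : ∀ x, r * r * r * x * (r * r * r)⁻¹ = r * (r * (r * x * r⁻¹) * r⁻¹) * r⁻¹ := fun x => by group
  exact h.mem_T.2 ⟨by rw [k, hr.rt, hr.ru, hr.rtu], by rw [k, hr.ru, hr.rtu, hr.rt]⟩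

theorem Rho.wr (hr : Rho φ r) (h : BU φ q) {w : U2 K} (hw : IsW w) : φ w * r * (φ w)⁻¹ * r ∈ Tt φ := by
  have wi : (φ w)⁻¹ = φ w := inv_eq_of_mul_eq_one_right (by rw [← map_mul, hw.sq, map_one])
  have k : ∀ x, φ w * r * (φ w)⁻¹ * r * x * (φ w * r * (φ w)⁻¹ * r)⁻¹ =
      φ w * (r * ((φ w)⁻¹ * (r * x * r⁻¹) * (φ w)⁻¹⁻¹) * r⁻¹) * (φ w)⁻¹ := fun x => by group
  have k' : ∀ x, (φ w)⁻¹ * x * (φ w)⁻¹⁻¹ = φ w * x * (φ w)⁻¹ := fun x => by rw [wi, wi]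
  exact h.mem_T.2 ⟨by rw [k, k', hr.rt, h.toUK.w_u hw, hr.rtu, tt_conj (c := φ w) ⟨_, rfl⟩],
    by rw [k, k', hr.ru, h.toUK.w_tu hw, hr.ru, h.toUK.w_tu hw]⟩

theorem BU.cu' [Fintype G] (h : BU φ q) (hr : Rho φ r) {w : U2 K} (hw : IsW w) {s : K} (hs : star s = -s)
    (s0 : s ≠ 0) : ∃ lam θ1 θ2, CU q φ.range (Zt φ) (Tt φ) (Yt φ) (Ut φ) (Xp φ) (Ht φ) (Y1t φ) (tt φ) (φ w)
      (uu φ) (φ (xU s hs)) r lam θ1 θ2 := by
  have k := h.toUK
  have c := k.cs hw hs s0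
  have h2 := k.two
  have := h.fq.finite
  obtain ⟨l, hl⟩ := exists_theta Kˣ
  have := k.cycY
  obtain ⟨θ, hθ⟩ := exists_theta (Yt φ)
  have l1 : l (-1) = -1 := neg_of_sq (by rw [← map_mul]; simp) fun a => k.neg_ne (by
    have := odd_of_pow (a := (-1 : Kˣ)) odd_one (by simpa using (hl _).1 a)
    simpa using (this.neg_one_pow (α := Kˣ)).symm.trans (pow_orderOf_eq_one _))
  let D : U2 K →* Kˣ := (dt).comp (U2 K).subtype
  have ko : ∀ g, φ g = 1 → Odd (orderOf (D g)) := fun g a => (k.ker_odd a).of_dvd_nat (orderOf_map_dvd _ _)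
  obtain ⟨lam, hlam⟩ := exists_lin (φ := φ) (l.comp D) fun g a => (hl _).2 (ko g a)
  replace hlam : ∀ g, lam (φ.rangeRestrict g) = l (dt g.1) := hlam
  let tY : Yt φ := ⟨tt φ, c.ZT tt_Zt⟩
  have θt : θ tY = -1 := neg_of_sq (by rw [← map_mul, ← map_one θ]; exact congrArg θ (Subtype.ext tt_mul)) fun a => by
    have := (hθ _).1 a
    rw [← orderOf_coe, orderOf_eq_prime (show tt φ ^ 2 = 1 by rw [sq, tt_mul]) k.t1] at this
    exact absurd this (by decide)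
  have ne : (-1 : ℂˣ) ≠ 1 := by simp
  let Y : Kˣ →* Yt φ := (φ.comp dUH).codRestrict _ fun a => mem_Yt'.2 ⟨a, rfl⟩
  have YU : ∀ y, (Y (star y)⁻¹ : G) = uu φ * Y y * (uu φ)⁻¹ := fun y =>
    show φ (dU _) = uu φ * φ (dU y) * (uu φ)⁻¹ by rw [uu, cj, u_dU]
  have Yt : Y (-1) = tY := Subtype.ext (congrArg φ dU_neg)
  obtain ⟨x1, h1⟩ := exists_N h.fq (star_neg_one (K := K))
  have h1 : θ (Y (star x1)⁻¹) = -1 * θ (Y x1) := by
    rw [← θt, ← Yt, ← map_mul, ← map_mul, ← inv_neg_one, ← h1]; congr 2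
    rw [mul_inv, mul_comm x1⁻¹, inv_mul_cancel_right]
  obtain ⟨y, hy⟩ := hilb90 h.fq (d := -1) (by simp)
  obtain ⟨i, hi⟩ := k.exists_i
  have P : Pr θ := fun g a => (hθ g).2 a
  have dT : ∀ g : U2 K, tg h2 (dt g.1) 1 ∈ U2 K := fun g => tg_U2.2 ⟨det_norm g.2, by simp⟩
  refine ⟨lam, θ, θ⁻¹, c, k.odd, h.rng, tt_mul, k.t1, tt_Zt, uu_Tt, k.w_u hw, k.cycY, k.cycH, fun _ => k.invY,
    fun _ => k.invT, fun _ => h.cjt, h.oddC, hr.rt, hr.ru, fun _ => hr.rT h, hr.r3 h, hr.wr h hw, fun μ a => ?_,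
    fun μ a => ?_, ?_, ?_, k.extY, im_mono inf_le_left, k.kH,
    mk_im (tU K) ⟨cen_le_nsT (dg_cen (-1)), show dt (dg (-1) (-1)) = 1 by simp [det_dg]⟩, ?_, ?_, ?_, ?_,
    im_mono inf_le_left, k.kY1, mem_Y1t'.2 ⟨-1, star_neg_one, congrArg φ dU_neg⟩, ?_, ?_, ?_, ⟨_, k.kero, k.kZ⟩,
    h.rrt, h.rrtx hs s0, fun _ => h.rrZ hs s0, fun _ a b => h.rrT a b, fun _ a b => h.rrY a b, ?_, ?_, P,
    fun g a => by simp [P g a], ⟨_, _, YU x1, by rw [h1]; simp⟩, ⟨_, _, YU x1, by rw [MonoidHom.inv_apply, MonoidHom.inv_apply, h1]; simp⟩, fun a => ne ?_,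
    ⟨_, _, YU y, fun a => ?_⟩, fun y a => by rw [show y = tY from Subtype.ext a, θt], ?_⟩
  · ext g
    obtain ⟨g, rfl⟩ := φ.rangeRestrict_surjective g
    rw [k.lin_eq (g' := ⟨_, dT g⟩) (by rw [det_tg, mul_one]), a _ (mk_im ⟨_, dT g⟩ (tg_nsT _ _))]; rfl
  · ext g
    obtain ⟨g, rfl⟩ := φ.rangeRestrict_surjective g
    obtain ⟨y, hy⟩ := hilb90 h.fq (det_norm g.2)
    rw [k.lin_eq (g' := dU y) (by rw [det_dU, hy]), a _ (mem_Yt'.2 ⟨y, rfl⟩)]; rfl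
  · rintro μ ⟨_, hg⟩ ⟨a, ⟨-, b⟩, rfl⟩
    exact k.lin b
  · rintro μ ⟨_, hg⟩ ⟨a, ⟨-, b⟩, rfl⟩
    exact k.lin b
  · rintro _ ⟨a, ⟨-, b⟩, rfl⟩
    exact k.SL_Z b
  · intro g hg b
    obtain ⟨a, ha, rfl⟩ := (mem_Ht' h2).1 hg
    have d : dt (tg h2 a a⁻¹) = 1 := by rw [det_tg, mul_inv_cancel]
    have b := congrArg Subtype.val (k.eq_of_det (g := ⟨_, ha⟩ * ⟨_, ha⟩) (g' := 1) (by rw [map_mul, map_one]; exact b)
      (by simp [d]))
    rw [Subgroup.coe_mul, tg_mul, OneMemClass.coe_one, ← tg_one (h2 := h2)] at b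
    refine k.SL_Z d (k.mem_Zt.2 (tg_cen.2 (eq_inv_of_mul_eq_one_left (tg_inj b).1)))
  · rintro _ ⟨a, b, rfl⟩
    have b : a.1 ∈ nsT 1 := b
    refine ⟨a⁻¹ * (w * a * w⁻¹), ⟨(nsT 1).mul_mem ((nsT 1).inv_mem b) ?_, show dt (a.1⁻¹ * (w.1 * a.1 * w.1⁻¹)) = 1 by
      simp [det_cj]⟩, by rw [map_mul, map_inv, cj]⟩
    exact show w.1 * a.1 * w.1⁻¹ ∈ _ from hw.conj b ▸ u_nsT b
  · intro g hg
    obtain ⟨a, ha, rfl⟩ := (mem_Ht' h2).1 hg
    rw [cj, ← map_inv]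
    exact congrArg φ (Subtype.ext ((hw.tg a a⁻¹).trans (by simp [tg_inv])))
  · rintro _ ⟨a, ⟨-, b⟩, rfl⟩
    exact k.SL_Z b
  · intro g hg
    obtain ⟨a, rfl⟩ := mem_Yt'.1 hg
    rw [uu, cj, u_dU, ← map_inv, dU_inv, ← map_mul, dU_mul]
    exact mem_Y1t'.2 ⟨_, by simp [mul_comm], rfl⟩
  · intro g hg
    obtain ⟨a, ha, rfl⟩ := mem_Y1t'.1 hg
    rw [uu, cj, u_dU, ha, ← map_inv, dU_inv]
  · intro g a
    obtain ⟨g, rfl⟩ := φ.rangeRestrict_surjective g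
    rw [hlam, hl]
    refine odd_of_pow a ?_
    have := ko (g ^ orderOf (φ.rangeRestrict g)) (by
        rw [map_pow]; exact congrArg Subtype.val (pow_orderOf_eq_one (φ.rangeRestrict g)))
    rwa [map_pow] at this
  · intro g a
    rw [show g = φ.rangeRestrict (uU K) from Subtype.ext a, hlam, uU_val, det_ww, l1]
  · rw [← θt, ← Yt, ← hi, map_mul, map_mul]; nth_rewrite 1 [a]; simp
  · exact ne (by rw [← θt, ← Yt, ← hy, map_mul, map_mul, a]; simp)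
  · rcases mul_self_eq_mul_self_iff.1 (show star (i : K) * star (i : K) = i * i by
      rw [← star_mul, ← Units.val_mul, hi]; simp) with e | e
    · refine .inr fun g hg => ?_
      obtain ⟨a, d, ha, rfl⟩ := (mem_Tt' h2).1 hg
      obtain ⟨na, nd⟩ := tg_U2.1 ha
      obtain ⟨n, o, hn⟩ := k.odd_or hi (Units.ext e)
      have : ∀ (g : U2 K) (a d : Kˣ), g.1 = tg h2 a d → a ^ n = 1 → d ^ n = 1 → Odd (orderOf (φ g)) :=
        fun g a d e p q => o.of_dvd_nat (orderOf_dvd_of_pow_eq_one (by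
          rw [← map_pow, show g ^ n = 1 from Subtype.ext (by rw [Subgroup.coe_pow, e, tg_pow, p, q, tg_one]; rfl),
            map_one]))
      rw [k.tu_eq, tt, uu, ← map_mul, ← map_mul, ← map_mul]
      rcases hn a na with p | p <;> rcases hn d nd with q | q
      exacts [.inl (this _ _ _ rfl p q),
        .inr (.inr (.inl (this _ _ _ (by rw [Subgroup.coe_mul, uU_val, ← tg_ww (h2 := h2), tg_mul, one_mul]) p q))),
        .inr (.inr (.inr (this _ _ _ (by rw [Subgroup.coe_mul, tg_mul, one_mul]) p q))),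
        .inr (.inl (this _ _ _ (by rw [Subgroup.coe_mul, tU_val, ← tg_self (h2 := h2), tg_mul]) p q))]
    · refine .inl fun a => ne ?_
      have n : tg h2 i 1 ∈ U2 K := tg_U2.2 ⟨by rw [e, mul_neg, ← Units.val_mul, hi]; simp, by simp⟩
      have := DFunLike.congr_fun a (φ.rangeRestrict ⟨_, n⟩)
      rwa [MonoidHom.mul_apply, hlam, det_tg, mul_one, ← map_mul, hi, l1] at this

theorem BU.cu [Fintype G] (h : BU φ q) (hr : Rho φ r) : ∃ w s hs lam θ1 θ2,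
    CU q φ.range (Zt φ) (Tt φ) (Yt φ) (Ut φ) (Xp φ) (Ht φ) (Y1t φ) (tt φ) w (uu φ) (φ (xU s hs)) r lam θ1 θ2 := by
  obtain ⟨w, hw⟩ := exists_W h.fq h.toUK.two
  obtain ⟨s, s0, hs⟩ := h.toUK.exists_im
  exact ⟨_, s, hs, h.cu' hr hw hs s0⟩

end CA.Bu
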