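import Cfsg.Agent.Bu.CU
import Cfsg.Agent.Br.Ch9

/-!
# The action of `S₃` on the torus `T` (unitary case)
-/

set_option autoImplicit false
set_option linter.unusedSectionVars false
set_option linter.unusedVariables false

open Cfsg Subgroup CA.Chr CA.Dih CA.Blk CA.Br Finset
open scoped ComplexConjugate Classical

namespace CA.Bu

universe u

variable {G : Type u} [Group G] [Fintype G]

/-- the symmetrised `T`-part -/
noncomputable def Fu (q : ℕ) (Z : Subgroup G) (x r : G) (χ : G → ℂ) (g : G) : ℂ :=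
  χ g - (q + 1) * Sy r (mm q Z x χ) g

namespace CU

variable {q : ℕ} {C Z T Y U X H Y1 : Subgroup G} {t w u x r : G} {lam : C →* ℂˣ} {θ1 θ2 : Y →* ℂˣ}
  (h : CU q C Z T Y U X H Y1 t w u x r lam θ1 θ2)
include h

theorem memC {c : G} : c ∈ C ↔ c * t * c⁻¹ = t := by
  rw [h.hC, mem_centralizer_singleton_iff, mul_inv_eq_iff_eq_mul]

theorem td : TD C Z x (DD t) where
  ti := fun g hg n e => h.memC.2 (inv_unique (mem_zpowers_conj' hg) e
    (by rw [show n * t * n⁻¹ * (n * t * n⁻¹) = n * (t * t) * n⁻¹ by group, h.t2]; group)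
    (by simpa using h.t1) h.t2 h.t1)
  cj := fun g hg c hc => by
    have := mem_zpowers_conj' (c := c) hg
    rwa [h.memC.1 hc] at this
  dx := fun z hz => DD_mul h.t2 (h.cen z hz x h.cs.xC) h.xo

theorem tD : t ∈ DD t := mem_zpowers t
theorem oneD : (1 : G) ∉ DD t := not_DD_of_odd h.t2 h.t1 (by simp)

theorem Y_even {y : G} (hy : y ∈ Y) : y ∈ DD t ↔ ¬ Odd (orderOf y) := by
  refine ⟨fun e o => not_DD_of_odd h.t2 h.t1 o e, fun e => ?_⟩
  obtain ⟨i, hi, i2, i1⟩ := exists_inv_of_even e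
  rcases h.invY i (zpowers_le.2 hy hi) i2 with e | e
  · exact absurd e i1
  · exact e ▸ hi

theorem prA {A : Subgroup G} (hA : A ≤ C) {s : C} {k : ℂ} {P : (C → ℂ) → C → ℂ}
    (τ : Tor q ⊤ (Z.subgroupOf C) (A.subgroupOf C) s ⟨x, h.cs.xC⟩ k Set.univ P) {χ : G → ℂ} (cf : χ ∈ CF G)
    (hχ : proj (B0 2 G) χ = χ) {ν : A →* ℂˣ} (hν : ¬ Pr ν) : Br.SD A (DD t) (Fk k q Z x χ) (ex ν) = 0 := by
  let f : C → ℂ := χ ∘ C.subtype
  let f1 : C → ℂ := fun g => if (g : G) ∈ DD t then f g else 0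
  let f2 : C → ℂ := fun g => if (g : G) ∈ DD t then 0 else f g
  have cD : ∀ c g : C, ((c * g * c⁻¹ : C) : G) ∈ DD t ↔ (g : G) ∈ DD t := fun c g =>
    ⟨fun e => by
      have := h.td.cj _ e c⁻¹ (C.inv_mem c.2)
      simpa [mul_assoc] using this, fun e => h.td.cj _ e c c.2⟩
  have sep : ∀ a b : C, (a : G) ∈ DD t → (b : G) ∉ DD t → Sep 2 a b := fun a b ha hb i hi e => by
    obtain ⟨c, hc⟩ := isConj_iff.1 e
    have io : Odd i := Nat.odd_iff.2 (Nat.two_dvd_ne_zero.1 hi)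
    apply hb
    have : ((a ^ i : C) : G) ∈ DD t := (mem_zpowers_odd h.t2 io).2 ha
    rw [← cD c, hc] at this
    exact (mem_zpowers_odd h.t2 io).1 this
  have cf1 : f1 ∈ CF C := mem_CF.mpr fun g c => by
    simp only [f1, cD, CF_conj (CF_comp cf C.subtype) g c, f]
  have p1 : proj (B0 2 C) f1 = f1 := by
    funext g
    by_cases hg : (g : G) ∈ DD t
    · have e : f1 = f - f2 := funext fun g => by simp only [f1, f2, Pi.sub_apply]; split_ifs <;> simp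
      have e2 : proj (B0 2 C) f2 g = 0 := proj0_zero Nat.prime_two fun b hb => sep g b hg fun e => hb (by
        simp [f2, e])
      have e3 := second_main Nat.prime_two (x := t) (k := 1) (by rw [pow_one, sq, h.t2]) h.hC cf g hg
      rw [hχ] at e3
      conv_lhs => rw [e, map_sub, Pi.sub_apply, e2, sub_zero, ← e3]
      simp [f1, hg, f]
    · rw [proj0_zero Nat.prime_two fun b hb => (sep b g (by_contra fun e => hb (by simp [f1, e])) hg).symm]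
      simp [f1, hg]
  have hν' : ¬ Pr (ν.comp (subgroupOfEquivOfLe hA).toMonoidHom) := fun e => hν fun g hg => by
    have := e ((subgroupOfEquivOfLe hA).symm g) (by rwa [MulEquiv.orderOf_eq])
    simpa using this
  have := Tor.pr h.cs.sub τ cf1 p1 hν'
  rw [← this, Br.SD]
  refine Fintype.sum_equiv (subgroupOfEquivOfLe hA).symm.toEquiv _ _ fun g => ?_
  have e : ∀ g : C, Fk k q (Z.subgroupOf C) ⟨x, h.cs.xC⟩ f1 g =
      if (g : G) ∈ DD t then Fk k q Z x χ g else 0 := fun g => by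
    by_cases hz : (g : G) ∈ Z
    · have := h.td.dx g hz
      by_cases hD : (g : G) ∈ DD t <;> simp [Fk, mm, mem_subgroupOf, hz, f1, f, this, hD]
    · by_cases hD : (g : G) ∈ DD t <;> simp [Fk, mm, mem_subgroupOf, hz, f1, f, hD]
  rw [e, ex_coe]
  show _ = (if (g : G) ∈ DD t then Fk k q Z x χ g else 0) * conj (ν _ : ℂ)
  split_ifs <;> simp

theorem prT {χ : G → ℂ} (cf : χ ∈ CF G) (hχ : proj (B0 2 G) χ = χ) {ν : T →* ℂˣ} (hν : ¬ Pr ν) :
    Br.SD T (DD t) (Fb q Z x χ) (ex ν) = 0 :=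
  h.prA h.TC (h.cs.sub.torY td_univ) cf hχ hν

theorem prY {χ : G → ℂ} (cf : χ ∈ CF G) (hχ : proj (B0 2 G) χ = χ) {ν : Y →* ℂˣ} (hν : ¬ Pr ν) :
    Br.SD Y (DD t) (Fa q Z x χ) (ex ν) = 0 :=
  h.prA h.YC (h.cs.sub.torT td_univ) cf hχ hν

theorem tT : t ∈ T := h.ZT h.tZ
theorem tu : t * u = u * t := h.cen t h.tZ u h.uC
theorem rv : r * (t * u) * r⁻¹ = t := by
  rw [show r * (t * u) * r⁻¹ = (r * t * r⁻¹) * (r * u * r⁻¹) by group, h.rt, h.ru, h.tu, ← mul_assoc, h.u2,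
    one_mul]
theorem u1 : u ≠ 1 := fun e => h.un (e ▸ Y.one_mem)
theorem ut : u ≠ t := fun e => h.un (e ▸ h.ZY h.tZ)
theorem vt : t * u ≠ t := by simpa using h.u1
theorem vu : t * u ≠ u := by simpa using h.t1
theorem v2 : t * u * (t * u) = 1 := by
  rw [mul_assoc, ← mul_assoc u, ← h.tu, mul_assoc, h.u2, mul_one, h.t2]
theorem v1 : t * u ≠ 1 := fun e => h.ut (by
  rw [eq_inv_of_mul_eq_one_right e, inv_eq_of_mul_eq_one_right h.t2])

theorem rT' : ∀ g ∈ T, r⁻¹ * g * r⁻¹⁻¹ ∈ T := fun g hg => by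
  obtain ⟨a, ha⟩ := (cjH_bij h.rT).2 ⟨g, hg⟩
  have : r * a * r⁻¹ = g := congrArg Subtype.val ha
  rw [← this, show r⁻¹ * (r * a * r⁻¹) * r⁻¹⁻¹ = a by group]; exact a.2

theorem rr' {g : G} (hg : g ∈ T) : r * (r * g * r⁻¹) * r⁻¹ = r⁻¹ * g * r⁻¹⁻¹ := by
  have := h.cs.conjY hg h.r3
  conv_rhs => rw [← this]
  group

theorem wrw {g : G} (hg : g ∈ T) : w * (r * (w * g * w⁻¹) * r⁻¹) * w⁻¹ = r⁻¹ * g * r⁻¹⁻¹ := by
  have := h.cs.conjY (h.rT' g hg) h.wr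
  have wi : w⁻¹ = w := inv_eq_of_mul_eq_one_right h.w2
  rw [← this]
  conv_rhs => rw [mul_inv_rev, mul_inv_rev, mul_inv_rev, inv_inv w]
  rw [wi]; group

theorem wrw' {g : G} (hg : g ∈ T) : w * (r⁻¹ * (w * g * w⁻¹) * r⁻¹⁻¹) * w⁻¹ = r * g * r⁻¹ := by
  have := h.wrw (h.wT g hg)
  rw [sq_conj h.w2] at this
  rw [← this, sq_conj h.w2]

theorem Sy_r (a : G → ℂ) {g : G} (hg : g ∈ T) : Sy r a (r * g * r⁻¹) = Sy r a g := by
  simp only [Sy, h.rr' hg]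
  rw [show r⁻¹ * (r * g * r⁻¹) * r⁻¹⁻¹ = g by group]; ring

theorem Sy_w {a : G → ℂ} (ha : ∀ g, a (w * g * w⁻¹) = a g) {g : G} (hg : g ∈ T) :
    Sy r a (w * g * w⁻¹) = Sy r a g := by
  simp only [Sy]
  rw [← ha (r * _ * r⁻¹), ← ha (r⁻¹ * _ * r⁻¹⁻¹), h.wrw hg, h.wrw' hg, ha]; ring

theorem D_r {g : G} : r * g * r⁻¹ ∈ DD t ↔ t * u ∈ zpowers g :=
  ⟨fun e => by
    have := mem_zpowers_conj' (c := r⁻¹) e
    rwa [show r⁻¹ * (r * g * r⁻¹) * r⁻¹⁻¹ = g by group, ← h.rv,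
      show r⁻¹ * (r * (t * u) * r⁻¹) * r⁻¹⁻¹ = t * u by group] at this,
   fun e => by
    have := mem_zpowers_conj' (c := r) e
    rwa [h.rv] at this⟩

theorem D_r' {g : G} : r⁻¹ * g * r⁻¹⁻¹ ∈ DD t ↔ u ∈ zpowers g :=
  ⟨fun e => by
    have := mem_zpowers_conj' (c := r) e
    rwa [show r * (r⁻¹ * g * r⁻¹⁻¹) * r⁻¹ = g by group, h.rt] at this,
   fun e => by
    have := mem_zpowers_conj' (c := r⁻¹) e
    rwa [← h.rt, show r⁻¹ * (r * t * r⁻¹) * r⁻¹⁻¹ = t by group] at this⟩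

theorem tri_cases {g : G} (hg : g ∈ T) (o : ¬ Odd (orderOf g)) :
    (t ∈ zpowers g ∧ u ∉ zpowers g ∧ t * u ∉ zpowers g) ∨ (t ∉ zpowers g ∧ u ∈ zpowers g ∧ t * u ∉ zpowers g) ∨
      (t ∉ zpowers g ∧ u ∉ zpowers g ∧ t * u ∈ zpowers g) := by
  obtain ⟨i, hi, i2, i1⟩ := exists_inv_of_even o
  have a1 : t ∈ zpowers g → u ∈ zpowers g → False := fun a b => h.ut (inv_unique b a h.u2 h.u1 h.t2 h.t1)
  have a2 : t ∈ zpowers g → t * u ∈ zpowers g → False := fun a b => h.vt (inv_unique b a h.v2 h.v1 h.t2 h.t1)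
  have a3 : u ∈ zpowers g → t * u ∈ zpowers g → False := fun a b => h.vu (inv_unique b a h.v2 h.v1 h.u2 h.u1)
  rcases h.invT i (zpowers_le.2 hg hi) i2 with e | e | e | e
  · exact absurd e i1
  all_goals subst e; tauto

theorem tri (k : G → ℂ) (hk : ∀ g ∈ T, Odd (orderOf g) → k g = 0) :
    ∑ g : T, k g = ∑ g : T, if (g : G) ∈ DD t then Sy r k g else 0 := by
  have e : ∀ g : T, k g = (if (g : G) ∈ DD t then k g else 0) +
      (if r⁻¹ * g * r⁻¹⁻¹ ∈ DD t then k (r * (r⁻¹ * g * r⁻¹⁻¹) * r⁻¹) else 0) +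
      (if r * g * r⁻¹ ∈ DD t then k (r⁻¹ * (r * g * r⁻¹) * r⁻¹⁻¹) else 0) := fun g => by
    rw [show r * (r⁻¹ * g * r⁻¹⁻¹) * r⁻¹ = g by group, show r⁻¹ * (r * g * r⁻¹) * r⁻¹⁻¹ = g by group]
    by_cases o : Odd (orderOf (g : G))
    · simp [hk g g.2 o]
    · simp only [h.D_r, h.D_r']
      have := h.tri_cases g.2 o
      simp only [DD, Set.mem_setOf_eq]
      rcases this with e | e | e <;> simp [e]
  rw [sum_congr rfl fun g _ => e g, sum_add_distrib, sum_add_distrib,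
    sum_cjH h.rT' fun g => if g ∈ DD t then k (r * g * r⁻¹) else 0,
    sum_cjH h.rT fun g => if g ∈ DD t then k (r⁻¹ * g * r⁻¹⁻¹) else 0, ← sum_add_distrib, ← sum_add_distrib]
  exact sum_congr rfl fun g _ => by split_ifs <;> simp [Sy]

theorem Fs_D (χ : G → ℂ) {g : G} (hg : g ∈ T) (hD : g ∈ DD t) : Fu q Z x r χ g = Fb q Z x χ g := by
  have o : ¬ Odd (orderOf g) := fun o => not_DD_of_odd h.t2 h.t1 o hD
  have c := h.tri_cases hg o
  have hD' : t ∈ zpowers g := hD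
  have n1 : r * g * r⁻¹ ∉ Z := fun e => by
    have := h.D_r.1 ((h.Y_even (h.ZY e)).2 (by rwa [orderOf_cj])); tauto
  have n2 : r⁻¹ * g * r⁻¹⁻¹ ∉ Z := fun e => by
    have := h.D_r'.1 ((h.Y_even (h.ZY e)).2 (by rwa [orderOf_cj])); tauto
  simp only [Fu, Fb, Sy, mm, n1, n2]; simp

theorem Fs_r {χ : G → ℂ} (cf : χ ∈ CF G) {g : G} (hg : g ∈ T) :
    Fu q Z x r χ (r * g * r⁻¹) = Fu q Z x r χ g := by
  rw [Fu, Fu, h.Sy_r _ hg, CF_conj cf]

omit h in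
theorem r_inv' {a : G → ℂ} (h' : ∀ g ∈ T, r⁻¹ * g * r⁻¹⁻¹ ∈ T) (ha : ∀ g ∈ T, a (r * g * r⁻¹) = a g) {g : G}
    (hg : g ∈ T) : a (r⁻¹ * g * r⁻¹⁻¹) = a g := by
  rw [← ha _ (h' g hg)]; congr 1; group

/-- sums over `T` of an `r`-invariant function against a function vanishing on elements of odd order -/
theorem tri' {F F' : G → ℂ} (hF : ∀ g ∈ T, F (r * g * r⁻¹) = F g) (e : ∀ g ∈ T, g ∈ DD t → F g = F' g)
    {k : G → ℂ} (hk : ∀ g ∈ T, Odd (orderOf g) → F g * conj (k g) = 0) :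
    ∑ g : T, F g * conj (k g) = Br.SD T (DD t) F' (Sy r k) := by
  rw [h.tri (fun g => F g * conj (k g)) hk, Br.SD]
  refine sum_congr rfl fun g _ => ?_
  split_ifs with hD
  · simp only [Sy, hF g g.2, r_inv' h.rT' hF g.2, e g g.2 hD, map_add]; ring
  · rfl

theorem co_Fs {χ : G → ℂ} (ν : T →* ℂˣ) : co (Fu q Z x r χ) ν =
    co (Fb q Z x χ) ν - co (fun g => (q + 1) * mm q Z x χ g) (ν.comp (cjH h.rT')) -
      co (fun g => (q + 1) * mm q Z x χ g) (ν.comp (cjH h.rT)) := by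
  have e1 := sum_cjH h.rT fun g => (q + 1) * mm q Z x χ g * conj (ex ν (r⁻¹ * g * r⁻¹⁻¹))
  have e2 := sum_cjH h.rT' fun g => (q + 1) * mm q Z x χ g * conj (ex ν (r * g * r⁻¹))
  have a1 : ∀ g : G, r⁻¹ * (r * g * r⁻¹) * r⁻¹⁻¹ = g := fun g => by group
  have a2 : ∀ g : G, r * (r⁻¹ * g * r⁻¹⁻¹) * r⁻¹ = g := fun g => by group
  simp only [a1, a2, ex_coe, ex_cj ν h.rT, ex_cj ν h.rT'] at e1 e2
  simp only [co, ← e1, ← e2, ← mul_sub, ← sum_sub_distrib]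
  congr 1
  exact sum_congr rfl fun g _ => by simp only [Fu, Fb, Sy]; ring

theorem int_fc {χ : G → ℂ} (hχ : χ ∈ ZIrr G) (ν : T →* ℂˣ) : ∃ n : ℤ, co (Fu q Z x r χ) ν = n := by
  obtain ⟨a, ha⟩ := h.cs.int_coef h.ZT h.cs.kY' hχ ν
  obtain ⟨b, hb⟩ := h.cs.int_mm' h.ZT h.cs.kY' hχ (ν.comp (cjH h.rT'))
  obtain ⟨c, hc⟩ := h.cs.int_mm' h.ZT h.cs.kY' hχ (ν.comp (cjH h.rT))
  exact ⟨a - b - c, by rw [h.co_Fs]; push_cast; rw [← ha, ← hb, ← hc]; rfl⟩

theorem int_gc {χ : G → ℂ} (hχ : χ ∈ ZIrr G) (ν : Y →* ℂˣ) : ∃ n : ℤ, co (Fa q Z x χ) ν = n :=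
  h.cs.int_coef h.ZY h.cs.kT' hχ ν

theorem co_r {F : G → ℂ} (hF : ∀ g ∈ T, F (r * g * r⁻¹) = F g) (ν : T →* ℂˣ) :
    co F (ν.comp (cjH h.rT)) = co F ν := by
  have := sum_cjH h.rT fun g => F g * conj (ex ν g)
  simp only [ex_coe, ex_cj ν h.rT] at this
  rw [co, co, ← this]
  congr 1
  exact sum_congr rfl fun g _ => by rw [hF g g.2]

/-- parity -/
theorem parity {χ : G → ℂ} (hχ : χ ∈ ZIrr G) (μ : C →* ℂˣ) : ∃ n : ℤ,
    co (Fu q Z x r χ) (μ.comp (inclusion h.TC)) + co (Fa q Z x χ) (μ.comp (inclusion h.YC)) = 2 * n := by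
  obtain ⟨a, ha⟩ := ZIrr.dot_int (ZIrr.comp hχ C.subtype) (lin_mem_ZIrr μ)
  obtain ⟨c, hc⟩ := h.cs.int_mm' h.ZT h.cs.kY' hχ ((μ.comp (inclusion h.TC)).comp (cjH h.rT))
  refine ⟨a - c, ?_⟩
  have e : co (fun g => (q + 1) * mm q Z x χ g) ((μ.comp (inclusion h.TC)).comp (cjH h.rT')) =
      co (fun g => (q + 1) * mm q Z x χ g) ((μ.comp (inclusion h.TC)).comp (cjH h.rT)) := by
    rw [co, co]; congr 1
    refine sum_congr rfl fun g _ => ?_
    by_cases hz : (g : G) ∈ Z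
    · rw [← ex_cj _ h.rT, ← ex_cj _ h.rT', ← h.wrw g.2, h.cs.conjZ hz h.wC]
      have a1 := h.rT g g.2
      rw [ex_mem _ a1, ex_mem _ (h.wT _ a1)]
      congr 2
      have := ex_conj μ h.wC (r * g * r⁻¹)
      rwa [ex_mem _ (h.TC a1), ex_mem _ (h.TC (h.wT _ a1))] at this
    · simp [mm, hz]
  rw [h.co_Fs, e]
  push_cast
  rw [← ha, ← hc, h.cs.dualC (ZIrr.mem_CF hχ)]
  simp only [co, ex_res h.TC, ex_res h.YC]
  have : (Nat.card T : ℂ) ≠ 0 := card_ne_zero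
  have : (Nat.card Y : ℂ) ≠ 0 := card_ne_zero
  field_simp; ring

theorem fpf {ν : T →* ℂˣ} (hν : Pr ν) (e : ν.comp (cjH h.rT) = ν) : ν = 1 := by
  ext g
  obtain ⟨k, hk⟩ := hν.pow g
  have cT : ∀ a b : T, a * b = b * a := h.cT.is_comm.comm
  let τ := cjH h.rT
  have t3 : τ (τ (τ g)) = g := Subtype.ext (by
    simp only [τ, cjH_coe]; rw [h.rr' g.2]; group)
  have fx : τ (g * τ g * τ (τ g)) = g * τ g * τ (τ g) := by
    rw [map_mul, map_mul, t3, cT _ g, mul_assoc]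
  have o : Odd (orderOf (g * τ g * τ (τ g))) := by
    by_contra o
    rw [← orderOf_coe] at o
    have fx' : r * ((g * τ g * τ (τ g) : T) : G) * r⁻¹ = (g * τ g * τ (τ g) : T) := congrArg Subtype.val fx
    have a := h.D_r (g := (g * τ g * τ (τ g) : T))
    have b := h.D_r' (g := r * ((g * τ g * τ (τ g) : T) : G) * r⁻¹)
    rw [show ∀ g : G, r⁻¹ * (r * g * r⁻¹) * r⁻¹⁻¹ = g from fun g => by group] at b
    rw [fx'] at a b
    have := h.tri_cases (g * τ g * τ (τ g)).2 o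
    simp only [DD, Set.mem_setOf_eq] at a b
    tauto
  have e' : ∀ a, ν (τ a) = ν a := fun a => DFunLike.congr_fun e a
  have := hν _ o
  rw [map_mul, map_mul, e', e', e'] at this
  simpa using congrArg Units.val (eq_one_of_pow hk (m := 3) (by decide) (by rw [← this]; simp [pow_succ]))

theorem resT_inj {μ μ' : C →* ℂˣ} (e : μ.comp (inclusion h.TC) = μ'.comp (inclusion h.TC)) : μ = μ' := by
  rw [← mul_inv_eq_one]
  exact h.linT _ fun g hg => by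
    have : μ g = μ' g := DFunLike.congr_fun e ⟨g, hg⟩
    simpa [mul_inv_eq_one] using this

theorem resY_inj {μ μ' : C →* ℂˣ} (e : μ.comp (inclusion h.YC) = μ'.comp (inclusion h.YC)) : μ = μ' := by
  rw [← mul_inv_eq_one]
  exact h.linY _ fun g hg => by
    have : μ g = μ' g := DFunLike.congr_fun e ⟨g, hg⟩
    simpa [mul_inv_eq_one] using this

theorem comp_rr (ν : T →* ℂˣ) : (ν.comp (cjH h.rT)).comp (cjH h.rT) = ν.comp (cjH h.rT') := by
  ext g; simp only [MonoidHom.comp_apply]; congr 2; exact Subtype.ext (h.rr' g.2)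

theorem comp_rr' (ν : T →* ℂˣ) : (ν.comp (cjH h.rT')).comp (cjH h.rT) = ν := by
  ext g; simp only [MonoidHom.comp_apply]; congr 2; exact Subtype.ext (by simp only [cjH_coe]; group)

theorem res_r_ne {μ μ' : C →* ℂˣ} (hμ : Pr μ) (h1 : μ ≠ 1) :
    (μ.comp (inclusion h.TC)).comp (cjH h.rT) ≠ μ'.comp (inclusion h.TC) ∧
      (μ.comp (inclusion h.TC)).comp (cjH h.rT') ≠ μ'.comp (inclusion h.TC) := by
  set ν := μ.comp (inclusion h.TC) with hν
  have key : ν.comp (cjH h.rT) ≠ ν.comp (cjH h.rT') := fun e => by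
    have := congrArg (fun a : T →* ℂˣ => (a.comp (cjH h.rT)).comp (cjH h.rT)) e
    simp only [h.comp_rr, h.comp_rr'] at this
    exact h1 (h.resT_inj ((h.fpf (hμ.comp _) this.symm).trans rfl))
  have val : ∀ (a : C →* ℂˣ) (g : G) (hg : g ∈ T), (a.comp (inclusion h.TC) ⟨g, hg⟩ : ℂ) = ex a g :=
    fun a g hg => (ex_res h.TC a ⟨g, hg⟩).symm
  constructor
  · intro e
    apply key
    ext g
    have e1 := congrArg Units.val (DFunLike.congr_fun e g)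
    have e2 := congrArg Units.val (DFunLike.congr_fun e (cjH h.wT g))
    have a1 : (μ'.comp (inclusion h.TC) (cjH h.wT g) : ℂ) = μ'.comp (inclusion h.TC) g := by
      rw [← ex_res, ← ex_res, cjH_coe, ex_conj μ' h.wC]
    rw [e1, ← a1, ← e2]
    show (ν _ : ℂ) = ν _
    rw [hν, ← ex_res, ← ex_res, cjH_coe, cjH_coe, cjH_coe, ← h.wrw g.2, ex_conj μ h.wC]
  · intro e
    apply key
    ext g
    have e1 := congrArg Units.val (DFunLike.congr_fun e g)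
    have e2 := congrArg Units.val (DFunLike.congr_fun e (cjH h.wT g))
    have a1 : (μ'.comp (inclusion h.TC) (cjH h.wT g) : ℂ) = μ'.comp (inclusion h.TC) g := by
      rw [← ex_res, ← ex_res, cjH_coe, ex_conj μ' h.wC]
    rw [e1, ← a1, ← e2]
    show (ν _ : ℂ) = ν _
    rw [hν, ← ex_res, ← ex_res, cjH_coe, cjH_coe, cjH_coe, ← h.wrw' g.2, ex_conj μ h.wC]

end CU

theorem realizeEqns_Bu_Ch1 : True := by
  have := @CA.Bu.Fu.eq_1.{0}
  have := @CA.Bu.Fu.eq_def.{0}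
  have := @CA.Bu.Fu.congr_simp.{0}
  trivial

end CA.Bu
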