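import Cfsg.Agent.Bu.Ch1

/-!
# The generalised characters `α` and `β` (unitary case)
-/

set_option autoImplicit false
set_option linter.unusedSectionVars false
set_option linter.unusedVariables false

open Cfsg Subgroup CA.Chr CA.Dih CA.Blk CA.Br Finset
open scoped ComplexConjugate Classical

namespace CA.Bu

universe u

variable {G : Type u} [Group G] [Fintype G]

namespace CU

variable {q : ℕ} {C Z T Y U X H Y1 : Subgroup G} {t w u x r : G} {lam : C →* ℂˣ} {θ1 θ2 : Y →* ℂˣ}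
  (h : CU q C Z T Y U X H Y1 t w u x r lam θ1 θ2)

/-- `α_θ` -/
noncomputable def al (h : CU q C Z T Y U X H Y1 t w u x r lam θ1 θ2) (θ : Y →* ℂˣ) : G → ℂ :=
  Ph q C Z Y T U x (DD t) (aY u θ) 0

/-- `β` -/
noncomputable def be (h : CU q C Z T Y U X H Y1 t w u x r lam θ1 θ2) : G → ℂ :=
  Ph q C Z Y T U x (DD t) (Br.kC lam) (Sy r (Br.kC lam))

/-- `θ^u` -/
def cu (θ : Y →* ℂˣ) : Y →* ℂˣ := θ.comp (cjH h.uY)
/-- `ν^r` -/
def cr (ν : T →* ℂˣ) : T →* ℂˣ := ν.comp (cjH h.rT)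
/-- `ν^(r⁻¹)` -/
def cr' (ν : T →* ℂˣ) : T →* ℂˣ := ν.comp (cjH h.rT')
/-- restriction to `T` -/
def sT (μ : C →* ℂˣ) : T →* ℂˣ := μ.comp (inclusion h.TC)
/-- restriction to `Y` -/
def sY (μ : C →* ℂˣ) : Y →* ℂˣ := μ.comp (inclusion h.YC)

include h

theorem cu_cu (θ : Y →* ℂˣ) : h.cu (h.cu θ) = θ := by
  ext g; simp only [cu, MonoidHom.comp_apply]; congr 2; exact Subtype.ext (sq_conj h.u2)

theorem cu_one : h.cu 1 = 1 := rfl

theorem cu_eq_one {θ : Y →* ℂˣ} : h.cu θ = 1 ↔ θ = 1 :=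
  ⟨fun e => by rw [← h.cu_cu θ, e, cu_one], fun e => by rw [e, cu_one]⟩

theorem cu_sY (μ : C →* ℂˣ) : h.cu (h.sY μ) = h.sY μ := by
  ext g
  show (h.sY μ (cjH h.uY g) : ℂ) = _
  rw [sY, ← ex_res, ← ex_res, cjH_coe, ex_conj μ h.uC]

theorem SD_Y (F : G → ℂ) {b : G → ℂ} (hb : ∀ g ∈ Y, Odd (orderOf g) → F g * conj (b g) = 0) :
    Br.SD Y (DD t) F b = ∑ g : Y, F g * conj (b g) :=
  sum_congr rfl fun g _ => by
    split_ifs with hD
    · rfl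
    · exact (hb g g.2 (by_contra fun o => hD ((h.Y_even g.2).2 o))).symm

theorem aY_odd {θ : Y →* ℂˣ} (P : Pr θ) {g : G} (hg : g ∈ Y) (o : Odd (orderOf g)) : aY u θ g = 0 := by
  rw [aY, ex_odd P hg o, ex_odd P (h.uY g hg) (by rwa [orderOf_cj])]; ring

theorem aY_u (θ : Y →* ℂˣ) (g : G) : aY u θ (u * g * u⁻¹) = aY u θ g := by
  rw [aY, aY, sq_conj h.u2]; ring

theorem aY_coe (θ : Y →* ℂˣ) (g : Y) : aY u θ g = 2 - θ g - h.cu θ g := by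
  rw [aY, ex_coe, ex_cj θ h.uY]; rfl

omit h in
theorem kC_odd {μ : C →* ℂˣ} (P : Pr μ) {g : G} (hg : g ∈ C) (o : Odd (orderOf g)) : Br.kC μ g = 0 := by
  rw [Br.kC, ex_odd P hg o]; ring

omit h in
theorem kC_conj (μ : C →* ℂˣ) {c : G} (hc : c ∈ C) (g : G) : Br.kC μ (c * g * c⁻¹) = Br.kC μ g := by
  rw [Br.kC, Br.kC, ex_conj μ hc]

theorem Sy_odd {k : G → ℂ} (hk : ∀ g ∈ T, Odd (orderOf g) → k g = 0) {g : G} (hg : g ∈ T) (o : Odd (orderOf g)) :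
    Sy r k g = 0 := by
  rw [Sy, hk g hg o, hk _ (h.rT g hg) (by rwa [orderOf_cj]), hk _ (h.rT' g hg) (by rwa [orderOf_cj])]; ring

theorem Sy_coe (μ : C →* ℂˣ) (g : T) : Sy r (Br.kC μ) g = 3 - (h.sT μ g + (h.cr (h.sT μ) g + h.cr' (h.sT μ) g)) := by
  simp only [Sy, Br.kC]
  rw [ex_res h.TC, ← cjH_coe h.rT, ← cjH_coe h.rT', ex_res h.TC, ex_res h.TC]
  simp only [cr, cr', sT, MonoidHom.comp_apply]; ring

theorem co_u {χ : G → ℂ} (cf : χ ∈ CF G) (θ : Y →* ℂˣ) : co (Fa q Z x χ) (h.cu θ) = co (Fa q Z x χ) θ := by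
  have := sum_cjH h.uY fun g => Fa q Z x χ g * conj (ex θ g)
  simp only [ex_coe, ex_cj θ h.uY, h.cs.Fa_w cf h.uC] at this
  rw [co, co, ← this]; rfl

theorem dot_al {χ : G → ℂ} (cf : χ ∈ CF G) {θ : Y →* ℂˣ} (P : Pr θ) :
    ⟪χ, h.al θ⟫ = co (Fa q Z x χ) (1 : Y →* ℂˣ) - co (Fa q Z x χ) θ := by
  have e := h.co_u cf θ
  rw [al, h.cs.dot_Ph cf, SD_zero, h.SD_Y _ fun g hg o => by rw [h.aY_odd P hg o]; simp]
  simp only [h.aY_coe, map_sub, mul_sub, sum_sub_distrib, map_ofNat, co, MonoidHom.one_apply, Units.val_one,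
    map_one, mul_one, ← sum_mul] at e ⊢
  have : (Nat.card Y : ℂ) ≠ 0 := card_ne_zero
  rw [mul_left_cancel₀ (inv_ne_zero this) e]
  field_simp; ring

theorem dot_be {χ : G → ℂ} (cf : χ ∈ CF G) : ⟪χ, h.be⟫ =
    (co (Fu q Z x r χ) (1 : T →* ℂˣ) - co (Fu q Z x r χ) (h.sT lam) +
      (co (Fa q Z x χ) (1 : Y →* ℂˣ) - co (Fa q Z x χ) (h.sY lam))) / 2 := by
  rw [be, h.cs.dot_Ph cf, h.SD_Y _ fun g hg o => by rw [kC_odd h.lP (h.YC hg) o]; simp,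
    ← h.tri' (F := Fu q Z x r χ) (fun g hg => h.Fs_r cf hg) (fun g hg hD => h.Fs_D χ hg hD)
      fun g hg o => by rw [kC_odd h.lP (h.TC hg) o]; simp]
  simp only [Br.kC, map_sub, mul_sub, sum_sub_distrib, co, MonoidHom.one_apply, Units.val_one,
    map_one, mul_one, ex_res h.TC, ex_res h.YC, sT, sY]
  have : (Nat.card Y : ℂ) ≠ 0 := card_ne_zero
  have : (Nat.card T : ℂ) ≠ 0 := card_ne_zero
  field_simp; ring

theorem Ph_odd (a b : G → ℂ) {g : G} (o : Odd (orderOf g)) : Ph q C Z Y T U x (DD t) b a g = 0 :=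
  h.cs.Ph_zero h.td b a fun n => not_DD_of_odd h.t2 h.t1 (by rwa [orderOf_cj])

theorem mm_Ph_odd (a b : G → ℂ) {g : G} (o : Odd (orderOf g)) : mm q Z x (Ph q C Z Y T U x (DD t) b a) g = 0 := by
  rw [mm]
  split_ifs with hz
  · rw [h.Ph_odd a b o, h.Ph_odd a b ((odd_orderOf_mul (h.cen g hz x h.cs.xC) h.xo).2 o)]; simp
  · rfl

theorem Fb_Ph' (a : G → ℂ) {b : G → ℂ} (hb : ∀ g ∈ Y, b (u * g * u⁻¹) = b g)
    (hb' : ∀ g ∈ Y, Odd (orderOf g) → b g = 0) {g : G} (hg : g ∈ Y) :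
    Fa q Z x (Ph q C Z Y T U x (DD t) b a) g = b g := by
  by_cases o : Odd (orderOf g)
  · rw [Fa, h.Ph_odd a b o, h.mm_Ph_odd a b o, hb' g hg o]; simp
  · exact h.cs.Fa_Ph h.td hb a hg ((h.Y_even hg).2 o)

theorem Fs_Ph {a : G → ℂ} (ha : ∀ g ∈ T, a (w * g * w⁻¹) = a g) (hr : ∀ g ∈ T, a (r * g * r⁻¹) = a g)
    (ha' : ∀ g ∈ T, Odd (orderOf g) → a g = 0) (b : G → ℂ) {g : G} (hg : g ∈ T) :
    Fu q Z x r (Ph q C Z Y T U x (DD t) b a) g = a g := by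
  have key : ∀ g ∈ T, g ∈ DD t → Fu q Z x r (Ph q C Z Y T U x (DD t) b a) g = a g := fun g hg hD => by
    rw [h.Fs_D _ hg hD, h.cs.Fb_Ph h.td b ha hg hD]
  have cf := CS.Ph_CF (q := q) (C := C) (Z := Z) (T := Y) (Y := T) (U := U) (x := x) (D := DD t) b a
  by_cases o : Odd (orderOf g)
  · rw [Fu, h.Ph_odd a b o, h.Sy_odd (fun g _ o => h.mm_Ph_odd a b o) hg o, ha' g hg o]; simp
  · rcases h.tri_cases hg o with e | e | e
    · exact key g hg e.1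
    · rw [← r_inv' h.rT' (fun g hg => h.Fs_r cf hg) hg, key _ (h.rT' g hg) (h.D_r'.2 e.2.1), r_inv' h.rT' hr hg]
    · rw [← h.Fs_r cf hg, key _ (h.rT g hg) (h.D_r.2 e.2.2), hr g hg]

theorem co_al {θ : Y →* ℂˣ} (P : Pr θ) (ν : Y →* ℂˣ) : co (Fa q Z x (h.al θ)) ν =
    (if 1 = ν then 2 else 0) - ((if θ = ν then 1 else 0) + if h.cu θ = ν then 1 else 0) := by
  rw [co_lin 2 [θ, h.cu θ] (fun g => by
    rw [al, h.Fb_Ph' _ (fun g _ => h.aY_u θ g) (fun g hg o => h.aY_odd P hg o) g.2, h.aY_coe]; simp; ring)]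
  simp

theorem co_beY (ν : Y →* ℂˣ) : co (Fa q Z x h.be) ν = (if 1 = ν then 1 else 0) - if h.sY lam = ν then 1 else 0 := by
  rw [co_lin 1 [h.sY lam] (fun g => by
    rw [be, h.Fb_Ph' _ (fun g _ => kC_conj lam h.uC g) (fun g hg o => kC_odd h.lP (h.YC hg) o) g.2, Br.kC,
      ex_res h.YC]; simp [sY])]
  simp

theorem co_beT (ν : T →* ℂˣ) : co (Fu q Z x r h.be) ν = (if 1 = ν then 3 else 0) -
    ((if h.sT lam = ν then 1 else 0) + ((if h.cr (h.sT lam) = ν then 1 else 0) +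
      if h.cr' (h.sT lam) = ν then 1 else 0)) := by
  rw [co_lin 3 [h.sT lam, h.cr (h.sT lam), h.cr' (h.sT lam)] (fun g => by
    rw [be, h.Fs_Ph (fun g hg => h.Sy_w (kC_conj lam h.wC) hg) (fun g hg => h.Sy_r _ hg)
      (fun g hg o => h.Sy_odd (fun g hg o => kC_odd h.lP (h.TC hg) o) hg o) _ g.2, h.Sy_coe]; simp)]
  simp

omit h in
theorem mm_one : mm q Z x (1 : G → ℂ) = 0 := funext fun g => by simp [mm]

omit h in
theorem co_oneY (ν : Y →* ℂˣ) : co (Fa q Z x 1) ν = if 1 = ν then 1 else 0 := by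
  rw [co_lin 1 [] (fun g => by simp [Fa, mm_one])]; simp

omit h in
theorem co_oneT (ν : T →* ℂˣ) : co (Fu q Z x r 1) ν = if 1 = ν then 1 else 0 := by
  rw [co_lin 1 [] (fun g => by simp [Fu, Sy, mm_one])]; simp

theorem al_CF (θ : Y →* ℂˣ) : h.al θ ∈ CF G := CS.Ph_CF _ _
theorem be_CF : h.be ∈ CF G := CS.Ph_CF _ _

theorem ndY {χ : G → ℂ} (hχ : χ ∈ ZIrr G) {θ : Y →* ℂˣ} (P : Pr θ) : ⟪χ, h.al θ⟫ = -nd (Fa q Z x χ) θ := by
  rw [h.dot_al (ZIrr.mem_CF hχ) P, nd_eq (h.int_gc hχ)]; ring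

theorem par {χ : G → ℂ} (hχ : χ ∈ ZIrr G) (μ : C →* ℂˣ) :
    Even (nd (Fu q Z x r χ) (h.sT μ) + nd (Fa q Z x χ) (h.sY μ)) := by
  obtain ⟨a, ha⟩ := h.parity hχ μ
  obtain ⟨b, hb⟩ := h.parity hχ 1
  refine ⟨a - b, Int.cast_injective (α := ℂ) ?_⟩
  push_cast
  rw [nd_eq (h.int_fc hχ), nd_eq (h.int_gc hχ)]
  change co _ (h.sT μ) + co _ (h.sY μ) = _ at ha
  change co _ (1 : T →* ℂˣ) + co _ (1 : Y →* ℂˣ) = _ at hb
  linear_combination ha - hb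

theorem al_ZIrr {θ : Y →* ℂˣ} (P : Pr θ) : h.al θ ∈ ZIrr G :=
  mem_ZIrr_of_dot_int (h.al_CF θ) fun χ hχ => ⟨-nd (Fa q Z x χ) θ, dot_comm_of_int (by
    rw [h.ndY (IsIrr.mem_ZIrr hχ) P]; simp)⟩

theorem be_ZIrr : h.be ∈ ZIrr G :=
  mem_ZIrr_of_dot_int h.be_CF fun χ hχ => by
    have hz := IsIrr.mem_ZIrr hχ
    obtain ⟨a, ha⟩ := h.par hz lam
    refine ⟨-a, dot_comm_of_int ?_⟩
    have := congrArg (Int.cast : ℤ → ℂ) ha
    push_cast at this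
    rw [nd_eq (h.int_fc hz), nd_eq (h.int_gc hz)] at this
    rw [h.dot_be (IsIrr.mem_CF hχ)]; push_cast
    linear_combination (-1 / 2) * this

theorem lam1 : lam ≠ 1 := fun e => by
  have := h.lu ⟨u, h.uC⟩ rfl
  rw [DFunLike.congr_fun e] at this
  have := congrArg Units.val this
  simp at this; norm_num at this

theorem sT1 {μ : C →* ℂˣ} (e : μ ≠ 1) : h.sT μ ≠ 1 := fun e' => e (h.resT_inj e')
theorem sY1 {μ : C →* ℂˣ} (e : μ ≠ 1) : h.sY μ ≠ 1 := fun e' => e (h.resY_inj e')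

theorem al_one {θ : Y →* ℂˣ} (P : Pr θ) (e : θ ≠ 1) : ⟪1, h.al θ⟫ = 1 := by
  rw [h.dot_al (one_mem _) P, co_oneY, co_oneY]; simp [e.symm]

theorem al_al {θ θ' : Y →* ℂˣ} (P : Pr θ) (P' : Pr θ') (e : θ ≠ 1) (e' : θ' ≠ 1) : ⟪h.al θ, h.al θ'⟫ =
    2 + (if θ = θ' then 1 else 0) + if h.cu θ = θ' then 1 else 0 := by
  rw [h.dot_al (h.al_CF θ) P', h.co_al P, h.co_al P]; simp [e, e'.symm, h.cu_eq_one]; ring

theorem be_al {θ : Y →* ℂˣ} (P : Pr θ) (e : θ ≠ 1) : ⟪h.be, h.al θ⟫ = 1 + if h.sY lam = θ then 1 else 0 := by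
  rw [h.dot_al h.be_CF P, h.co_beY, h.co_beY]; simp [e.symm, h.sY1 h.lam1]

theorem be_one : ⟪1, h.be⟫ = 1 := by
  rw [h.dot_be (one_mem _), co_oneY, co_oneY, co_oneT, co_oneT]
  simp [(h.sY1 h.lam1).symm, (h.sT1 h.lam1).symm]

theorem be_be : ⟪h.be, h.be⟫ = 3 := by
  have a := h.res_r_ne (μ' := 1) h.lP h.lam1
  have b := h.res_r_ne (μ' := lam) h.lP h.lam1
  have a1 : h.cr (h.sT lam) ≠ 1 := a.1
  have a2 : h.cr' (h.sT lam) ≠ 1 := a.2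
  have b1 : h.cr (h.sT lam) ≠ h.sT lam := b.1
  have b2 : h.cr' (h.sT lam) ≠ h.sT lam := b.2
  rw [h.dot_be h.be_CF, h.co_beY, h.co_beY, h.co_beT, h.co_beT]
  simp [(h.sY1 h.lam1).symm, (h.sT1 h.lam1).symm, h.sY1 h.lam1, h.sT1 h.lam1, a1, a2, b1, b2]; norm_num

/-- Bessel's inequality and the value at `t` in terms of the Fourier coefficients -/
theorem data {χ : G → ℂ} (hχ : Dirr χ) (hB : proj (B0 2 G) χ = χ) :
    (∃ c c' : ℝ, ∑ ν ∈ II T, ((nd (Fu q Z x r χ) ν : ℝ) + c) ^ 2 +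
      3 * ∑ ν ∈ II Y, ((nd (Fa q Z x χ) ν : ℝ) + c') ^ 2 < 6) ∧
    χ t = ((q + 1) * ∑ ν ∈ II Y, nd (Fa q Z x χ) ν * (ν ⟨t, h.ZY h.tZ⟩ : ℂ) -
      (q - 1) * ∑ ν ∈ II T, nd (Fu q Z x r χ) ν * (ν ⟨t, h.tT⟩ : ℂ)) / 2 := by
  have hz := hχ.mem_ZIrr
  have cf := ZIrr.mem_CF hz
  have evr : ∀ g ∈ T, evn (Fu q Z x r χ) (r * g * r⁻¹) = evn (Fu q Z x r χ) g := fun g hg => by
    simp only [evn, orderOf_cj, h.Fs_r cf hg]
  have evD : ∀ g ∈ T, g ∈ DD t → evn (Fu q Z x r χ) g = Fb q Z x χ g := fun g hg hD => by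
    rw [evn, if_neg fun o => not_DD_of_odd h.t2 h.t1 o hD, h.Fs_D χ hg hD]
  have evY : ∀ b : G → ℂ, ∑ g : Y, evn (Fa q Z x χ) g * conj (b g) = Br.SD Y (DD t) (Fa q Z x χ) b := fun b =>
    sum_congr rfl fun g _ => by
      by_cases o : Odd (orderOf (g : G)) <;> simp only [evn, h.Y_even g.2, o] <;> simp
  obtain ⟨⟨c, hc⟩, v⟩ := var_eq h.cT (F := Fu q Z x r χ) (fun ν hν => by
    have e := h.tri' evr evD (k := ex ν) fun g _ o => by simp [evn, o]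
    simp only [ex_coe] at e
    have n1 : ¬ Pr (ν.comp (cjH h.rT)) := fun p => hν (by
      have := p.comp (cjH h.rT')
      rwa [show (ν.comp (cjH h.rT)).comp (cjH h.rT') = ν by
        ext g; simp only [MonoidHom.comp_apply]; congr 2; exact Subtype.ext (by simp only [cjH_coe]; group)] at this)
    have n2 : ¬ Pr (ν.comp (cjH h.rT')) := fun p => hν (by
      have := p.comp (cjH h.rT)
      rwa [h.comp_rr'] at this)
    have : Br.SD T (DD t) (Fb q Z x χ) (Sy r (ex ν)) = Br.SD T (DD t) (Fb q Z x χ) (ex ν) +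
        Br.SD T (DD t) (Fb q Z x χ) (ex (ν.comp (cjH h.rT))) + Br.SD T (DD t) (Fb q Z x χ) (ex (ν.comp (cjH h.rT'))) := by
      rw [← SD_add, ← SD_add]
      exact sum_congr rfl fun g _ => by simp only [Sy, ex_cj ν h.rT, ex_cj ν h.rT', ex_coe, Pi.add_apply]
    rw [co, e, this, h.prT cf hB hν, h.prT cf hB n1, h.prT cf hB n2]; simp) (h.int_fc hz)
  obtain ⟨⟨c', hc'⟩, v'⟩ := var_eq h.cY (F := Fa q Z x χ) (fun ν hν => by
    have e := evY (ex ν)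
    simp only [ex_coe] at e
    rw [co, e, h.prY cf hB hν, mul_zero]) (h.int_gc hz)
  have te : ¬ Odd (orderOf t) := fun o => not_DD_of_odd h.t2 h.t1 o h.tD
  refine ⟨⟨c, c', ?_⟩, ?_⟩
  · have b := h.cs.bessel_lt h.td h.oneD hχ
    have e1 : ((nrm (evn (Fu q Z x r χ) ∘ T.subtype) : ℝ) : ℂ) =
        6 * ((2 * Nat.card T : ℂ)⁻¹ * Br.SD T (DD t) (Fb q Z x χ) (Fb q Z x χ)) := by
      have e := h.tri' evr evD (k := evn (Fu q Z x r χ)) fun g _ o => by simp [evn, o]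
      have : Br.SD T (DD t) (Fb q Z x χ) (Sy r (evn (Fu q Z x r χ))) = 3 * Br.SD T (DD t) (Fb q Z x χ) (Fb q Z x χ) := by
        rw [Br.SD, Br.SD, mul_sum]
        refine sum_congr rfl fun g _ => ?_
        split_ifs with hD
        · rw [Sy, evr g g.2, r_inv' h.rT' evr g.2, evD g g.2 hD]; simp only [map_add]; ring
        · simp
      rw [← dot_self, dot_def]
      simp only [Function.comp, coe_subtype, e, this]
      have : (Nat.card T : ℂ) ≠ 0 := card_ne_zero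
      field_simp; ring
    have e2 : ((nrm (evn (Fa q Z x χ) ∘ Y.subtype) : ℝ) : ℂ) =
        2 * ((2 * Nat.card Y : ℂ)⁻¹ * Br.SD Y (DD t) (Fa q Z x χ) (Fa q Z x χ)) := by
      have : Br.SD Y (DD t) (Fa q Z x χ) (evn (Fa q Z x χ)) = Br.SD Y (DD t) (Fa q Z x χ) (Fa q Z x χ) :=
        sum_congr rfl fun g _ => by
          split_ifs with hD
          · rw [evn, if_neg ((h.Y_even g.2).1 hD)]
          · rfl
      rw [← dot_self, dot_def]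
      simp only [Function.comp, coe_subtype, evY, this]
      have : (Nat.card Y : ℂ) ≠ 0 := card_ne_zero
      field_simp
    have f1 := congrArg Complex.re e1
    have f2 := congrArg Complex.re e2
    simp only [Complex.ofReal_re, Complex.re_ofNat, Complex.mul_re (6 : ℂ), Complex.mul_re (2 : ℂ) (_ * _),
      Complex.im_ofNat, zero_mul, sub_zero] at f1 f2
    rw [Complex.add_re] at b
    linarith
  · rw [h.cs.val_Z χ h.tZ, ← h.Fs_D χ h.tT h.tD, ← v ⟨t, h.tT⟩ (by rwa [← orderOf_coe]),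
      ← v' ⟨t, h.ZY h.tZ⟩ (by rwa [← orderOf_coe])]

end CU

theorem realizeEqns_Bu_Ch2 : True := by
  have := @CA.Bu.CU.al.eq_1.{0}
  have := @CA.Bu.CU.al.eq_def.{0}
  have := @CA.Bu.CU.al.congr_simp.{0}
  have := @CA.Bu.CU.be.eq_1.{0}
  have := @CA.Bu.CU.be.eq_def.{0}
  have := @CA.Bu.CU.be.congr_simp.{0}
  have := @CA.Bu.CU.cr.eq_1.{0}
  have := @CA.Bu.CU.cr.eq_def.{0}
  have := @CA.Bu.CU.cr.congr_simp.{0}
  have := @CA.Bu.CU.cu.eq_1.{0}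
  have := @CA.Bu.CU.cu.eq_def.{0}
  have := @CA.Bu.CU.cu.congr_simp.{0}
  have := @CA.Bu.CU.cr'.eq_1.{0}
  have := @CA.Bu.CU.cr'.eq_def.{0}
  have := @CA.Bu.CU.cr'.congr_simp.{0}
  have := @CA.Bu.CU.sT.eq_1.{0}
  have := @CA.Bu.CU.sT.eq_def.{0}
  have := @CA.Bu.CU.sT.congr_simp.{0}
  have := @CA.Bu.CU.sY.eq_1.{0}
  have := @CA.Bu.CU.sY.eq_def.{0}
  have := @CA.Bu.CU.sY.congr_simp.{0}
  trivial

end CA.Bu
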