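import Cfsg.Agent.Bu.Ch2

/-!
# The values at `t` of the constituents of `α` and `β` (unitary case)
-/

set_option autoImplicit false
set_option linter.unusedSectionVars false
set_option linter.unusedVariables false

open Cfsg Subgroup CA.Chr CA.Dih CA.Blk CA.Br Finset
open scoped ComplexConjugate Classical

namespace CA.Bu

universe u

variable {G : Type u} [Group G] [Fintype G]

namespace CU

variable {q : ℕ} {C Z T Y U X H Y1 : Subgroup G} {t w u x r : G} {lam : C →* ℂˣ} {θ1 θ2 : Y →* ℂˣ}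
  (h : CU q C Z T Y U X H Y1 t w u x r lam θ1 θ2)

/-- the orbit of `r` -/
noncomputable def Ob (ν : T →* ℂˣ) : Finset (T →* ℂˣ) := {ν, h.cr ν, h.cr' ν}

include h

theorem cr_cr (ν : T →* ℂˣ) : h.cr (h.cr ν) = h.cr' ν := h.comp_rr ν
theorem cr_cr' (ν : T →* ℂˣ) : h.cr (h.cr' ν) = ν := h.comp_rr' ν
theorem cr'_cr (ν : T →* ℂˣ) : h.cr' (h.cr ν) = ν := by rw [← h.cr_cr, h.cr_cr ν, h.cr_cr']
theorem cr'_cr' (ν : T →* ℂˣ) : h.cr' (h.cr' ν) = h.cr ν := by rw [← h.cr_cr, h.cr_cr']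

theorem card_Ob {ν : T →* ℂˣ} (P : Pr ν) (e : ν ≠ 1) : (h.Ob ν).card = 3 := by
  have a : h.cr ν ≠ ν := fun e' => e (h.fpf P e')
  have b : h.cr' ν ≠ ν := fun e' => a (by conv_lhs => rw [← e', h.cr_cr'])
  have c : h.cr ν ≠ h.cr' ν := fun e' => b (by rw [← h.cr_cr, e', h.cr_cr'])
  rw [Ob, card_insert_of_notMem (by simp [a.symm, b.symm]), card_pair c]

theorem Ob_mem {ν ν' : T →* ℂˣ} (e : ν' ∈ h.Ob ν) : h.Ob ν' = h.Ob ν := by
  simp only [Ob, mem_insert, mem_singleton] at e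
  rcases e with rfl | rfl | rfl <;> ext <;> simp only [Ob, mem_insert, mem_singleton, cr_cr, cr_cr', cr'_cr, cr'_cr'] <;>
    tauto

theorem self_Ob (ν : T →* ℂˣ) : ν ∈ h.Ob ν := by simp [Ob]

theorem Ob_disj {ν ν' : T →* ℂˣ} (e : ν' ∉ h.Ob ν) : Disjoint (h.Ob ν) (h.Ob ν') :=
  disjoint_left.2 fun a h1 h2 => e (by rw [← h.Ob_mem h1, h.Ob_mem h2]; exact h.self_Ob _)

theorem one_Ob {ν : T →* ℂˣ} (e : ν ≠ 1) : 1 ∉ h.Ob ν := fun e' => e (by
  have := h.self_Ob ν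
  rw [← h.Ob_mem e'] at this
  simp only [Ob, mem_insert, mem_singleton] at this
  rcases this with a | a | a <;> exact a)

theorem nd_r {χ : G → ℂ} (cf : χ ∈ CF G) (ν : T →* ℂˣ) : nd (Fu q Z x r χ) (h.cr ν) = nd (Fu q Z x r χ) ν := by
  rw [nd, nd, cr, h.co_r fun g hg => h.Fs_r cf hg]

theorem Ob_val {m : (T →* ℂˣ) → ℤ} (k : ∀ ν, m (h.cr ν) = m ν) {ν ν' : T →* ℂˣ} (P : Pr ν) (e : ν' ∈ h.Ob ν) :
    Pr ν' ∧ m ν' = m ν := by
  simp only [Ob, mem_insert, mem_singleton] at e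
  rcases e with rfl | rfl | rfl
  · exact ⟨P, rfl⟩
  · exact ⟨P.comp _, k _⟩
  · exact ⟨P.comp _, by rw [← h.cr_cr, k, k]⟩

theorem nd_u {χ : G → ℂ} (cf : χ ∈ CF G) (θ : Y →* ℂˣ) : nd (Fa q Z x χ) (h.cu θ) = nd (Fa q Z x χ) θ := by
  rw [nd, nd, h.co_u cf]

theorem cu_ne {θ θ' : Y →* ℂˣ} (e : ∃ y y' : Y, (y' : G) = u * y * u⁻¹ ∧ θ y' ≠ θ' y) : h.cu θ ≠ θ' := fun e' => by
  obtain ⟨y, y', a, b⟩ := e
  exact b (by rw [← e', show y' = cjH h.uY y from Subtype.ext a]; rfl)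

theorem ne_one {θ : Y →* ℂˣ} (e : h.cu θ ≠ θ) : θ ≠ 1 := fun e' => e (by rw [e']; rfl)

theorem ne_sY {θ : Y →* ℂˣ} (e : h.cu θ ≠ θ) (μ : C →* ℂˣ) : h.sY μ ≠ θ ∧ h.sY μ ≠ h.cu θ :=
  ⟨fun e' => e (by rw [← e', h.cu_sY]), fun e' => e (by rw [← h.cu_cu θ, ← e', h.cu_sY, h.cu_sY])⟩

theorem ext_sY {θ : Y →* ℂˣ} (P : Pr θ) (e : h.cu θ = θ) : ∃ μ, Pr μ ∧ h.sY μ = θ := by
  obtain ⟨μ, hμ⟩ := h.extY θ fun y y' a => by
    conv_rhs => rw [← e]
    rw [show y' = cjH h.uY y from Subtype.ext a]; rfl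
  have e1 : h.sY μ = θ := MonoidHom.ext fun y => hμ y _ rfl
  obtain ⟨k, hk⟩ := P.pow'
  have : μ ^ 2 ^ k = 1 := h.resY_inj (by
    rw [← e1] at hk; exact MonoidHom.ext fun y => DFunLike.congr_fun hk y)
  exact ⟨μ, fun g o => eq_one_of_pow (DFunLike.congr_fun this g) o (by
    rw [← map_pow, pow_orderOf_eq_one, map_one]), e1⟩

theorem N8 : 8 ≤ (II Y).card := by
  have a1 := h.cu_ne h.n1
  have a2 := h.cu_ne h.n2
  have a3 := h.cu_ne h.n12'
  have a4 : θ1 ≠ h.cu θ2 := fun e => a3 ((congrArg h.cu e).trans (h.cu_cu _))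
  have a5 : h.cu θ1 ≠ h.cu θ2 := fun e => h.n12 (by rw [← h.cu_cu θ1, e, h.cu_cu])
  refine pow_ge (a := 2) (card_II Y) (lt_of_lt_of_le ?_ (card_le_card
    (s := {1, θ1, h.cu θ1, θ2, h.cu θ2}) fun a ha => mem_II.2 ?_))
  · rw [card_insert_of_notMem, card_insert_of_notMem, card_insert_of_notMem, card_pair a2.symm]
    · norm_num
    · simp [a3, a5]
    · simp [a1.symm, h.n12, a4]
    · simp [(h.ne_one a1).symm, (h.ne_one a2).symm, eq_comm (a := (1 : Y →* ℂˣ)), h.cu_eq_one, h.ne_one a1,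
        h.ne_one a2]
  · simp only [mem_insert, mem_singleton] at ha
    rcases ha with rfl | rfl | rfl | rfl | rfl
    exacts [Pr.one, h.P1, h.P1.comp _, h.P2, h.P2.comp _]

theorem cu_t (θ : Y →* ℂˣ) : h.cu θ ⟨t, h.ZY h.tZ⟩ = θ ⟨t, h.ZY h.tZ⟩ := by
  simp only [cu, MonoidHom.comp_apply]; congr 1; exact Subtype.ext (h.cs.conjZ h.tZ h.uC)

theorem lbT {m : (T →* ℂˣ) → ℤ} (mr : ∀ ν, m (h.cr ν) = m ν) (m1 : m 1 = 0) (c : ℝ) {ν : T →* ℂˣ} (P : Pr ν)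
    {e : ℤ} (e0 : 0 < e) (he : e ≤ m ν ^ 2) {a : ℕ} (a0 : 0 < a) (ha : a ≤ ((II T).filter fun i => m i = 0).card) :
    (a : ℝ) * 3 * e ≤ (∑ ν ∈ II T, ((m ν : ℝ) + c) ^ 2) * (a + 3) := by
  have ν1 : ν ≠ 1 := fun e' => by rw [e', m1] at he; omega
  simpa using lb (II T) m c (K := h.Ob ν) (fun i hi => mem_II.2 (h.Ob_val mr P hi).1) e0
    (fun i hi => by rw [(h.Ob_val mr P hi).2]; exact he) a0 ha (h.card_Ob P ν1).ge

omit h in
theorem ev4 {a : ℤ} (e : Even a) (a0 : a ≠ 0) : 4 ≤ a ^ 2 := by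
  obtain ⟨b, hb⟩ := e
  have : b ≠ 0 := fun e => a0 (by rw [hb, e]; rfl)
  rw [hb]; nlinarith [Int.one_le_abs this, sq_abs b, abs_nonneg b]

omit h in
theorem sq1 {a : ℤ} (a0 : a ≠ 0) : 1 ≤ a ^ 2 := by nlinarith [Int.one_le_abs a0, sq_abs a]

omit h in
theorem lbn {ι : Type*} (I : Finset ι) (n : ι → ℤ) (c : ℝ) (a b : ℕ) (a0 : 0 < a)
    (ha : a ≤ (I.filter fun i => n i = 0).card) (hb : b ≤ (I.filter fun i => ¬ n i = 0).card) :
    (a : ℝ) * b ≤ (∑ ν ∈ I, ((n ν : ℝ) + c) ^ 2) * (a + b) := by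
  simpa using lb I n c (filter_subset _ _) one_pos (fun i hi => sq1 (mem_filter.1 hi).2) a0 ha hb

theorem combY {m : (T →* ℂˣ) → ℤ} {n : (Y →* ℂˣ) → ℤ} {c c' : ℝ}
    (bes : ∑ ν ∈ II T, ((m ν : ℝ) + c) ^ 2 + 3 * ∑ ν ∈ II Y, ((n ν : ℝ) + c') ^ 2 < 6) (m1 : m 1 = 0) (n1' : n 1 = 0)
    (mr : ∀ ν, m (h.cr ν) = m ν) (nu : ∀ θ, n (h.cu θ) = n θ) (par : ∀ μ, Even (m (h.sT μ) + n (h.sY μ)))
    (n1 : n θ1 = -1) (n2 : n θ2 = 0) :
    (∀ ν, Pr ν → m ν = 0) ∧ ∀ θ, Pr θ → θ ≠ θ1 → θ ≠ h.cu θ1 → n θ = 0 := by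
  have LT := @lbT _ _ _ _ _ _ _ _ _ _ _ _ _ _ _ _ _ _ _ _ h m mr m1 c
  have L := lbn (II Y) n c'
  have L' := @lb _ (II Y) n c'
  have VT0 : 0 ≤ ∑ ν ∈ II T, ((m ν : ℝ) + c) ^ 2 := sum_nonneg fun _ _ => sq_nonneg _
  generalize ∑ ν ∈ II T, ((m ν : ℝ) + c) ^ 2 = VT at *
  generalize ∑ ν ∈ II Y, ((n ν : ℝ) + c') ^ 2 = VY at *
  have a1 := h.cu_ne h.n1
  have a2 := h.cu_ne h.n2
  have c3 : ({1, θ2, h.cu θ2} : Finset _).card = 3 := by
    rw [card_insert_of_notMem (by simp [eq_comm (a := (1 : Y →* ℂˣ)), h.cu_eq_one, h.ne_one a2]), card_pair a2.symm]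
  have s3 : {1, θ2, h.cu θ2} ⊆ (II Y).filter fun i => n i = 0 := fun a ha => by
    simp only [mem_insert, mem_singleton] at ha
    rcases ha with e | e | e <;> rw [e, mem_filter, mem_II]
    exacts [⟨Pr.one, n1'⟩, ⟨h.P2, n2⟩, ⟨h.P2.comp _, (nu _).trans n2⟩]
  have z3 := c3.ge.trans (card_le_card s3)
  have s2 : {θ1, h.cu θ1} ⊆ (II Y).filter fun i => ¬ n i = 0 := fun a ha => by
    simp only [mem_insert, mem_singleton] at ha
    rcases ha with e | e <;> rw [e, mem_filter, mem_II]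
    exacts [⟨h.P1, by omega⟩, ⟨h.P1.comp _, by rw [nu]; omega⟩]
  have k2 := (card_pair a1.symm).ge.trans (card_le_card s2)
  have N := h.N8
  rw [← card_filter_add_card_filter_not fun i => n i = 0] at N
  have V1 : 3 / 2 ≤ VY := by
    rcases k2.eq_or_lt with e | e
    · have := L 6 2 (by norm_num) (by omega) k2; push_cast at this; linarith
    · have := L 3 3 (by norm_num) z3 e; push_cast at this; linarith
  have V2 : 3 ≤ ((II Y).filter fun i => ¬ n i = 0).card → 15 / 8 ≤ VY := fun k3 => by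
    rcases k3.eq_or_lt with e | e
    · have := L 5 3 (by norm_num) (by omega) k3; push_cast at this; linarith
    rcases (show 4 ≤ _ from e).eq_or_lt with e' | e'
    · have := L 4 4 (by norm_num) (by omega) e; push_cast at this; linarith
    · have := L 3 5 (by norm_num) z3 e'; push_cast at this; linarith
  have z1 : 1 ≤ ((II T).filter fun i => m i = 0).card := card_pos.2 ⟨1, mem_filter.2 ⟨mem_II.2 Pr.one, m1⟩⟩
  have lT : Pr (h.sT lam) := h.lP.comp _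
  have m0 : ∀ ν, Pr ν → m ν = 0 := fun ν P => by
    by_contra e
    have b1 := LT P one_pos (sq1 e) one_pos z1
    have k : ((II Y).filter fun i => ¬ n i = 0).card ≤ 2 := by
      by_contra k; have := V2 (by omega); push_cast at b1; linarith
    have : n (h.sY lam) = 0 := by
      by_contra e
      have : h.sY lam ∈ (II Y).filter fun i => ¬ n i = 0 := mem_filter.2 ⟨mem_II.2 (h.lP.comp _), e⟩
      rw [← eq_of_subset_of_card_le s2 (by rwa [card_pair a1.symm])] at this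
      simp [h.ne_sY a1 lam] at this
    have p := par lam
    rw [this, add_zero] at p
    by_cases e0 : m (h.sT lam) = 0
    · have := LT P one_pos (sq1 e) (a := 4) (by norm_num) (by
        have := card_insert_of_notMem (h.one_Ob (h.sT1 h.lam1))
        rw [h.card_Ob lT (h.sT1 h.lam1)] at this
        refine this.ge.trans (card_le_card fun a ha => ?_)
        rcases mem_insert.1 ha with e | ha
        · exact mem_filter.2 ⟨mem_II.2 (e ▸ Pr.one), e ▸ m1⟩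
        · exact mem_filter.2 ⟨mem_II.2 (h.Ob_val mr lT ha).1, (h.Ob_val mr lT ha).2.trans e0⟩)
      push_cast at this; linarith
    · have := LT lT (by norm_num) (ev4 p e0) one_pos z1
      push_cast at this; linarith
  have nμ : ∀ μ, Pr μ → n (h.sY μ) = 0 := fun μ P => by
    by_contra e
    have p := par μ
    rw [m0 (h.sT μ) (P.comp _), zero_add] at p
    have := L' (K := {h.sY μ}) (singleton_subset_iff.2 (mem_II.2 (P.comp _))) (e := 4) (by norm_num)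
      (fun i hi => by rw [mem_singleton.1 hi]; exact ev4 p e) (a := 3) (b := 1) (by norm_num) z3 (by simp)
    push_cast at this; linarith
  refine ⟨m0, fun θ P b1 b2 => ?_⟩
  by_contra e
  by_cases b : h.cu θ = θ
  · obtain ⟨μ, Pμ, rfl⟩ := h.ext_sY P b
    exact e (nμ μ Pμ)
  have := L 4 4 (by norm_num) (by
    have := card_insert_of_notMem (s := {1, θ2, h.cu θ2}) (a := h.sY lam) (by
      simp [h.ne_sY a2 lam, h.sY1 h.lam1])
    rw [c3] at this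
    exact this.ge.trans (card_le_card (insert_subset (mem_filter.2 ⟨mem_II.2 (h.lP.comp _), nμ _ h.lP⟩) s3))) (by
    have b3 : h.cu θ ≠ θ1 := fun e => b2 ((h.cu_cu _).symm.trans (congrArg h.cu e))
    have b4 : h.cu θ ≠ h.cu θ1 := fun e => b1 ((h.cu_cu _).symm.trans ((congrArg h.cu e).trans (h.cu_cu _)))
    have : ({θ, h.cu θ, θ1, h.cu θ1} : Finset _).card = 4 := by
      rw [card_insert_of_notMem (by simp [Ne.symm b, b1, b2]), card_insert_of_notMem (by simp [b3, b4]),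
        card_pair a1.symm]
    exact this.ge.trans (card_le_card (insert_subset (mem_filter.2 ⟨mem_II.2 P, e⟩)
      (insert_subset (mem_filter.2 ⟨mem_II.2 (P.comp _), by rwa [nu]⟩) s2))))
  push_cast at this; linarith

theorem detY {y : G → ℂ} (hy : Dirr y) (hB : proj (B0 2 G) y = y) (e1 : ⟪y, h.al θ1⟫ = 1) (e2 : ⟪y, h.al θ2⟫ = 0) :
    (∀ θ, Pr θ → θ ≠ θ1 → θ ≠ h.cu θ1 → ⟪y, h.al θ⟫ = 0) ∧ y t = 1 + q := by
  have hz := hy.mem_ZIrr
  have cf := ZIrr.mem_CF hz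
  obtain ⟨⟨c, c', bes⟩, val⟩ := h.data hy hB
  have n1 : nd (Fa q Z x y) θ1 = -1 := by
    rw [h.ndY hz h.P1, neg_eq_iff_eq_neg] at e1; exact_mod_cast e1
  have n2 : nd (Fa q Z x y) θ2 = 0 := by
    rw [h.ndY hz h.P2, neg_eq_zero] at e2; exact_mod_cast e2
  obtain ⟨m0, n0⟩ := h.combY bes (nd_one _ _) (nd_one _ _) (h.nd_r cf) (h.nd_u cf) (h.par hz) n1 n2
  refine ⟨fun θ P b1 b2 => by rw [h.ndY hz P, n0 θ P b1 b2]; simp, ?_⟩
  rw [val, recon (S := ∅) (by simp) fun ν P _ => m0 ν P, recon (S := {θ1, h.cu θ1}) (fun ν hν => by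
    simp only [mem_insert, mem_singleton] at hν
    rcases hν with e | e <;> rw [e]
    exacts [⟨h.P1, n1⟩, ⟨h.P1.comp _, (h.nd_u cf _).trans n1⟩]) fun ν P hν => by
      simp only [mem_insert, mem_singleton, not_or] at hν
      exact n0 ν P hν.1 hν.2, sum_pair (h.cu_ne h.n1).symm, h.cu_t, h.θt _ rfl]
  simp; ring

theorem lam_t : lam ⟨t, h.TC h.tT⟩ = 1 := h.linH lam _ h.tH

theorem sT_t : h.sT lam ⟨t, h.tT⟩ = 1 ∧ h.sT lam ⟨u, h.uT⟩ = -1 ∧ h.cr (h.sT lam) ⟨t, h.tT⟩ = -1 ∧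
    h.cr (h.sT lam) ⟨u, h.uT⟩ = -1 ∧ h.cr' (h.sT lam) ⟨t, h.tT⟩ = -1 ∧ h.cr' (h.sT lam) ⟨u, h.uT⟩ = 1 := by
  have v : ∀ g : C, (g : G) = t * u → lam g = -1 := fun g e => by
    rw [show g = ⟨t, h.TC h.tT⟩ * ⟨u, h.uC⟩ from Subtype.ext e, map_mul, h.lam_t, h.lu _ rfl, one_mul]
  refine ⟨h.lam_t, h.lu _ rfl, h.lu _ h.rt, v _ h.ru, v _ ?_, h.linH lam _ ?_⟩
  · show r⁻¹ * t * r⁻¹⁻¹ = _
    rw [← h.rv]; conv_rhs => rw [h.rv]
    group
  · show r⁻¹ * u * r⁻¹⁻¹ ∈ H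
    rw [← h.rt, show r⁻¹ * (r * t * r⁻¹) * r⁻¹⁻¹ = t by group]; exact h.tH

theorem sd_cases (hs : ∀ g ∈ T, Odd (orderOf g) ∨ Odd (orderOf (t * g)) ∨ Odd (orderOf (u * g)) ∨
    Odd (orderOf (t * u * g))) {ν : T →* ℂˣ} (P : Pr ν) : ν = 1 ∨ ν ∈ h.Ob (h.sT lam) := by
  have ext : ∀ a b : T →* ℂˣ, Pr a → Pr b → a ⟨t, h.tT⟩ = b ⟨t, h.tT⟩ → a ⟨u, h.uT⟩ = b ⟨u, h.uT⟩ → a = b := by
    intro a b Pa Pb e1 e2
    refine MonoidHom.ext fun g => ?_
    have key : ∀ i : T, a i = b i → Odd (orderOf ((i : G) * g)) → a g = b g := fun i e o => by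
      have o' : Odd (orderOf (i * g)) := by rwa [← orderOf_coe]
      have := (Pa _ o').trans (Pb _ o').symm
      rwa [map_mul, map_mul, e, mul_left_cancel_iff] at this
    rcases hs g g.2 with o | o | o | o
    · exact key 1 (by simp) (by simpa using o)
    · exact key _ e1 o
    · exact key _ e2 o
    · exact key (⟨t, h.tT⟩ * ⟨u, h.uT⟩) (by rw [map_mul, map_mul, e1, e2]) o
  have sg : ∀ i : T, (i : G) * i = 1 → ν i = 1 ∨ ν i = -1 := fun i e => by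
    have : ν i * ν i = 1 := by rw [← map_mul, show i * i = 1 from Subtype.ext e, map_one]
    exact (mul_self_eq_one_iff.1 (congrArg Units.val this)).imp (fun e => Units.ext e) fun e => Units.ext e
  have lT : Pr (h.sT lam) := h.lP.comp _
  obtain ⟨a1, a2, a3, a4, a5, a6⟩ := h.sT_t
  simp only [Ob, mem_insert, mem_singleton]
  rcases sg ⟨t, h.tT⟩ h.t2 with e1 | e1 <;> rcases sg ⟨u, h.uT⟩ h.u2 with e2 | e2
  · exact Or.inl (ext _ _ P Pr.one e1 e2)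
  · exact Or.inr (Or.inl (ext _ _ P lT (e1.trans a1.symm) (e2.trans a2.symm)))
  · exact Or.inr (Or.inr (Or.inr (ext _ _ P (lT.comp _) (e1.trans a5.symm) (e2.trans a6.symm))))
  · exact Or.inr (Or.inr (Or.inl (ext _ _ P (lT.comp _) (e1.trans a3.symm) (e2.trans a4.symm))))

theorem sT_Ob {μ μ' : C →* ℂˣ} (P : Pr μ) (e1 : μ ≠ 1) (e : μ' ≠ μ) : h.sT μ' ∉ h.Ob (h.sT μ) := by
  have a := h.res_r_ne (μ' := μ') P e1
  simp only [Ob, mem_insert, mem_singleton, not_or]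
  exact ⟨fun e' => e (h.resT_inj e'), a.1.symm, a.2.symm⟩

theorem combT {m : (T →* ℂˣ) → ℤ} {c : ℝ} (bes : ∑ ν ∈ II T, ((m ν : ℝ) + c) ^ 2 < 27 / 8) (m1 : m 1 = 0)
    (mr : ∀ ν, m (h.cr ν) = m ν) (par : ∀ μ, Pr μ → μ ≠ lam → Even (m (h.sT μ))) (ml : m (h.sT lam) = -1)
    {ν : T →* ℂˣ} (P : Pr ν) (hν : ν ∉ h.Ob (h.sT lam)) : m ν = 0 := by
  rcases h.cas with l2 | hs
  swap
  · rw [(h.sd_cases hs P).resolve_right hν, m1]
  have L := lbn (II T) m c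
  have L' := lev (II T) m c
  generalize ∑ ν ∈ II T, ((m ν : ℝ) + c) ^ 2 = VT at *
  have lT : Pr (h.sT lam) := h.lP.comp _
  have sub : ∀ ν, Pr ν → ∀ (p : ℤ → Prop) [DecidablePred p], p (m ν) → h.Ob ν ⊆ (II T).filter fun i => p (m i) :=
    fun ν P p _ e a ha =>
    mem_filter.2 ⟨mem_II.2 (h.Ob_val mr P ha).1, (h.Ob_val mr P ha).2 ▸ e⟩
  have mμ : ∀ μ, Pr μ → μ ≠ 1 → μ ≠ lam → m (h.sT μ) = 0 := fun μ Pμ b1 b2 => by
    by_contra e
    obtain ⟨k, hk⟩ := par μ Pμ b2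
    have := L' {0, -1, m (h.sT μ)}
    rw [sum_insert (by simp; omega), sum_pair (by omega)] at this
    have z1 : (1 : ℝ) ≤ ((II T).filter fun i => m i = 0).card := by
      exact_mod_cast card_pos.2 ⟨1, mem_filter.2 ⟨mem_II.2 Pr.one, m1⟩⟩
    have z2 : (3 : ℝ) ≤ ((II T).filter fun i => m i = -1).card := by
      exact_mod_cast (h.card_Ob lT (h.sT1 h.lam1)).ge.trans (card_le_card (sub _ lT (· = -1) ml))
    have z3 : (3 : ℝ) ≤ ((II T).filter fun i => m i = m (h.sT μ)).card := by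
      exact_mod_cast (h.card_Ob (ν := h.sT μ) (Pμ.comp _) (h.sT1 b1)).ge.trans
        (card_le_card (sub (h.sT μ) (Pμ.comp _) (· = _) rfl))
    have : (24 : ℤ) ≤ 3 + 3 * m (h.sT μ) ^ 2 + 9 * (m (h.sT μ) + 1) ^ 2 := by
      rcases (show 2 ≤ m (h.sT μ) ∨ m (h.sT μ) ≤ -2 by omega) with a | a <;> nlinarith
    have : (24 : ℝ) ≤ 3 + 3 * (m (h.sT μ) : ℝ) ^ 2 + 9 * ((m (h.sT μ) : ℝ) + 1) ^ 2 := by exact_mod_cast this
    push_cast at *
    generalize (m (h.sT μ) : ℝ) = a at *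
    nlinarith [sq_nonneg (7 * c + 3 * (a - 1)), mul_le_mul_of_nonneg_right z1 (sq_nonneg (0 + c)),
      mul_le_mul_of_nonneg_right z2 (sq_nonneg (-1 + c)), mul_le_mul_of_nonneg_right z3 (sq_nonneg (a + c))]
  have l1 := h.lam1
  have b1 : lam⁻¹ ≠ 1 := by simpa using l1
  have b2 : lam⁻¹ ≠ lam := fun e => l2 (by nth_rw 1 [← e]; simp)
  have b3 : lam * lam ≠ lam := by simpa using l1
  have b4 : lam⁻¹ ≠ lam * lam := fun e => l1 (MonoidHom.ext fun g => by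
    obtain ⟨k, hk⟩ := h.lP.pow g
    refine eq_one_of_pow hk (m := 3) (by decide) ?_
    have := DFunLike.congr_fun e g
    simp only [MonoidHom.inv_apply, MonoidHom.mul_apply] at this
    rw [pow_succ, sq, ← this, inv_mul_cancel])
  have P2 := h.lP.mul h.lP
  have P3 := h.lP.inv
  have z7 : 7 ≤ ((II T).filter fun i => m i = 0).card := by
    have := card_insert_of_notMem (a := 1) (s := h.Ob (h.sT (lam * lam)) ∪ h.Ob (h.sT lam⁻¹)) (by
      simp [h.one_Ob (h.sT1 l2), h.one_Ob (h.sT1 b1)])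
    rw [card_union_of_disjoint (h.Ob_disj (h.sT_Ob P2 l2 b4)), h.card_Ob (ν := h.sT _) (P2.comp _) (h.sT1 l2),
      h.card_Ob (ν := h.sT _) (P3.comp _) (h.sT1 b1)] at this
    exact this.ge.trans (card_le_card (insert_subset (mem_filter.2 ⟨mem_II.2 Pr.one, m1⟩)
      (union_subset (sub _ (P2.comp _) (· = 0) (mμ _ P2 l2 b3)) (sub _ (P3.comp _) (· = 0) (mμ _ P3 b1 b2)))))
  by_contra e
  have k6 : 6 ≤ ((II T).filter fun i => ¬ m i = 0).card := by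
    have := card_union_of_disjoint (h.Ob_disj hν)
    rw [h.card_Ob lT (h.sT1 l1), h.card_Ob P fun e' => e (e' ▸ m1)] at this
    exact this.ge.trans (card_le_card (union_subset (sub _ lT (¬ · = 0) (by omega)) (sub _ P (¬ · = 0) e)))
  have N := pow_ge (a := 3) (card_II T) (by
    rw [← card_filter_add_card_filter_not fun i => m i = 0]; omega)
  rw [← card_filter_add_card_filter_not fun i => m i = 0] at N
  rcases k6.eq_or_lt with e | e
  · have := L 10 6 (by norm_num) (by omega) k6; push_cast at this; linarith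
  · have := L 7 7 (by norm_num) z7 e; push_cast at this; linarith

theorem detB {c d : G → ℂ} (hc : Dirr c) (hd : Dirr d) (cB : proj (B0 2 G) c = c) (dB : proj (B0 2 G) d = d)
    (e : h.be = 1 + c + d) (ed : ∀ θ, Pr θ → θ ≠ 1 → ⟪d, h.al θ⟫ = if h.sY lam = θ then 1 else 0) : d t = -q := by
  have hz := hd.mem_ZIrr
  have cf := ZIrr.mem_CF hz
  have hz' := hc.mem_ZIrr
  have cf' := ZIrr.mem_CF hz'
  obtain ⟨⟨a, a', bes⟩, val⟩ := h.data hd dB
  obtain ⟨⟨b, b', bes'⟩, -⟩ := h.data hc cB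
  have lT : Pr (h.sT lam) := h.lP.comp _
  have lY : Pr (h.sY lam) := h.lP.comp _
  have n0 : ∀ θ, Pr θ → θ ≠ h.sY lam → nd (Fa q Z x d) θ = 0 := fun θ P e => by
    by_cases e1 : θ = 1
    · rw [e1, nd_one]
    · have := ed θ P e1
      rw [h.ndY hz P, if_neg e.symm, neg_eq_zero] at this; exact_mod_cast this
  have n1 : nd (Fa q Z x d) (h.sY lam) = -1 := by
    have := ed _ lY (h.sY1 h.lam1)
    rw [h.ndY hz lY, if_pos rfl, neg_eq_iff_eq_neg] at this; exact_mod_cast this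
  have V1 := lb (II Y) (nd (Fa q Z x d)) a' (K := {h.sY lam}) (singleton_subset_iff.2 (mem_II.2 lY)) one_pos
    (fun i hi => by rw [mem_singleton.1 hi, n1]; norm_num) (a := 7) (b := 1) (by norm_num) (by
      have := card_le_card (s := (II Y).erase (h.sY lam)) (t := (II Y).filter fun i => nd (Fa q Z x d) i = 0)
        fun i hi => mem_filter.2 ⟨(mem_erase.1 hi).2, n0 i (mem_II.1 (mem_erase.1 hi).2) (mem_erase.1 hi).1⟩
      rw [card_erase_of_mem (mem_II.2 lY)] at this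
      have := h.N8; omega) (by simp)
  have add : nd (Fu q Z x r c) (h.sT lam) + nd (Fu q Z x r d) (h.sT lam) = -3 := by
    have a := h.res_r_ne (μ' := 1) h.lP h.lam1
    have b := h.res_r_ne (μ' := lam) h.lP h.lam1
    have a1 : h.cr (h.sT lam) ≠ 1 := a.1
    have a2 : h.cr' (h.sT lam) ≠ 1 := a.2
    have b1 : h.cr (h.sT lam) ≠ h.sT lam := b.1
    have b2 : h.cr' (h.sT lam) ≠ h.sT lam := b.2
    have k : ∀ ν : T →* ℂˣ, co (Fu q Z x r h.be) ν = co (Fu q Z x r 1) ν + co (Fu q Z x r c) ν + co (Fu q Z x r d) ν :=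
      fun ν => by
        simp only [co, ← mul_add, ← sum_add_distrib, e]
        congr 1
        refine sum_congr rfl fun g _ => ?_
        simp only [Fu, Sy, mm, Pi.add_apply]
        split_ifs <;> ring
    have k1 := k 1
    have k2 := k (h.sT lam)
    rw [h.co_beT, co_oneT] at k1 k2
    simp only [(h.sT1 h.lam1).symm, h.sT1 h.lam1, a1, a2, b1, b2, if_true, if_false] at k1 k2
    refine Int.cast_injective (α := ℂ) ?_
    push_cast
    rw [nd_eq (h.int_fc hz), nd_eq (h.int_fc hz')]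
    linear_combination k1 - k2
  have z1 : ∀ F : G → ℂ, 1 ≤ ((II T).filter fun i => nd F i = 0).card := fun F =>
    card_pos.2 ⟨1, mem_filter.2 ⟨mem_II.2 Pr.one, nd_one _ _⟩⟩
  have p := h.par hz lam
  rw [n1] at p
  obtain ⟨k, hk⟩ := p
  have V0 : 0 ≤ ∑ ν ∈ II Y, ((nd (Fa q Z x c) ν : ℝ) + b') ^ 2 := sum_nonneg fun _ _ => sq_nonneg _
  have bes2 : ∑ ν ∈ II T, ((nd (Fu q Z x r d) ν : ℝ) + a) ^ 2 < 27 / 8 := by push_cast at V1; linarith
  have ml : nd (Fu q Z x r d) (h.sT lam) = -1 := by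
    by_contra e
    by_cases e' : nd (Fu q Z x r d) (h.sT lam) = 1
    · have := h.lbT (h.nd_r cf') (nd_one _ _) b lT (e := 16) (by norm_num) (by
        rw [show nd (Fu q Z x r c) (h.sT lam) = -4 by omega]; norm_num) one_pos (z1 _)
      push_cast at this; linarith
    · have := h.lbT (h.nd_r cf) (nd_one _ _) a lT (e := 9) (by norm_num) (by
        rcases (show 3 ≤ nd (Fu q Z x r d) (h.sT lam) ∨ nd (Fu q Z x r d) (h.sT lam) ≤ -3 by omega) with a | a <;>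
          nlinarith) one_pos (z1 _)
      push_cast at this; linarith
  have m0 := @combT _ _ _ _ _ _ _ _ _ _ _ _ _ _ _ _ _ _ _ _ h _ _ bes2 (nd_one _ _) (h.nd_r cf) (fun μ P e => by
    have := h.par hz μ
    rwa [n0 (h.sY μ) (P.comp _) fun e' => e (h.resY_inj e'), add_zero] at this) ml
  obtain ⟨a1, -, a3, -, a5, -⟩ := h.sT_t
  have c3 := h.card_Ob lT (h.sT1 h.lam1)
  have b := h.res_r_ne (μ' := lam) h.lP h.lam1
  have b1 : h.cr (h.sT lam) ≠ h.sT lam := b.1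
  have b2 : h.cr' (h.sT lam) ≠ h.sT lam := b.2
  have b3 : h.cr (h.sT lam) ≠ h.cr' (h.sT lam) := fun e => b2 (by rw [← h.cr_cr, e, h.cr_cr'])
  rw [val, recon (S := h.Ob (h.sT lam)) (fun ν hν => ⟨(h.Ob_val (h.nd_r cf) lT hν).1,
    (h.Ob_val (h.nd_r cf) lT hν).2.trans ml⟩) fun ν P hν => m0 P hν, recon (S := {h.sY lam})
      (fun ν hν => by rw [mem_singleton.1 hν]; exact ⟨lY, n1⟩) fun ν P hν => n0 ν P (by simpa using hν),
    Ob, sum_insert (by simp [b1.symm, b2.symm]), sum_pair b3, a1, a3, a5, sum_singleton,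
    show h.sY lam ⟨t, h.ZY h.tZ⟩ = 1 from h.lam_t]
  simp; ring

end CU

theorem realizeEqns_Bu_Ch3 : True := by
  have := @CA.Bu.CU.Ob.eq_1.{0}
  have := @CA.Bu.CU.Ob.eq_def.{0}
  have := @CA.Bu.CU.Ob.congr_simp.{0}
  trivial

end CA.Bu
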