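import Cfsg.Agent.Bu.Ch3

/-!
# The two degree equations (unitary case)
-/

set_option autoImplicit false
set_option linter.unusedSectionVars false
set_option linter.unusedVariables false

open Cfsg Subgroup CA.Chr CA.Dih CA.Blk CA.Br Finset
open scoped ComplexConjugate Classical

namespace CA.Bu

universe u

variable {G : Type u} [Group G] [Fintype G]

namespace CU

variable {q : ℕ} {C Z T Y U X H Y1 : Subgroup G} {t w u x r : G} {lam : C →* ℂˣ} {θ1 θ2 : Y →* ℂˣ}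
  (h : CU q C Z T Y U X H Y1 t w u x r lam θ1 θ2)
include h

theorem deg3 {χ : G → ℂ} (hχ : Dirr χ) {d e : ℤ} (hd : χ 1 = d) (he : χ t = e) :
    4 ∣ d + 3 * e ∧ (0 < d → 0 ≤ d + 3 * e) ∧ (d < 0 → d + 3 * e ≤ 0) := by
  have f : GW.BA.Four t u := ⟨⟨h.t2, h.t1⟩, ⟨h.u2, h.u1⟩, h.ut.symm, h.tu⟩
  have key : ∀ ψ, IsIrrCharacter G ψ → ∃ n : ℕ, ψ 1 + 3 * ψ t = 4 * n := fun ψ hψ => by
    obtain ⟨n, hn⟩ := IsChar.dot_nat (IsChar.comp (IsIrr.isChar hψ) (GW.BA.V4 t u).subtype) IsChar.one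
    have s : ∀ k : G → ℂ, ∑ g : GW.BA.V4 t u, k g = k 1 + (k t + (k u + k (t * u))) := fun k => by
      rw [← sum_subtype (s := {1, t, u, t * u}) (fun g => by simp [f.mem]), sum_insert, sum_insert, sum_pair h.vu.symm]
      · simp [h.ut.symm, h.u1]
      · simp [h.t1.symm, h.u1.symm, h.v1.symm]
    have c : (Nat.card (GW.BA.V4 t u) : ℂ) = 4 := by
      have := s 1
      simp only [Pi.one_apply, sum_const, card_univ, nsmul_eq_mul, mul_one] at this
      rw [Nat.card_eq_fintype_card, this]; norm_num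
    have cf := IsIrr.mem_CF hψ
    rw [dot_def, c] at hn
    simp only [Function.comp, coe_subtype, Pi.one_apply, map_one, mul_one, s] at hn
    rw [← CF_isConj cf (h.cj u h.u2 h.u1), ← CF_isConj cf (h.cj _ h.v2 h.v1)] at hn
    exact ⟨n, by linear_combination 4 * hn⟩
  obtain ⟨ε, ψ, hε, hψ, rfl⟩ := hχ.exists_sign
  obtain ⟨n, hn⟩ := key ψ hψ
  obtain ⟨m, m0, hm⟩ := IsIrr.exists_deg hψ
  simp only [Pi.smul_apply, smul_eq_mul] at hd he
  have e1 : d + 3 * e = ε * (4 * n) := Int.cast_injective (α := ℂ) (by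
    push_cast; rw [← hd, ← he, ← hn]; ring)
  have e2 : d = ε * m := Int.cast_injective (α := ℂ) (by push_cast; rw [← hd, hm])
  rcases hε with rfl | rfl <;> omega

theorem card_invs : (invs G).card = C.index := by
  rw [h.hC, ← card_class]
  congr 1
  ext i
  simp only [mem_invs, mem_filter, mem_univ, true_and]
  refine ⟨fun e => h.cj i e.1 e.2, fun e => ?_⟩
  obtain ⟨g, rfl⟩ := isConj_iff.1 e
  exact mem_invs.1 ((conj_mem_invs g).2 (mem_invs.2 ⟨h.t2, h.t1⟩))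

theorem Phi_Ph (a b : G → ℂ) : Phi (Ph q C Z Y T U x (DD t) b a) = C.index * (q * (q - 1) / 2 *
    ((q + 1) * ∑ g : H, (if (g : G) ∈ DD t then a g else 0) - 2 * q * a t) +
      q * (q + 1) / 2 * ((q - 1) * ∑ g : Y1, if (g : G) ∈ DD t then b g else 0)) := by
  have cf : (fun g => (rr g : ℂ)) ∈ CF G := mem_CF.2 fun g c => by simp only [rr_conj]
  have e := congrArg conj (h.cs.dot_Ph (D := DD t) cf b a)
  have q0 := h.cs.q0
  have q1 : ((q - 1 : ℕ) : ℂ) = q - 1 := by have := h.q3; rw [Nat.cast_sub (by omega)]; simp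
  have mt : mm q Z x (fun g => (rr g : ℂ)) t = q - 1 := by
    simp only [mm, h.tZ, if_true, h.rrt, h.rrtx]; push_cast; rw [q1]; field_simp; ring
  have mz : ∀ z ∈ Z, z ∈ DD t → z ≠ t → mm q Z x (fun g => (rr g : ℂ)) z = 0 ∧ rr z = 0 := fun z hz hD e => by
    simp [mm, h.rrZ z hz hD e]
  have eT : conj (Br.SD T (DD t) (Fb q Z x fun g => (rr g : ℂ)) a) =
      (q + 1) * ∑ g : H, (if (g : G) ∈ DD t then a g else 0) - 2 * q * a t := by
    rw [Br.SD, ← sum_ite_sub T fun g => if g ∈ DD t then _ * conj (a g) else 0,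
      ← sum_ite_sub H fun g => if g ∈ DD t then a g else 0, map_sum, mul_sum,
      show 2 * q * a t = ∑ g, if g = t then 2 * q * a g else 0 by simp, ← sum_sub_distrib]
    refine sum_congr rfl fun g _ => ?_
    by_cases e : g = t
    · simp [e, h.tT, h.tH, h.tD, Fb, mt, h.rrt, q1]; ring
    by_cases hD : g ∈ DD t
    swap
    · simp [e, hD]
    by_cases hz : g ∈ Z
    · have : g ∉ H := fun k => (h.HZ g k hz).elim (fun k => h.oneD (k ▸ hD)) e
      simp [e, this, Fb, mz g hz hD e]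
    by_cases hT : g ∈ T
    · by_cases hH : g ∈ H <;> simp [e, hD, hT, hH, Fb, mm, hz, h.rrT g hT hD hz]
    · simp [e, hT, _root_.mt (@h.HT g) hT]
  have eY : conj (Br.SD Y (DD t) (Fa q Z x fun g => (rr g : ℂ)) b) =
      (q - 1) * ∑ g : Y1, if (g : G) ∈ DD t then b g else 0 := by
    rw [Br.SD, ← sum_ite_sub Y fun g => if g ∈ DD t then _ * conj (b g) else 0,
      ← sum_ite_sub Y1 fun g => if g ∈ DD t then b g else 0, map_sum, mul_sum]
    refine sum_congr rfl fun g _ => ?_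
    by_cases e : g = t
    · simp [e, h.ZY h.tZ, h.tY1, h.tD, Fa, mt, h.rrt, q1]; left; ring
    by_cases hD : g ∈ DD t
    swap
    · simp [hD]
    by_cases hz : g ∈ Z
    · have : g ∉ Y1 := fun k => (h.Y1Z g k hz).elim (fun k => h.oneD (k ▸ hD)) e
      simp [this, Fa, mz g hz hD e]
    by_cases hT : g ∈ Y
    · by_cases hH : g ∈ Y1 <;> simp [hD, hT, hH, Fa, mm, hz, h.rrY g hT hD hz, q1]
    · simp [hT, _root_.mt (@h.Y1Y g) hT]
  rw [map_add, map_mul, map_mul, eT, eY, dot_def, map_mul, map_sum] at e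
  simp only [map_mul, map_inv₀, map_natCast, Complex.conj_conj, map_ofNat] at e
  have c0 : (Nat.card G : ℂ) ≠ 0 := card_ne_zero
  rw [Phi, sum_pairs, ← mul_inv_cancel_left₀ c0 (∑ _, _), e, ← card_mul_index C, h.cs.kY', h.cs.kT']
  have := h.cs.q1; have := h.cs.q1'
  have : (Nat.card Z : ℂ) ≠ 0 := card_ne_zero
  push_cast; rw [h.cs.kC']; field_simp; ring

omit h in
theorem sum_D {A : Subgroup G} (hA : ∀ g ∈ A, g * g = 1 → g = 1 ∨ g = t) {a : G → ℂ}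
    (ha : ∀ g ∈ A, Odd (orderOf g) → a g = 0) : ∑ g : A, (if (g : G) ∈ DD t then a g else 0) = ∑ g : A, a g :=
  sum_congr rfl fun g _ => by
    split_ifs with hD
    · rfl
    · refine (ha g g.2 (by_contra fun o => hD ?_)).symm
      obtain ⟨i, hi, i2, i1⟩ := exists_inv_of_even o
      exact (hA i (zpowers_le.2 g.2 hi) i2).resolve_left i1 ▸ hi

omit h in
theorem sum_ex {A B : Subgroup G} (hA : A ≤ B) {ν : B →* ℂˣ} {g : G} (hg : g ∈ A) (e : ν ⟨g, hA hg⟩ = -1) :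
    ∑ a : A, (ν ⟨a, hA a.2⟩ : ℂ) = 0 :=
  sum_lin_eq_zero (l := ν.comp (inclusion hA)) fun e' => by
    have : ν ⟨g, hA hg⟩ = 1 := DFunLike.congr_fun e' ⟨g, hg⟩
    have := congrArg Units.val (e.symm.trans this)
    simp at this; norm_num at this

theorem Phi_al : Phi (h.al θ1) = C.index * (q * (q + 1) * (q - 1) ^ 2) := by
  rw [al, h.Phi_Ph, sum_D (A := Y1) (fun g hg => h.invY g (h.Y1Y hg)) fun g hg o => h.aY_odd h.P1 (h.Y1Y hg) o]
  have : ∀ g : Y1, aY u θ1 g = 2 - θ1 ⟨g, h.Y1Y g.2⟩ - h.cu θ1 ⟨g, h.Y1Y g.2⟩ := fun g => h.aY_coe θ1 ⟨g, h.Y1Y g.2⟩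
  simp only [this, sum_sub_distrib, sum_ex h.Y1Y h.tY1 (h.θt _ rfl),
    sum_ex h.Y1Y h.tY1 ((h.cu_t θ1).trans (h.θt _ rfl)), sum_const, card_univ, ← Nat.card_eq_fintype_card, h.kY1]
  have q1 : ((q - 1 : ℕ) : ℂ) = q - 1 := by have := h.q3; rw [Nat.cast_sub (by omega)]; simp
  simp [q1]; left; ring

theorem Sy_t : Sy r (Br.kC lam) t = 4 := by
  obtain ⟨a1, -, a3, -, a5, -⟩ := h.sT_t
  rw [h.Sy_coe lam ⟨t, h.tT⟩, a1, a3, a5]; norm_num

theorem Phi_be : Phi h.be = C.index * (q * (q - 1) ^ 3) := by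
  obtain ⟨-, -, a3, -, a5, -⟩ := h.sT_t
  rw [be, h.Phi_Ph, sum_D (A := Y1) (fun g hg => h.invY g (h.Y1Y hg)) fun g hg o => kC_odd h.lP (h.YC (h.Y1Y hg)) o,
    sum_D h.invH fun g hg o => h.Sy_odd (fun g hg o => kC_odd h.lP (h.TC hg) o) (h.HT hg) o, h.Sy_t]
  have e1 : ∀ g : Y1, Br.kC lam g = 0 := fun g => by
    rw [Br.kC, ex_mem lam (h.YC (h.Y1Y g.2)), h.linY1 lam _ g.2]; simp
  have e2 : ∀ g : H, Sy r (Br.kC lam) g = 2 - h.cr (h.sT lam) ⟨g, h.HT g.2⟩ - h.cr' (h.sT lam) ⟨g, h.HT g.2⟩ := fun g => by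
    rw [h.Sy_coe lam ⟨g, h.HT g.2⟩, show h.sT lam ⟨g, h.HT g.2⟩ = 1 from h.linH lam _ g.2]; simp; ring
  simp only [e1, e2, sum_sub_distrib, sum_ex h.HT h.tH a3, sum_ex h.HT h.tH a5, sum_const, card_univ,
    ← Nat.card_eq_fintype_card, h.kH, nsmul_eq_mul]
  push_cast; ring

theorem Phi_three {a b : G → ℂ} (ha : Dirr a) (hb : Dirr b) {P : ℂ} (e : Phi (1 + a + b) = C.index * P) :
    C.index * (a 1 * b 1 + b 1 * a t ^ 2 + a 1 * b t ^ 2) = P * a 1 * b 1 := by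
  have e1 := Phi_dirr h.cj ha
  have e2 := Phi_dirr h.cj hb
  rw [Phi_add, Phi_add, Phi_one, h.card_invs] at e
  rw [h.card_invs] at e1 e2
  have : (C.index : ℂ) ≠ 0 := Nat.cast_ne_zero.2 index_ne_zero_of_finite
  apply mul_left_cancel₀ this
  linear_combination a 1 * b 1 * e - b 1 * e1 - a 1 * e2

theorem al_t : h.al θ1 t = 2 + 2 * q := by
  rw [al, h.cs.Ph_Z h.td _ _ h.tZ h.tD, h.aY_coe θ1 ⟨t, h.ZY h.tZ⟩, h.cu_t, h.θt _ rfl]; simp; ring

theorem be_t : h.be t = 2 * (1 - q) := by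
  rw [be, h.cs.Ph_Z h.td _ _ h.tZ h.tD, h.Sy_t, Br.kC, ex_mem lam (h.TC h.tT), h.lam_t]; simp; ring

end CU

end CA.Bu
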