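import Cfsg.Agent.Bu.Ch4

/-!
# The order formula (unitary case)
-/

set_option autoImplicit false
set_option linter.unusedSectionVars false
set_option linter.unusedVariables false

open Cfsg Subgroup CA.Chr CA.Dih CA.Blk CA.Br Finset
open scoped ComplexConjugate Classical

namespace CA.Bu

universe u

variable {G : Type u} [Group G] [Fintype G]

namespace CU

variable {q : ℕ} {C Z T Y U X H Y1 : Subgroup G} {t w u x r : G} {lam : C →* ℂˣ} {θ1 θ2 : Y →* ℂˣ}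
  (h : CU q C Z T Y U X H Y1 t w u x r lam θ1 θ2)
include h

theorem al_odd (θ : Y →* ℂˣ) {g : G} (o : Odd (orderOf g)) : h.al θ g = 0 := h.Ph_odd _ _ o

theorem nrm_al {θ : Y →* ℂˣ} (P : Pr θ) (e : θ ≠ 1) : nrm (h.al θ - 1) = if h.cu θ = θ then 3 else 2 := by
  rw [nrm_sub_one (n := if h.cu θ = θ then 4 else 3) _ (h.al_one P e)]
  · split_ifs <;> norm_num
  · rw [h.al_al P P e e]; split_ifs <;> simp_all <;> norm_num

theorem alpha0 : ∃ (a b : G → ℂ) (s : ℤ), Dirr a ∧ Dirr b ∧ ⟪a, b⟫ = 0 ∧ ⟪a, 1⟫ = 0 ∧ ⟪b, 1⟫ = 0 ∧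
    h.al θ1 = 1 + a + b ∧ ⟪b, h.al θ2⟫ = 0 ∧ (∀ θ, Pr θ → θ ≠ 1 → ⟪a, h.al θ⟫ = 1) ∧ a 1 = -s ∧ a t = q ∧
    (C.index : ℤ) * (s + q) ^ 2 = q * (q + 1) * (q - 1) ^ 2 * s * (s - 1) ∧ (3 * q ≤ s ∨ s ≤ -3 * q - 2) ∧ Odd s := by
  have a1 := h.cu_ne h.n1
  have a2 := h.cu_ne h.n2
  have a3 := h.cu_ne h.n12'
  have z1 := h.al_ZIrr h.P1
  have z2 := h.al_ZIrr h.P2
  have : ∃ a b, Dirr a ∧ Dirr b ∧ ⟪a, b⟫ = 0 ∧ ⟪a, 1⟫ = 0 ∧ ⟪b, 1⟫ = 0 ∧ h.al θ1 = 1 + a + b ∧
      proj (B0 2 G) b = b ∧ ⟪h.al θ2 - 1, b⟫ = 0 := by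
    obtain ⟨a, b, ha, hb, ab, a0, b0, e, pa, pb⟩ := three z1 (by
      rw [h.al_al h.P1 h.P1 (h.ne_one a1) (h.ne_one a1)]; simp [a1]; norm_num) (h.al_one h.P1 (h.ne_one a1))
      fun g => h.al_odd _
    rcases two_split (sub_mem z2 (one_mem _)) (by rw [h.nrm_al h.P2 (h.ne_one a2), if_neg a2]; norm_num) ha hb (by
      rw [show a + b = h.al θ1 - 1 by rw [e]; abel, dot_sub_left, dot_sub_right, dot_sub_right,
        ZIrr.dot_comm z2 z1, h.al_al h.P1 h.P2 (h.ne_one a1) (h.ne_one a2), h.al_one h.P1 (h.ne_one a1),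
        ZIrr.dot_comm z2 (one_mem _), h.al_one h.P2 (h.ne_one a2), dot_one_one]
      simp [a3, h.n12]; norm_num) with k | k
    · exact ⟨a, b, ha, hb, ab, a0, b0, e, pb, k.2⟩
    · exact ⟨b, a, hb, ha, dot_comm_zero ab, b0, a0, by rw [e]; abel, pa, k.1⟩
  obtain ⟨a, b, ha, hb, ab, a0, b0, e, pb, k⟩ := this
  have k2 : ⟪b, h.al θ2⟫ = 0 := by
    rw [dot_sub_left, dot_comm_zero b0, sub_zero] at k; exact dot_comm_zero k
  have k1 : ⟪b, h.al θ1⟫ = 1 := by rw [e, dot_add_right, dot_add_right, b0, dot_comm_zero ab, hb.dot_self]; simp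
  obtain ⟨v, bt⟩ := h.detY hb pb k1 k2
  have at' : a t = q := by
    have := h.al_t
    rw [e] at this
    simp only [Pi.add_apply, Pi.one_apply, bt] at this
    linear_combination this
  obtain ⟨d, hd⟩ := ZIrr.deg_int ha.mem_ZIrr
  have b1 : b 1 = ((-d - 1 : ℤ) : ℂ) := by
    have := h.al_odd θ1 (g := 1) (by simp)
    rw [e] at this
    simp only [Pi.add_apply, Pi.one_apply, hd] at this
    push_cast; linear_combination this
  have d0 : d ≠ 0 := fun e => ha.deg_ne_zero (by rw [hd, e]; simp)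
  have d1 : -d - 1 ≠ 0 := fun e => hb.deg_ne_zero (by rw [b1, e]; simp)
  have D1 := h.deg3 ha hd (e := q) (by simpa using at')
  have D2 := h.deg3 hb b1 (e := 1 + q) (by simpa using bt)
  refine ⟨a, b, -d, ha, hb, ab, a0, b0, e, k2, fun θ P t1 => ?_, by simp [hd], at', ?_, by omega, ?_⟩
  · have := h.al_al h.P1 P (h.ne_one a1) t1
    rw [e, dot_add_left, dot_add_left, h.al_one P t1] at this
    by_cases c1 : θ = θ1
    · rw [c1] at this ⊢; simp only [k1, a1, if_true, if_false] at this; linear_combination this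
    by_cases c2 : θ = h.cu θ1
    · have k3 : ⟪b, h.al θ⟫ = 1 := by
        rw [c2, h.ndY hb.mem_ZIrr (θ := h.cu θ1) (h.P1.comp _), h.nd_u (ZIrr.mem_CF hb.mem_ZIrr),
          ← h.ndY hb.mem_ZIrr h.P1, k1]
      rw [k3, if_neg (Ne.symm c1), if_pos c2.symm] at this; linear_combination this
    · rw [v θ P c1 c2, if_neg (Ne.symm c1), if_neg (Ne.symm c2)] at this; linear_combination this
  · have := h.Phi_three ha hb (e ▸ h.Phi_al)
    rw [hd, b1, at', bt] at this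
    refine Int.cast_injective (α := ℂ) ?_
    push_cast at this ⊢
    linear_combination -this
  · obtain ⟨k, hk⟩ := h.qo
    obtain ⟨l, hl⟩ := D1.1
    exact ⟨3 * k - 2 * l + 1, by omega⟩

theorem alpha : ∃ (ψ χ1 χ2 : G → ℂ) (s : ℤ), Dirr ψ ∧ Dirr χ1 ∧ Dirr χ2 ∧ ⟪ψ, 1⟫ = 0 ∧ ⟪χ1, 1⟫ = 0 ∧ ⟪χ2, 1⟫ = 0 ∧
    ⟪ψ, χ1⟫ = 0 ∧ ⟪ψ, χ2⟫ = 0 ∧ ⟪χ1, χ2⟫ = 0 ∧ ψ 1 = s ∧ ψ t = -q ∧ (3 * q ≤ s ∨ s ≤ -3 * q - 2) ∧
    (C.index : ℤ) * (s + q) ^ 2 = q * (q + 1) * (q - 1) ^ 2 * s * (s - 1) ∧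
    ∀ g, (Odd (orderOf g) ∨ (g ∈ T ∧ g ∉ Z ∧ t ∈ zpowers g)) → 1 + χ1 g - ψ g = 0 ∧ 1 + χ2 g - ψ g = 0 := by
  obtain ⟨a, b, s, ha, hb, ab, a0, b0, e, k, v, a1, at', A, bd, -⟩ := h.alpha0
  have a2 := h.cu_ne h.n2
  have z2 := h.al_ZIrr h.P2
  have k1 : ⟪h.al θ2 - 1, a⟫ = 1 := by
    rw [dot_sub_left, dot_comm_zero a0, ZIrr.dot_comm z2 ha.mem_ZIrr, v _ h.P2 (h.ne_one a2), sub_zero]
  have hc := dirr_sub (sub_mem z2 (one_mem _)) (by rw [h.nrm_al h.P2 (h.ne_one a2), if_neg a2]) ha k1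
  have val : ∀ θ g, (Odd (orderOf g) ∨ (g ∈ T ∧ g ∉ Z ∧ t ∈ zpowers g)) → h.al θ g = 0 := fun θ g hg =>
    hg.elim (h.al_odd θ) fun k => h.cs.Ph_Y h.td _ (fun _ _ => rfl) k.1 k.2.1 k.2.2
  refine ⟨-a, b, h.al θ2 - 1 - a, s, ha.neg, hb, hc, by simp [dot_neg_left, a0], b0, ?_, by simp [dot_neg_left, ab],
    ?_, ?_, by simp [a1], by simp [at'], bd, A, fun g hg => ⟨?_, ?_⟩⟩
  · rw [dot_sub_left, dot_sub_left, a0, ZIrr.dot_comm z2 (one_mem _), h.al_one h.P2 (h.ne_one a2), dot_one_one]; simp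
  · rw [dot_neg_left, dot_sub_right, dot_sub_right, v _ h.P2 (h.ne_one a2), a0, ha.dot_self]; simp
  · rw [dot_sub_right, dot_sub_right, k, b0, dot_comm_zero ab]; simp
  · have := val θ1 g hg
    rw [e] at this
    simp only [Pi.add_apply, Pi.one_apply, Pi.neg_apply] at this ⊢
    linear_combination this
  · simp [val θ2 g hg]; ring

theorem beta : ∃ b : ℤ, (C.index : ℤ) * (b - q) ^ 2 = q * (q - 1) ^ 3 * b * (b - 1) ∧
    (3 * q - 2 ≤ b ∨ b ≤ -3 * q) := by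
  obtain ⟨a, b, s, ha, hb, ab, a0, b0, e, -, v, a1, -, -, -, so⟩ := h.alpha0
  have n1 := h.cu_ne h.n1
  have lY : Pr (h.sY lam) := h.lP.comp _
  have zb := h.be_ZIrr
  have : ∃ c d, Dirr c ∧ Dirr d ∧ ⟪c, d⟫ = 0 ∧ ⟪c, 1⟫ = 0 ∧ ⟪d, 1⟫ = 0 ∧ h.be = 1 + c + d ∧
      proj (B0 2 G) c = c ∧ proj (B0 2 G) d = d ∧ ⟪h.al (h.sY lam) - 1, d⟫ = 1 := by
    obtain ⟨c, d, hc, hd, cd, c0, d0, e, pc, pd⟩ := three zb h.be_be h.be_one fun g => h.Ph_odd _ _
    have z := h.al_ZIrr lY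
    rcases two_split (sub_mem z (one_mem _)) (by rw [h.nrm_al lY (h.sY1 h.lam1), if_pos (h.cu_sY _)]; norm_num) hc hd
      (by
      rw [show c + d = h.be - 1 by rw [e]; abel, dot_sub_left, dot_sub_right, dot_sub_right,
        ZIrr.dot_comm z zb, h.be_al lY (h.sY1 h.lam1), h.be_one,
        ZIrr.dot_comm z (one_mem _), h.al_one lY (h.sY1 h.lam1), dot_one_one]
      simp) with k | k
    · exact ⟨d, c, hd, hc, dot_comm_zero cd, d0, c0, by rw [e]; abel, pd, pc, k.1⟩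
    · exact ⟨c, d, hc, hd, cd, c0, d0, e, pc, pd, k.2⟩
  obtain ⟨c, d, hc, hd, cd, c0, d0, eb, pc, pd, k⟩ := this
  have zB := add_mem hc.mem_ZIrr hd.mem_ZIrr
  have nB : nrm (c + d) = 2 := by rw [nrm_add_of_orth cd, hc.nrm, hd.nrm]; norm_num
  have ab1 : a 1 + b 1 = -1 := by
    have := h.al_odd θ1 (g := 1) (by simp)
    rw [e] at this
    simp only [Pi.add_apply, Pi.one_apply] at this
    linear_combination this
  have cd1 : c 1 + d 1 = -1 := by
    have : h.be 1 = 0 := h.Ph_odd _ _ (by simp)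
    rw [eb] at this
    simp only [Pi.add_apply, Pi.one_apply] at this
    linear_combination this
  have dB : ∀ θ, Pr θ → θ ≠ 1 → h.sY lam ≠ θ → ⟪c, h.al θ⟫ + ⟪d, h.al θ⟫ = 0 := fun θ P t1 t2 => by
    have := h.be_al P t1
    rw [eb, dot_add_left, dot_add_left, h.al_one P t1, if_neg t2] at this
    linear_combination this
  have Ba : ⟪c + d, a⟫ = 0 := by
    have := dB θ1 h.P1 (h.ne_one n1) (h.ne_sY n1 lam).1
    rw [← dot_add_left, e, dot_add_right, dot_add_right, dot_add_left c d 1, c0, d0] at this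
    rcases ZIrr.dot_cases_of_nrm_lt_four zB (by rw [nB]; norm_num) ha with k | k | k
    · have := congrFun (eq_add_two zB nB ha.neg hb (by rw [dot_neg_right, k, neg_neg])
        (by rw [k] at this; linear_combination this) (by rw [dot_neg_left, ab, neg_zero])) 1
      simp only [Pi.add_apply, Pi.neg_apply] at this
      exact absurd (by linear_combination (this + ab1 - cd1) / 2) ha.deg_ne_zero
    · exact k
    · have := congrFun (eq_add_two zB nB ha hb.neg k (by rw [k] at this; rw [dot_neg_right]; linear_combination -this)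
        (by rw [dot_neg_right, ab, neg_zero])) 1
      simp only [Pi.add_apply, Pi.neg_apply] at this
      exact absurd (by linear_combination (this + ab1 - cd1) / 2) hb.deg_ne_zero
  have ac := orth_of hc ha (by rw [dot_add_left, hc.dot_self, dot_comm_zero cd, add_zero]) Ba
  have ad := orth_of hd ha (by rw [dot_add_left, hd.dot_self, cd, zero_add]) Ba
  obtain ⟨m, hm⟩ := ZIrr.deg_int hd.mem_ZIrr
  have c1 : c 1 = ((-m - 1 : ℤ) : ℂ) := by push_cast; rw [← hm]; linear_combination cd1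
  have dt := h.detB hc hd pc pd eb fun θ P t1 => by
    have z := h.al_ZIrr P
    have sw : ∀ y, Dirr y → ⟪y, 1⟫ = 0 → ⟪h.al θ - 1, y⟫ = ⟪y, h.al θ⟫ := fun y hy y0 => by
      rw [dot_sub_left, dot_comm_zero y0, ZIrr.dot_comm z hy.mem_ZIrr, sub_zero]
    split_ifs with t2
    · rw [← sw d hd d0, ← t2, k]
    have k1 := dB θ P t1 t2
    have n3 : nrm (h.al θ - 1) ≤ 3 := by rw [h.nrm_al P t1]; split_ifs <;> norm_num
    have ka := (sw a ha a0).trans (v θ P t1)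
    have o1 : (h.al θ - 1) 1 = -1 := by simp [h.al_odd θ (g := 1) (by simp)]
    obtain ⟨j, hj⟩ := so
    rcases ZIrr.dot_cases_of_nrm_lt_four (sub_mem z (one_mem _)) (n3.trans_lt (by norm_num)) hd with k | k | k
    · have := congrFun (eq_three n3 ha hc hd.neg ac (by rw [dot_neg_right, ad, neg_zero])
        (by rw [dot_neg_right, cd, neg_zero]) ka (by rw [sw d hd d0] at k; rw [sw c hc c0]; linear_combination k1 - k)
        (by rw [dot_neg_right, k, neg_neg])) 1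
      simp only [o1, Pi.add_apply, Pi.neg_apply, a1, c1, hm] at this
      have : (-1 : ℤ) = -s + (-m - 1) + -m := by exact_mod_cast this
      omega
    · rw [← sw d hd d0, k]
    · have := congrFun (eq_three n3 ha hc.neg hd (by rw [dot_neg_right, ac, neg_zero]) ad
        (by rw [dot_neg_left, cd, neg_zero]) ka (by
          rw [sw d hd d0] at k; rw [dot_neg_right, sw c hc c0]; linear_combination k - k1) k) 1
      simp only [o1, Pi.add_apply, Pi.neg_apply, a1, c1, hm] at this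
      have : (-1 : ℤ) = -s + -(-m - 1) + m := by exact_mod_cast this
      omega
  have ct : c t = 1 - q := by
    have := h.be_t
    rw [eb] at this
    simp only [Pi.add_apply, Pi.one_apply, dt] at this
    linear_combination this
  have m0 : m ≠ 0 := fun e => hd.deg_ne_zero (by rw [hm, e]; simp)
  have m1 : -m - 1 ≠ 0 := fun e => hc.deg_ne_zero (by rw [c1, e]; simp)
  have D1 := h.deg3 hd hm (e := -q) (by simpa using dt)
  have D2 := h.deg3 hc c1 (e := 1 - q) (by simpa using ct)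
  refine ⟨-m, ?_, by omega⟩
  have := h.Phi_three hc hd (eb ▸ h.Phi_be)
  rw [hm, c1, dt, ct] at this
  refine Int.cast_injective (α := ℂ) ?_
  push_cast at this ⊢
  linear_combination -this

theorem main : ∃ y z : ℤ, y ∣ q * (q ^ 2 - 1) ∧ z ∣ q * (q - 1) ^ 2 ∧ y + z = 1 - q ∧
    (C.index : ℤ) = (q ^ 2 - 1 + y) * (q ^ 2 - q + y) ∧ -((q : ℤ) ^ 2 - 1) ≤ 4 * y ∧ 2 * y ≤ q * (q - 1) := by
  obtain ⟨-, -, s, -, -, -, -, -, -, -, -, -, -, A, bs, -⟩ := h.alpha0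
  obtain ⟨b, B, bb⟩ := h.beta
  have q3 : (3 : ℤ) ≤ q := by exact_mod_cast h.q3
  generalize (q : ℤ) = q at *
  generalize (C.index : ℤ) = n at *
  have k0 : s + q ≠ 0 := by omega
  have l0 : b - q ≠ 0 := by omega
  obtain ⟨y, hy⟩ := int_root (M := q * (q ^ 2 - 1)) (c := -(2 * q + 1) * (q - 1)) k0
    ⟨n - q * (q + 1) * (q - 1) ^ 2, by linear_combination -A⟩
  obtain ⟨z, hz⟩ := int_root (M := q * (q - 1) ^ 2) (c := (2 * q - 1) * (q - 1)) l0
    ⟨n - q * (q - 1) ^ 3, by linear_combination -B⟩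
  have e1 : n = (q ^ 2 - 1 + -y) * (q ^ 2 - q + -y) := mul_right_cancel₀ (pow_ne_zero 2 k0) (by
    linear_combination A + (-(2 * q + 1) * (q - 1) * (s + q) + q * (q ^ 2 - 1) + (s + q) * y) * hy)
  have e2 : n = (q ^ 2 - 1 + (1 - q + z)) * (q ^ 2 - q + (1 - q + z)) := mul_right_cancel₀ (pow_ne_zero 2 l0) (by
    linear_combination B + ((2 * q - 1) * (q - 1) * (b - q) + q * (q - 1) ^ 2 + (b - q) * z) * hz)
  have p1 : 0 < q ^ 2 - 1 := by nlinarith
  have p2 : 0 < q * (q ^ 2 - 1) := by positivity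
  have y1 : -(q ^ 2 - 1) ≤ 4 * -y := by
    by_contra k
    rcases bs with e | e
    · nlinarith [mul_le_mul (show 4 * q ≤ s + q by omega) (show q ^ 2 ≤ 4 * y by omega) (by positivity) (by omega)]
    · nlinarith [mul_pos (show 0 < -(s + q) by omega) (show 0 < y by omega)]
  have y2 : 2 * -y ≤ q * (q - 1) := by
    by_contra k
    have : 0 < q * (q - 1) := mul_pos (by omega) (by omega)
    rcases bs with e | e
    · nlinarith [mul_pos (show 0 < s + q by omega) (show 0 < -y by omega)]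
    · nlinarith [mul_le_mul (show 2 * (q + 1) ≤ -(s + q) by omega) (show q * (q - 1) + 1 ≤ 2 * -y by omega)
        (by positivity) (by omega)]
  have z1 : -(q - 1) ^ 2 ≤ 4 * z := by
    by_contra k
    have : 0 < (q - 1) ^ 2 := pow_pos (by omega) 2
    have : 0 < q * (q - 1) ^ 2 := by positivity
    rcases bb with e | e
    · nlinarith [mul_pos (show 0 < b - q by omega) (show 0 < -z by omega)]
    · nlinarith [mul_le_mul (show 4 * q ≤ -(b - q) by omega) (show (q - 1) ^ 2 + 1 ≤ -(4 * z) by omega)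
        (by positivity) (by omega)]
  refine ⟨-y, -z, (Dvd.intro_left _ hy.symm).neg_left, (Dvd.intro_left _ hz.symm).neg_left, ?_, e1, y1, y2⟩
  have : (-y - (1 - q + z)) * (-y + (1 - q + z) + 2 * q ^ 2 - q - 1) = 0 := by linear_combination e2 - e1
  rcases mul_eq_zero.1 this with e | e
  · linarith
  · nlinarith

end CU

end CA.Bu
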