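import Cfsg.Agent.Bu.Ch5
import Cfsg.Agent.Bu.Base3
import Cfsg.Agent.Br.Gcd

/-!
# No fusion of `t` and `u` in the centraliser of a central element
-/

set_option autoImplicit false
set_option linter.unusedSectionVars false

open Cfsg Subgroup CA.Chr CA.Dih CA.FG CA.BG CA.GW CA.GW.BA CA.Br

namespace CA.Bu

universe u v

variable {G : Type u} [Group G] {K : Type v} [Field K] [StarRing K] {φ : U2 K →* G} {q : ℕ}

theorem BU.main [Finite G] (h : BU φ q) : ∃ y z : ℤ, y ∣ (q : ℤ) * (q ^ 2 - 1) ∧ z ∣ (q : ℤ) * (q - 1) ^ 2 ∧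
    y + z = 1 - q ∧ (φ.range.index : ℤ) = (q ^ 2 - 1 + y) * (q ^ 2 - q + y) ∧ -((q : ℤ) ^ 2 - 1) ≤ 4 * y ∧
    2 * y ≤ q * (q - 1) := by
  have := Fintype.ofFinite G
  obtain ⟨r, hr⟩ := h.exists_rho
  obtain ⟨w, s, hs, lam, θ1, θ2, c⟩ := h.cu hr
  exact c.main

theorem BU.noFus [Finite G] [IsSimpleGroup G] (h : BU φ q) :
    ∀ a ∈ Zt φ, a ≠ 1 → ∀ g ∈ centralizer {a}, g * tt φ * g⁻¹ ≠ uu φ := by
  intro a aZ a1 g hg e
  set M : Subgroup G := centralizer {a}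
  have CM : ∀ g, φ g ∈ M := fun g => mem_centralizer_singleton_iff.2 (cen aZ ⟨g, rfl⟩).symm
  let ψ := φ.codRestrict M CM
  have kψ : ψ.ker = φ.ker := MonoidHom.ker_codRestrict _ _ _
  have hψ : BU ψ q := ⟨⟨h.fq, h.odd, fun g e => h.kerc g (congrArg Subtype.val e), kψ ▸ h.kero⟩, by
    ext g
    rw [mem_centralizer_singleton_iff, Subtype.ext_iff]
    have := SetLike.ext_iff.1 h.rng (g : G)
    rw [mem_centralizer_singleton_iff] at this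
    exact ⟨fun ⟨m, hm⟩ => this.1 ⟨m, congrArg Subtype.val hm⟩, fun e => by
      obtain ⟨m, hm⟩ := this.2 e
      exact ⟨m, Subtype.ext hm⟩⟩, isConj_iff.2 ⟨⟨g, hg⟩, Subtype.ext e⟩⟩
  obtain ⟨y, -, -, -, -, e1, b0, b⟩ := h.main
  obtain ⟨y', -, -, -, -, e', b', -⟩ := hψ.main
  have i : ψ.range.index * M.index = φ.range.index := by
    rw [← relIndex_mul_index (H := φ.range) (K := M) (by rintro _ ⟨g, rfl⟩; exact CM g)]
    congr 2
    ext g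
    exact ⟨fun ⟨m, hm⟩ => ⟨m, congrArg Subtype.val hm⟩, fun ⟨m, hm⟩ => ⟨m, Subtype.ext hm⟩⟩
  have q3 := h.toUK.q3
  have tu : tt φ ≠ uu φ := fun k => by
    have a : tt φ ∈ Zt φ := h.toUK.mem_Zt.2 (dg_cen _)
    rw [k] at a
    have := (mem_cen.1 (h.toUK.mem_Zt.1 a)).1
    simp [uU] at this
  have nc : ¬ IsMulCommutative G := fun cm => by
    rw [cm.is_comm.comm g, mul_inv_cancel_right] at e
    exact tu e
  have M1 : M ≠ ⊤ := fun e => by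
    rcases IsSimpleGroup.eq_bot_or_eq_top_of_normal (center G) inferInstance with k | k
    · exact a1 (mem_bot.1 (k ▸ mem_center_iff.2 fun g => mem_centralizer_singleton_iff.1 (e ▸ mem_top g : g ∈ M)))
    · exact nc ⟨⟨fun x y => mem_center_iff.1 (k ▸ mem_top y : y ∈ center G) x⟩⟩
  have i4 : M.index ≤ 4 := by
    by_contra k
    have k5 : (5 : ℤ) ≤ M.index := by omega
    have i' : (ψ.range.index : ℤ) * M.index = φ.range.index := by exact_mod_cast i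
    have q3' : (3 : ℤ) ≤ q := by exact_mod_cast q3
    generalize (q : ℤ) = q at *
    have f1 := mul_le_mul (show 2 * (q ^ 2 - 1 + y) ≤ 3 * q ^ 2 - q - 2 by linarith)
      (show 2 * (q ^ 2 - q + y) ≤ 3 * q ^ 2 - 3 * q by linarith) (by nlinarith) (by nlinarith)
    have f2 := mul_le_mul (show 3 * q ^ 2 - 3 ≤ 4 * (q ^ 2 - 1 + y') by linarith)
      (show 3 * q ^ 2 - 4 * q + 1 ≤ 4 * (q ^ 2 - q + y') by linarith) (by nlinarith) (by nlinarith)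
    have f3 := mul_le_mul_of_nonneg_left k5 (Int.natCast_nonneg ψ.range.index)
    have f4 : 0 < (q - 1) ^ 2 * (3 * q ^ 2 + 2 * q - 5) := mul_pos (pow_pos (by omega) 2) (by nlinarith)
    nlinarith
  have d := Nat.le_of_dvd (Nat.factorial_pos _) (two_mul_card_dvd_factorial nc M1)
  have := Nat.factorial_le i4
  have k := h.toUK.kC
  have := card_le_card_group φ.range
  have : 0 < Nat.card (Zt φ) := Nat.card_pos
  have : 8 ≤ q ^ 2 - 1 := by have : 9 ≤ q ^ 2 := by nlinarith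
                             omega
  have : 3 * 8 * 1 ≤ Nat.card φ.range := k ▸ Nat.mul_le_mul (Nat.mul_le_mul q3 this) ‹_›
  simp only [Nat.factorial] at *
  omega

theorem CU.cenZ [Fintype G] {C Z T Y U X H Y1 : Subgroup G} {t w u x r : G} {lam : C →* ℂˣ} {θ1 θ2 : Y →* ℂˣ}
    (h : CU q C Z T Y U X H Y1 t w u x r lam θ1 θ2) {a : G} (aZ : a ∈ Z)
    (iso : ∀ g ∈ 𝒞[a], Commute t (g * t * g⁻¹) → g * t * g⁻¹ = t) : 𝒞[a] = C := by
  have f : Four t u := ⟨⟨h.t2, h.t1⟩, ⟨h.u2, h.u1⟩, h.ut.symm, h.tu⟩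
  have CM : C ≤ 𝒞[a] := fun c hc => mem_c1.2 (h.cen a aZ c hc).symm
  have oO : IsPiGrp {2}ᶜ (pPrimeCoreOf 2 𝒞[a]) := pcore_piGrp _ _
  have nO : 𝒞[a] ≤ 𝒩(pPrimeCoreOf 2 𝒞[a]) := pcore_norm _ _
  have key : ∀ ρ j : G, ρ * j * ρ⁻¹ = t → j ≠ 1 → w * (ρ * t * ρ⁻¹) * w⁻¹ = t * (ρ * t * ρ⁻¹) → j * t = t * j →
      (∀ g ∈ T, ρ * g * ρ⁻¹ ∈ T) → (∀ g, ρ * g * ρ⁻¹ ∈ T → g ∈ T) → pPrimeCoreOf 2 𝒞[a] ⊓ 𝒞[j] ≤ 𝒞[t] :=
    fun ρ j e j1 wi jt T1 T2 k hk => by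
    have a' := T1 a (h.ZT aZ)
    have kC : ρ * k * ρ⁻¹ ∈ C := by rw [h.hC, ← e, ← conjg_cent1]; exact conj_mem_conjg ρ hk.2
    by_cases z : ρ * a * ρ⁻¹ ∈ Z
    · have m : ρ⁻¹ * w * ρ ∈ 𝒞[a] := conj_eq_iff.1 (by
        calc _ = ρ⁻¹ * (w * (ρ * a * ρ⁻¹) * w⁻¹) * ρ := by group
          _ = _ := by rw [h.cs.conjZ z h.wC]; group)
      have e' : ρ⁻¹ * w * ρ * t * (ρ⁻¹ * w * ρ)⁻¹ = j * t := by
        calc _ = ρ⁻¹ * (w * (ρ * t * ρ⁻¹) * w⁻¹) * ρ := by group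
          _ = ρ⁻¹ * (ρ * j * ρ⁻¹ * (ρ * t * ρ⁻¹)) * ρ := by rw [wi, e]
          _ = _ := by group
      have := iso _ m (by rw [e']; exact (Commute.symm jt).mul_right (Commute.refl t))
      rw [e'] at this
      exact absurd (by simpa using this) j1
    · have c : ρ * k * ρ⁻¹ * (ρ * a * ρ⁻¹) * (ρ * k * ρ⁻¹)⁻¹ = ρ * a * ρ⁻¹ := by
        calc _ = ρ * (k * a * k⁻¹) * ρ⁻¹ := by group
          _ = _ := by rw [conj_eq_iff.2 (pcore_le _ _ hk.1)]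
      refine h.hC ▸ h.TC (T2 k ((h.tiT _ a' z _ kC (c.symm ▸ a')).elim id fun e => ?_))
      exact mem_of_sq (oO.conjg ρ) (conj_mem_conjg ρ hk.1) (h.ZT (h.cs.sqY e))
  have T2 : ∀ g, r * g * r⁻¹ ∈ T → g ∈ T := fun g hg => by simpa [mul_assoc] using h.rT' _ hg
  have wv : w * (t * u) * w⁻¹ = t * (t * u) := by
    rw [conj_mul', h.memC.1 h.wC, h.wu]
  have := f.gen oO (nO (CM (h.TC h.tT))) (nO (CM h.uC)) inf_le_right
    (key (r * r) u (by rw [← h.rv, ← h.ru]; group) h.u1 (by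
      rw [show r * r * t * (r * r)⁻¹ = r * (r * t * r⁻¹) * r⁻¹ by group, h.rt, h.ru, wv]) h.tu.symm
      (fun g hg => by convert h.rT _ (h.rT g hg) using 1; group)
      fun g hg => T2 _ (T2 _ (by convert hg using 1; group)))
    (key r (t * u) h.rv h.v1 (by rw [h.rt, h.wu]) (by rw [mul_assoc, h.tu]) h.rT T2)
  refine le_antisymm ?_ CM
  rw [← CA.Blk.Zstar_sup_of f.it.ord (CM (h.TC h.tT)) iso, h.hC]
  exact sup_le this inf_le_right

theorem BU.cenZ [Finite G] [IsSimpleGroup G] (h : BU φ q) : ∀ a ∈ Zt φ, a ≠ 1 → 𝒞[a] = φ.range := fun a aZ a1 => by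
  have := Fintype.ofFinite G
  obtain ⟨r, hr⟩ := h.exists_rho
  obtain ⟨w, s, hs, lam, θ1, θ2, c⟩ := h.cu hr
  refine c.cenZ aZ fun g hg e => by_contra fun ne => ?_
  obtain ⟨d, hd, e'⟩ := h.toUK.inv_cj (h.mem_C.2 e.symm.eq) (by rw [← conj_mul', tt_mul]; simp)
    (by simpa using h.toUK.t1) ne
  exact h.noFus a aZ a1 (d⁻¹ * g) (mul_mem (inv_mem (mem_c1.2 (cen aZ hd).symm)) hg) (by
    rw [show d⁻¹ * g * tt φ * (d⁻¹ * g)⁻¹ = d⁻¹ * (g * tt φ * g⁻¹) * d by group, ← e']; group)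

end CA.Bu
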