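import Mathlib

/-!
# Coordinates for a doubly transitive group of unitary type: the group law of the point stabiliser
-/

set_option autoImplicit false
set_option linter.unusedSectionVars false

namespace CA.Bu

variable {F : Type*} [Field F] [StarRing F] {G : Type*} [Group G] {Ω : Type*} [MulAction G Ω]

/-- the vector `(a, b, 1)` is isotropic -/
def PP (a b : F) : Prop := b + star b + a * star a = 0

theorem PP.zero : PP (0 : F) 0 := by simp [PP]

theorem PP.ne {a b : F} (h : PP a b) (ha : a ≠ 0) : b ≠ 0 := fun e => ha (by simpa [PP, e] using h)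

theorem PP.add {a b c : F} (h : PP a b) (hc : star c = -c) : PP a (b + c) := by
  simp only [PP, star_add, hc] at *; linear_combination h

theorem PP.sub {a b c : F} (h : PP a b) (h' : PP a c) : star (c - b) = -(c - b) := by
  simp only [PP, star_sub] at *; linear_combination h' - h

theorem PP.im {c : F} : PP 0 c ↔ star c = -c := by simp [PP, eq_neg_iff_add_eq_zero, add_comm]

theorem PP.smul {a b : F} (h : PP a b) (m : F) : PP (m * a) (m * star m * b) := by
  simp only [PP, star_mul', star_star] at *; linear_combination m * star m * h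

theorem PP.mul {a b a' b' : F} (h : PP a b) (h' : PP a' b') : PP (a + a') (b + b' - a' * star a) := by
  simp only [PP, star_mul', star_star, star_add, star_sub] at *; linear_combination h + h'

theorem PP.w {a b η : F} (h : PP a b) (hb : b ≠ 0) (hη : star η = -η) : PP (-(a * η / b)) (-(η * η / b)) := by
  have : star b ≠ 0 := by simpa using hb
  simp only [PP, star_mul', star_neg, star_div₀, hη] at *
  field_simp
  linear_combination -η ^ 2 * h

theorem PP.half (h2 : (2 : F) ≠ 0) (a : F) : PP a (-(a * star a) / 2) := by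
  simp only [PP, star_mul', star_neg, star_div₀, star_star, star_ofNat]; field_simp; ring

/-- the action in coordinates -/
structure Core (Q : Subgroup G) (inf : Ω) (pt : F → F → Ω) (ξ : F → G) (w : G) (η : F) : Prop where
  two : (2 : F) ≠ 0
  η0 : η ≠ 0
  ηs : star η = -η
  inj : ∀ {a b a' b'}, PP a b → PP a' b' → pt a b = pt a' b' → a = a' ∧ b = b'
  ne : ∀ {a b}, PP a b → pt a b ≠ inf
  sur : ∀ ω, ω = inf ∨ ∃ a b, PP a b ∧ ω = pt a b
  Qinf : ∀ x ∈ Q, x • inf = inf
  Qtr : ∀ {a b}, PP a b → ∃ x ∈ Q, x • pt 0 0 = pt a b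
  Qfr : ∀ x ∈ Q, x • pt 0 0 = pt 0 0 → x = 1
  ξQ : ∀ {c}, star c = -c → ξ c ∈ Q
  ξc : ∀ {c}, star c = -c → ∀ x ∈ Q, ξ c * x = x * ξ c
  ξa : ∀ {c a b}, star c = -c → PP a b → ξ c • pt a b = pt a (b + c)
  wi : w • inf = pt 0 0
  w0 : w • pt 0 0 = inf
  wa : ∀ {a b}, PP a b → b ≠ 0 → w • pt a b = pt (-(a * η / b)) (-(η * η / b))
  st : ∀ g : G, g • inf = inf → g • pt 0 0 = pt 0 0 → (∀ x ∈ Q, g * x * g⁻¹ ∈ Q) ∧
    ∃ m ≠ 0, ∀ a b, PP a b → g • pt a b = pt (m * a) (m * star m * b)
  re : ∀ l : F, l ≠ 0 → star l = l → ∃ g : G, g • inf = inf ∧ ∀ a b, PP a b → g • pt a b = pt (l * a) (l * star l * b)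
  iv : ∀ x ∈ Q, ∀ a b, PP a b → x • pt 0 0 = pt a b → ∃ b', PP (-a) b' ∧ x⁻¹ • pt 0 0 = pt (-a) b'
  three : (3 : F) = 0 → ∃ x ∈ Q, x ^ 3 = 1 ∧ ∃ a b, a ≠ 0 ∧ PP a b ∧ x • pt 0 0 = pt a b

/-- the invariant of the orbits of the torus -/
def JJ (a b : F) : F := (b - star b) / (a * star a)

theorem JJ_smul (a b : F) {m : F} (hm : m ≠ 0) : JJ (m * a) (m * star m * b) = JJ a b := by
  have : star m ≠ 0 := by simpa using hm
  simp only [JJ, star_mul', star_star]
  by_cases ha : a = 0
  · simp [ha]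
  have : star a ≠ 0 := by simpa using ha
  field_simp

theorem card_zero [Fintype F] {s : Finset F} {η : F} (h0 : η ≠ 0) (h : ∀ b, b + η ∈ s ↔ b ∈ s) : (s.card : F) = 0 := by
  have := Finset.sum_equiv (Equiv.addRight η) (s := s) (t := s) (f := fun b => b + η) (g := fun b => b)
    (fun b => (h b).symm) fun _ _ => rfl
  rw [Finset.sum_add_distrib, Finset.sum_const, nsmul_eq_mul, add_eq_left] at this
  exact (mul_eq_zero.1 this).resolve_right h0

theorem const_of [Fintype F] [DecidableEq F] {η : F} (h0 : η ≠ 0) (hη : star η = -η) {f : F → F}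
    (h1 : ∀ l a, l ≠ 0 → star l = l → a ≠ 0 → f (l * a) = f a)
    (h2 : ∀ a, a ≠ 0 → ∑ b ∈ Finset.univ.filter (fun b => b + star b + a * star a = 0), f (a * η / b) = 0) :
    ∃ c, ∀ a, a ≠ 0 → f a = c := by
  refine ⟨f 0 - ∑ b, f b, fun a ha => ?_⟩
  have sa : star a ≠ 0 := by simpa using ha
  have e1 : ∑ b, f (a * η / b) = ∑ b, f b :=
    Equiv.sum_comp ((Equiv.inv F).trans (Equiv.mulLeft₀ _ (mul_ne_zero ha h0))) f ▸
      Finset.sum_congr rfl fun b _ => by simp [div_eq_mul_inv]
  have e2 : ∑ b ∈ Finset.univ.filter (fun b => ¬ b + star b = 0), f (a * η / b) = 0 := by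
    rw [← Finset.sum_nbij' (s := Finset.univ.filter (fun l : F => l ≠ 0 ∧ star l = l) ×ˢ
      Finset.univ.filter (fun b => b + star b + a * star a = 0)) (f := fun p => f (a * η / p.2)) (fun p => p.1 * p.2)
      (fun b => (-(b + star b) / (a * star a), b / (-(b + star b) / (a * star a)))), Finset.sum_product]
    · exact Finset.sum_eq_zero fun _ _ => h2 a ha
    · simp only [Finset.mem_product, Finset.mem_filter, Finset.mem_univ, true_and, star_mul']
      rintro ⟨l, b⟩ ⟨⟨l0, ls⟩, hb⟩ k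
      dsimp only at *
      rw [ls, ← mul_add, mul_eq_zero, or_iff_right l0] at k
      exact mul_ne_zero ha sa (by rwa [k, zero_add] at hb)
    · simp only [Finset.mem_product, Finset.mem_filter, Finset.mem_univ, true_and]
      intro b hb
      have s : star (-(b + star b) / (a * star a)) = -(b + star b) / (a * star a) := by
        simp only [star_div₀, star_neg, star_add, star_star, star_mul']; ring
      refine ⟨⟨div_ne_zero (neg_ne_zero.2 hb) (mul_ne_zero ha sa), s⟩, ?_⟩
      rw [star_div₀, s]; field_simp; ring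
    · simp only [Finset.mem_product, Finset.mem_filter, Finset.mem_univ, true_and, star_mul']
      rintro ⟨l, b⟩ ⟨⟨l0, ls⟩, hb⟩
      dsimp only at *
      have : -(l * b + star l * star b) / (a * star a) = l := by rw [ls]; field_simp; linear_combination -hb
      rw [this, mul_div_cancel_left₀ _ l0]
    · simp only [Finset.mem_filter, Finset.mem_univ, true_and]
      intro b hb
      have := neg_ne_zero.2 hb
      field_simp
    · simp only [Finset.mem_product, Finset.mem_filter, Finset.mem_univ, true_and]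
      rintro ⟨l, b⟩ ⟨⟨l0, ls⟩, hb⟩
      have b0 := PP.ne hb ha
      dsimp only at *
      rw [← h1 l (a * η / (l * b)) l0 ls (by simp [*])]
      congr 1; field_simp
  have e3 : ∑ b ∈ Finset.univ.filter (fun b => b + star b = 0), f (a * η / b) = f 0 - f a := by
    have m0 : (0 : F) ∈ Finset.univ.filter (fun b : F => b + star b = 0) := by simp
    have c0 := card_zero (s := Finset.univ.filter fun b : F => b + star b = 0) h0 fun b => by
      simp only [Finset.mem_filter, Finset.mem_univ, true_and, star_add, hη]; rw [add_add_add_comm, add_neg_cancel, add_zero]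
    rw [← Finset.add_sum_erase _ _ m0, div_zero, Finset.sum_congr rfl (g := fun _ => f a) fun b hb => ?_,
      Finset.sum_const, Finset.card_erase_of_mem m0, nsmul_eq_mul, Nat.cast_pred (Finset.card_pos.2 ⟨0, m0⟩), c0]
    · ring
    · simp only [Finset.mem_erase, Finset.mem_filter, Finset.mem_univ, true_and] at hb
      rw [← h1 (η / b) a (div_ne_zero h0 hb.1) (by rw [star_div₀, hη, eq_neg_of_add_eq_zero_right hb.2, neg_div_neg_eq]) ha]
      congr 1; ring
  rw [← e1, ← Finset.sum_filter_add_sum_filter_not Finset.univ (fun b => b + star b = 0), e2, e3]; ring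

namespace Core

variable {Q : Subgroup G} {inf : Ω} {pt : F → F → Ω} {ξ : F → G} {w : G} {η : F} (h : Core Q inf pt ξ w η)
include h

theorem uniq {x y : G} (hx : x ∈ Q) (hy : y ∈ Q) (e : x • pt 0 0 = y • pt 0 0) : x = y :=
  (inv_mul_eq_one.1 (h.Qfr _ (mul_mem (inv_mem hy) hx) (by rw [mul_smul, e, inv_smul_smul]))).symm

theorem ξi {c a b : F} (hc : star c = -c) (p : PP a b) : (ξ c)⁻¹ • pt a b = pt a (b - c) := by
  rw [inv_smul_eq_iff, h.ξa hc (sub_eq_add_neg b c ▸ p.add (by simp [hc])), sub_add_cancel]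

theorem tr {x : G} (hx : x ∈ Q) {a b a' b' c : F} (p : PP a b) (p' : PP a' b') (hc : star c = -c)
    (e : x • pt a b = pt a' b') : x • pt a (b + c) = pt a' (b' + c) := by
  rw [← h.ξa hc p, ← mul_smul, ← h.ξc hc x hx, mul_smul, e, h.ξa hc p']

theorem exE : ∃ E : F → F, (∀ a, star (E a) = -E a) ∧
    ∀ x ∈ Q, ∀ a b, PP a b → x • pt 0 0 = pt a b → x⁻¹ • pt 0 0 = pt (-a) (star b + E a) := by
  choose x hx e using fun a => h.Qtr (PP.half h.two a)
  choose b pb eb using fun a => h.iv _ (hx a) _ _ (PP.half h.two a) (e a)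
  refine ⟨fun a => b a + a * star a / 2, fun a => ?_, fun y hy a c p ey => ?_⟩
  · have := pb a
    simp only [PP, star_add, star_mul', star_neg, star_div₀, star_star, star_ofNat] at *
    have := h.two
    field_simp; linear_combination 2 * ‹b a + star (b a) + -a * -star a = 0›
  · have hc := (PP.half h.two a).sub p
    obtain rfl := h.uniq hy (mul_mem (h.ξQ hc) (hx a)) (by
      rw [ey, mul_smul, e, h.ξa hc (PP.half h.two a), add_sub_cancel])
    rw [h.ξc hc _ (hx a), mul_inv_rev, mul_smul, eb, h.ξi hc (pb a)]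
    congr 1; unfold PP at p
    have := h.two
    field_simp; linear_combination -2 * p

variable {E : F → F} (Es : ∀ a, star (E a) = -E a)
  (hE : ∀ x ∈ Q, ∀ a b, PP a b → x • pt 0 0 = pt a b → x⁻¹ • pt 0 0 = pt (-a) (star b + E a))
include Es hE

omit h hE in
theorem pE {a b : F} (p : PP a b) : PP (-a) (star b + E a) := by
  simp only [PP, star_add, star_star, Es, star_neg] at *; linear_combination p

theorem Em {g : G} (g1 : g • inf = inf) {m : F} (hm : m ≠ 0)
    (hg : ∀ a b, PP a b → g • pt a b = pt (m * a) (m * star m * b)) {a : F} (ha : a ≠ 0) :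
    E (m * a) / (m * a * star (m * a)) = E a / (a * star a) := by
  have g0 : g • pt 0 0 = pt 0 0 := by simpa using hg 0 0 PP.zero
  have g0' : g⁻¹ • pt 0 0 = pt 0 0 := inv_smul_eq_iff.2 g0.symm
  have p := PP.half h.two a
  obtain ⟨x, hx, e⟩ := h.Qtr p
  have := hE _ ((h.st g g1 g0).1 x hx) _ _ (p.smul m) (by rw [mul_smul, mul_smul, g0', e, hg _ _ p])
  rw [conj_inv, mul_smul, mul_smul, g0', hE x hx _ _ p e, hg _ _ (pE Es p)] at this
  have := (h.inj ((pE Es p).smul m) (pE Es (p.smul m)) this).2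
  have e2 : E (m * a) = m * star m * E a := by
    simp only [star_mul', star_star] at this; linear_combination -this
  have : star m ≠ 0 := by simpa using hm
  have : star a ≠ 0 := by simpa using ha
  rw [e2, star_mul']; field_simp

theorem cyc {x : G} (hx : x ∈ Q) {a b : F} (ha : a ≠ 0) (p : PP a b) (e : x • pt 0 0 = pt a b) :
    (w * x⁻¹) • pt a b = inf ∧ (w * x⁻¹) • inf = pt 0 0 ∧
      (w * x⁻¹) • pt 0 0 = pt (a * η / (star b + E a)) (-(η * η / (star b + E a))) ∧
      PP (a * η / (star b + E a)) (-(η * η / (star b + E a))) ∧ a * η / (star b + E a) ≠ 0 ∧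
      JJ (a * η / (star b + E a)) (-(η * η / (star b + E a))) = JJ a b - 2 * (E a / (a * star a)) := by
  have b0 := (pE Es p).ne (neg_ne_zero.2 ha)
  have k : -(-a * η / (star b + E a)) = a * η / (star b + E a) := by ring
  refine ⟨by rw [mul_smul, ← e, inv_smul_smul, h.w0], by rw [mul_smul, h.Qinf _ (inv_mem hx), h.wi], ?_,
    k ▸ (pE Es p).w b0 h.ηs, div_ne_zero (mul_ne_zero ha h.η0) b0, ?_⟩
  · rw [mul_smul, hE x hx a b p e, h.wa (pE Es p) b0, k]
  · have b1 : b + -E a ≠ 0 := by simpa [Es] using star_ne_zero.2 b0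
    have : star a ≠ 0 := by simpa using ha
    have := h.η0
    simp only [JJ, star_neg, star_div₀, star_mul', star_add, star_star, Es, h.ηs]
    field_simp; ring

theorem rel {x x1 x2 : G} (hx : x ∈ Q) (hx1 : x1 ∈ Q) (hx2 : x2 ∈ Q) {a b a1 b1 a2 b2 : F} (ha : a ≠ 0) (p : PP a b)
    (e : x • pt 0 0 = pt a b) (e1 : x1 • pt 0 0 = pt a1 b1) (e2 : x2 • pt 0 0 = pt a2 b2)
    (k1 : a1 = a * η / (star b + E a)) (l1 : b1 = -(η * η / (star b + E a)))
    (k2 : a2 = a1 * η / (star b1 + E a1)) (l2 : b2 = -(η * η / (star b1 + E a1))) :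
    (w * x2⁻¹ * (w * x1⁻¹) * (w * x⁻¹)) • inf = inf ∧ ∃ m ≠ 0, m * a = a2 * η / (star b2 + E a2) ∧
      m * star m * b = -(η * η / (star b2 + E a2)) ∧
      ∀ a b, PP a b → (w * x2⁻¹ * (w * x1⁻¹) * (w * x⁻¹)) • pt a b = pt (m * a) (m * star m * b) := by
  obtain ⟨c1, c2, c3, p1, n1, -⟩ := h.cyc Es hE hx ha p e
  rw [← k1, ← l1] at c3 p1; rw [← k1] at n1
  obtain ⟨d1, d2, d3, p2, n2, -⟩ := h.cyc Es hE hx1 n1 p1 e1
  rw [← k2, ← l2] at d3 p2; rw [← k2] at n2
  obtain ⟨f1, f2, f3, p3, -⟩ := h.cyc Es hE hx2 n2 p2 e2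
  have i : (w * x2⁻¹ * (w * x1⁻¹) * (w * x⁻¹)) • inf = inf := by rw [mul_smul, mul_smul, c2, d3, f1]
  obtain ⟨-, m, m0, hm⟩ := h.st _ i (by rw [mul_smul, mul_smul, c3, d1, f2])
  have := hm a b p
  rw [mul_smul, mul_smul, c1, d2, f3] at this
  exact ⟨i, m, m0, (h.inj p3 (p.smul m) this).1.symm, (h.inj p3 (p.smul m) this).2.symm, hm⟩

theorem Er {l a : F} (l0 : l ≠ 0) (ls : star l = l) (ha : a ≠ 0) :
    E (l * a) / (l * a * star (l * a)) = E a / (a * star a) :=
  (h.re l l0 ls).elim fun _ k => h.Em Es hE k.1 l0 k.2 ha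

theorem sum3 {a b : F} (ha : a ≠ 0) (p : PP a b) {f : F → F} (hf : ∀ a, f a = E a / (a * star a)) :
    f a + f (a * η / (star b + E a)) + f (a * η / b) = 0 := by
  obtain ⟨x, hx, e⟩ := h.Qtr p
  obtain ⟨-, -, -, p1, n1, j1⟩ := h.cyc Es hE hx ha p e
  obtain ⟨x1, hx1, e1⟩ := h.Qtr p1
  obtain ⟨-, -, -, p2, n2, j2⟩ := h.cyc Es hE hx1 n1 p1 e1
  obtain ⟨x2, hx2, e2⟩ := h.Qtr p2
  obtain ⟨-, -, -, -, -, j3⟩ := h.cyc Es hE hx2 n2 p2 e2
  obtain ⟨i, m, m0, k1, k2, hm⟩ := h.rel Es hE hx hx1 hx2 ha p e e1 e2 rfl rfl rfl rfl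
  rw [← k1, ← k2, JJ_smul _ _ m0, j2, j1, ← hf, ← hf, ← hf] at j3
  have b2 := (pE Es p2).ne (neg_ne_zero.2 n2)
  generalize a * η / (star b + E a) * η / _ = a2 at *
  generalize star (-(η * η / (star _ + E (a * η / (star b + E a))))) + E a2 = c at *
  have b0 := p.ne ha
  have η0 := h.η0
  have sm : star m ≠ 0 := by simpa using m0
  have : a2 = m * (-(m * star m)⁻¹ * (a * η / b)) := by
    field_simp at k1 k2 ⊢
    apply mul_left_cancel₀ η0
    linear_combination -(star m * b) * k1 + a * k2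
  have n : a * η / b ≠ 0 := by simp [*]
  have s : f a2 = f (a * η / b) := by
    rw [this, hf, h.Em Es hE i m0 hm (by simp [*]), h.Er Es hE (by simp [*]) (by simp [mul_comm]) n, hf]
  apply mul_left_cancel₀ h.two
  linear_combination j3 - 2 * s

theorem cyc3 (h3 : (3 : F) = 0) : ∃ a, a ≠ 0 ∧ E a = 0 := by
  obtain ⟨x, hx, x3, a, b, ha, p, e⟩ := h.three h3
  obtain ⟨k, hk, ek⟩ := h.Qtr (p.w (p.ne ha) h.ηs)
  obtain ⟨t, ti, ht⟩ := h.re (-1) (by simp) (by simp)
  simp only [neg_mul, one_mul, star_neg, star_one, mul_neg, neg_neg] at ht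
  have g0 : (k⁻¹ * w) • pt 0 0 = inf := by rw [mul_smul, h.w0, h.Qinf _ (inv_mem hk)]
  have g1 : (k⁻¹ * w) • x • pt 0 0 = pt 0 0 := by rw [mul_smul, e, h.wa p (p.ne ha), ← ek, inv_smul_smul]
  generalize k⁻¹ * w = g at g0 g1
  have xx : x * x = x⁻¹ := eq_inv_of_mul_eq_one_left (by rw [← x3, pow_succ, pow_two])
  have c1 : (g * x * g⁻¹) • inf = pt 0 0 := by rw [← g0, smul_smul, inv_mul_cancel_right, mul_smul, g1]
  have c2 : (g * x * g⁻¹) • pt 0 0 = g • x⁻¹ • pt 0 0 := by
    conv_lhs => rw [← g1, smul_smul, smul_smul, inv_mul_cancel_right, mul_assoc, xx, mul_smul]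
  have c3 : (g * x * g⁻¹) • g • x⁻¹ • pt 0 0 = inf := by
    rw [smul_smul, smul_smul, inv_mul_cancel_right, mul_inv_cancel_right, g0]
  have n0 := h.ne PP.zero
  have fix {y : G} (hy : y ∈ Q) {a b : F} (p : PP a b) (e : y • pt a b = pt a b) : y = 1 := by
    obtain ⟨z, hz, ez⟩ := h.Qtr p
    have := h.Qfr _ (mul_mem (mul_mem (inv_mem hz) hy) hz) (by rw [mul_smul, mul_smul, ez, e, ← ez, inv_smul_smul])
    simpa using conj_eq_one_iff.1 (show z⁻¹ * y * z⁻¹⁻¹ = 1 by rwa [inv_inv])
  have two {s : G} (s1 : s • inf = inf) (s0 : s • pt 0 0 = pt 0 0) (g : G) (e : s = g * t * g⁻¹) (a b : F)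
      (p : PP a b) : s • pt a b = pt (-a) b := by
    obtain ⟨-, m, m0, hm⟩ := h.st s s1 s0
    have all {s : G} (s1 : s • inf = inf) (s2 : ∀ a b, PP a b → s • pt a b = pt a b) (ω : Ω) : s • ω = ω := by
      rcases h.sur ω with rfl | ⟨a, b, p, rfl⟩
      exacts [s1, s2 a b p]
    have p1 := PP.half h.two (1 : F)
    have t2 := all (s := t * t) (by rw [mul_smul, ti, ti]) fun a b p => by
      rw [mul_smul, ht a b p, ht _ _ (by simpa [PP] using p), neg_neg]
    have s2 : s • s • pt 1 (-(1 * star 1) / 2) = pt 1 (-(1 * star 1) / 2) := by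
      rw [← mul_smul, e, conj_mul, mul_smul, mul_smul, t2, smul_inv_smul]
    rw [hm _ _ p1, hm _ _ (p1.smul m)] at s2
    have := (h.inj ((p1.smul m).smul m) p1 s2).1
    rw [mul_one] at this
    rcases mul_self_eq_one_iff.1 this with rfl | rfl
    · have k := all s1 (by simpa using hm) (g • pt 1 (-(1 * star 1) / 2))
      rw [e, mul_smul, mul_smul, inv_smul_smul, smul_left_cancel_iff, ht _ _ p1] at k
      exact absurd (by linear_combination -(h.inj (by simpa [PP] using p1) p1 k).1) h.two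
    · simpa using hm a b p
  rcases h.sur (g • x⁻¹ • pt 0 0) with k | ⟨a', b', p', k⟩
  · rw [k, c1] at c3; exact absurd c3 n0
  rw [k] at c2 c3
  have t0 : t • pt 0 0 = pt 0 0 := by simpa using ht 0 0 PP.zero
  by_cases ha' : a' = 0
  · exfalso
    subst ha'
    have tp : t • pt 0 b' = pt 0 b' := by simpa using ht 0 b' p'
    have hs := two (s := g * x * g⁻¹ * t * (g * x * g⁻¹)⁻¹)
      (by rw [mul_smul, mul_smul, inv_smul_eq_iff.2 c3.symm, tp, c3])
      (by rw [mul_smul, mul_smul, inv_smul_eq_iff.2 c1.symm, ti, c1]) _ rfl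
    have hc (ω : Ω) : (g * x * g⁻¹) • t • ω = t • (g * x * g⁻¹) • ω := by
      rw [← smul_inv_smul (g * x * g⁻¹) (t • (g * x * g⁻¹) • ω), smul_left_cancel_iff, eq_inv_smul_iff, ← mul_smul,
        ← inv_smul_smul (g * x * g⁻¹) ω, ← mul_smul _ _⁻¹, smul_inv_smul]
      rcases h.sur ((g * x * g⁻¹) • ω) with k | ⟨a, b, p, k⟩
      · rw [k, mul_smul, mul_smul, inv_smul_eq_iff.2 c3.symm, tp, c3, ti]
      · rw [k, hs a b p, ht a b p]
    have s1 : (g⁻¹ * t * g⁻¹⁻¹) • inf = inf := by
      have e1 : x • (g⁻¹ * t * g⁻¹⁻¹) • inf = (g⁻¹ * t * g⁻¹⁻¹) • inf := by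
        have := hc (g • inf)
        rw [mul_smul, mul_smul, mul_smul, mul_smul, inv_smul_smul, h.Qinf x hx] at this
        rw [inv_inv, mul_smul, mul_smul, eq_inv_smul_iff, this]
      rcases h.sur ((g⁻¹ * t * g⁻¹⁻¹) • inf) with k | ⟨a1, b1, p1, k⟩
      · exact k
      · rw [k] at e1
        rw [fix hx p1 e1, one_smul] at e
        exact absurd (h.inj PP.zero p e).1.symm ha
    have := two s1 (by rw [inv_inv, mul_smul, mul_smul, g0, ti, ← g0, inv_smul_smul]) _ rfl a b p
    rw [← e, inv_inv, mul_smul, mul_smul, g1, t0, ← g1, inv_smul_smul, e] at this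
    exact ha ((mul_eq_zero.1 (by linear_combination (h.inj p (by simpa [PP] using p) this).1 : 2 * a = 0)).resolve_left
      h.two)
  obtain ⟨y, hy, ey⟩ := h.Qtr p'
  obtain ⟨d1, d2, d3, p1, -, j⟩ := h.cyc Es hE hy ha' p' ey
  obtain ⟨-, m, m0, hm⟩ := h.st (w * y⁻¹ * (g * x * g⁻¹)⁻¹) (by rw [mul_smul, inv_smul_eq_iff.2 c3.symm, d1])
    (by rw [mul_smul, inv_smul_eq_iff.2 c1.symm, d2])
  have := hm a' b' p'
  rw [mul_smul, inv_smul_eq_iff.2 c2.symm, d3] at this
  obtain ⟨k1, k2⟩ := h.inj p1 (p'.smul m) this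
  rw [k1, k2, JJ_smul _ _ m0] at j
  have : 2 * (E a' / (a' * star a')) = 0 := by linear_combination j
  exact ⟨a', ha', by simpa [h.two, ha'] using this⟩

theorem E0 [Finite F] {a : F} (ha : a ≠ 0) : E a = 0 := by
  classical
  have := Fintype.ofFinite F
  obtain ⟨c, hc⟩ := const_of h.η0 h.ηs (f := fun a => E a / (a * star a)) (fun l a l0 ls => h.Er Es hE l0 ls)
    fun a ha => by
      have s := Finset.sum_eq_zero (s := Finset.univ.filter fun b => b + star b + a * star a = 0) fun b hb =>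
        h.sum3 Es hE ha (Finset.mem_filter.1 hb).2 (f := fun a => E a / (a * star a)) fun _ => rfl
      rw [Finset.sum_add_distrib, Finset.sum_add_distrib, Finset.sum_const, nsmul_eq_mul, card_zero h.η0 fun b => by
        simp only [Finset.mem_filter, Finset.mem_univ, true_and, star_add, h.ηs]
        exact Eq.congr_left (by ring), zero_mul, zero_add, Finset.sum_nbij' (fun b => star b + E a) (fun b => star b + E a)
        (g := fun b => (fun a => E a / (a * star a)) (a * η / b)) (fun b hb => ?_) (fun b hb => ?_) (by simp [Es])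
        (by simp [Es]) fun _ _ => rfl, ← two_mul] at s
      · exact (mul_eq_zero.1 s).resolve_left h.two
      all_goals simpa [PP] using pE Es (Finset.mem_filter.1 hb).2
  have c0 : c = 0 := by
    by_cases h3 : (3 : F) = 0
    · obtain ⟨a, ha, e⟩ := h.cyc3 Es hE h3
      rw [← hc a ha, e, zero_div]
    · have p := PP.half h.two (1 : F)
      have := h.sum3 Es hE one_ne_zero p (f := fun a => E a / (a * star a)) fun _ => rfl
      obtain ⟨x, hx, e⟩ := h.Qtr p
      rw [hc _ one_ne_zero, hc _ (h.cyc Es hE hx one_ne_zero p e).2.2.2.2.1,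
        hc _ (div_ne_zero (mul_ne_zero one_ne_zero h.η0) (p.ne one_ne_zero))] at this
      exact (mul_eq_zero.1 (by linear_combination this : 3 * c = 0)).resolve_left h3
  simpa [c0, ha] using hc a ha

omit Es hE

theorem nu [Finite F] {x : G} (hx : x ∈ Q) {a b : F} (p : PP a b) (e : x • pt 0 0 = pt a b) :
    x⁻¹ • pt 0 0 = pt (-a) (star b) := by
  by_cases ha : a = 0
  · subst ha
    have hb := PP.im.1 p
    rw [h.uniq hx (h.ξQ hb) (by rw [e, h.ξa hb PP.zero, zero_add]), h.ξi hb PP.zero, hb, neg_zero, zero_sub]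
  · obtain ⟨E, Es, hE⟩ := h.exE
    rw [hE x hx a b p e, h.E0 Es hE ha, add_zero]

/-- the group law holds for the first coordinates `α`, `a` -/
def Good (Q : Subgroup G) (pt : F → F → Ω) (α a : F) : Prop :=
  ∀ x ∈ Q, ∀ β b, PP α β → PP a b → x • pt 0 0 = pt α β → x • pt a b = pt (α + a) (β + b - a * star α)

theorem good_of {α a β b : F} {x : G} (hx : x ∈ Q) (p : PP α β) (p' : PP a b) (e : x • pt 0 0 = pt α β)
    (e' : x • pt a b = pt (α + a) (β + b - a * star α)) : Good Q pt α a := fun y hy β' b' q q' ey => by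
  have hc := p.sub q
  have hd := p'.sub q'
  obtain rfl := h.uniq hy (mul_mem (h.ξQ hc) hx) (by rw [ey, mul_smul, e, h.ξa hc p, add_sub_cancel])
  have := h.tr hx p' (p.mul p') hd e'
  rw [add_sub_cancel] at this
  rw [mul_smul, this, h.ξa hc ((p.mul p').add hd)]
  congr 1; ring

theorem good_ind [Finite F] {α a' : F} (hα : α ≠ 0) (ha' : a' ≠ 0) (n : star (α / a') ≠ α / a') : Good Q pt α a' := by
  have η0 := h.η0
  have ηs := h.ηs
  have sα : star α ≠ 0 := star_ne_zero.2 hα
  obtain ⟨ρ, hρ⟩ : ∃ ρ, ρ = -1 - α / a' := ⟨_, rfl⟩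
  have ρ1 : ρ - star ρ ≠ 0 := fun e => n (by rw [hρ, star_sub, star_neg, star_one] at e; linear_combination e)
  have ρ0 : ρ ≠ 0 := fun e => ρ1 (by simp [e])
  have sρ : star ρ ≠ 0 := star_ne_zero.2 ρ0
  obtain ⟨c, hc⟩ : ∃ c, c = (ρ - star ρ) * (η * η) / (α * star α) := ⟨_, rfl⟩
  have c0 : c ≠ 0 := by simp [hc, ρ1, η0, hα]
  have cs : star c = -c := by simp only [hc, star_div₀, star_mul', star_sub, star_star, ηs]; ring
  obtain ⟨b, hb⟩ : ∃ b, b = -c / star ρ := ⟨_, rfl⟩
  have bs : star b = c / ρ := by simp [hb, cs]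
  have b0 : b ≠ 0 := by simp [hb, c0, ρ0]
  have sb : star b ≠ 0 := star_ne_zero.2 b0
  obtain ⟨a, ha⟩ : ∃ a, a = -(α * star b / η) := ⟨_, rfl⟩
  have a0 : a ≠ 0 := by simp [ha, hα, b0, η0]
  have sa : star a ≠ 0 := star_ne_zero.2 a0
  have p : PP a b := by
    simp only [PP, ha, star_neg, star_div₀, star_mul', star_star, ηs]
    rw [bs, hb]; field_simp
    rw [hc]; field_simp; ring
  have Es (a : F) : star ((fun _ => 0 : F → F) a) = -(fun _ => 0 : F → F) a := by simp
  have hE (x) (hx : x ∈ Q) (a b) (p : PP a b) (e : x • pt 0 0 = pt a b) :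
      x⁻¹ • pt 0 0 = pt (-a) (star b + (fun _ => 0 : F → F) a) := by rw [add_zero, h.nu hx p e]
  obtain ⟨x, hx, e⟩ := h.Qtr p
  obtain ⟨-, -, -, p1, n1, -⟩ := h.cyc Es hE hx a0 p e
  obtain ⟨x1, hx1, e1⟩ := h.Qtr p1
  obtain ⟨-, -, -, p2, n2, -⟩ := h.cyc Es hE hx1 n1 p1 e1
  obtain ⟨x2, hx2, e2⟩ := h.Qtr p2
  obtain ⟨-, m, m0, -, k2, hm⟩ := h.rel Es hE hx hx1 hx2 a0 p e e1 e2 rfl rfl rfl rfl
  simp only [add_zero] at p1 p2 e1 e2 k2
  have q1 : a * η / star b = -α := by rw [ha]; field_simp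
  have q2 : -(η * η / star (-(η * η / star b))) = b := by
    simp only [star_neg, star_div₀, star_mul', star_star, ηs]; field_simp
  rw [q2] at p2 e2 k2
  rw [q1] at p1 e1
  have pb : PP (-a) (star b) := by simpa using pE Es p
  have bc : star b + c ≠ 0 := (pb.add cs).ne (neg_ne_zero.2 a0)
  have q3 : -(-a * η / (star b + c)) = a' := by
    have : α = -(ρ + 1) * a' := by rw [hρ]; field_simp; ring
    rw [ha]; field_simp; rw [bs, this]; field_simp; ring
  have pu := (pb.add cs).w bc ηs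
  have pα : PP α (star (-(η * η / star b))) := by simpa using pE Es p1
  rw [q3] at pu
  refine h.good_of (inv_mem hx1) pα pu (by simpa using h.nu hx1 p1 e1) ?_
  have key := hm 0 c (PP.im.2 cs)
  have c1 : star (b * star b / c) = -(b * star b / c) := by simp only [star_div₀, star_mul', star_star, cs]; ring
  have k3 := h.wa (PP.im.2 c1) (div_ne_zero (mul_ne_zero b0 sb) c0)
  have k4 := h.tr hx2 PP.zero p2 c1 e2
  have k5 := h.tr (inv_mem hx) PP.zero pb cs (h.nu hx p e)
  rw [zero_add] at k4 k5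
  rw [show -(0 * η / (b * star b / c)) = m * 0 by simp, show -(η * η / (b * star b / c)) = m * star m * c by
    field_simp at k2 ⊢; linear_combination -k2, ← key, mul_smul, mul_smul, mul_smul, smul_left_cancel_iff,
    eq_inv_smul_iff, k4, mul_smul, mul_smul, k5, h.wa (pb.add cs) bc, q3] at k3
  have s0 : star (-(η * η / star b)) + -(η * η / (star b + c)) - a' * star α = -(η * η * c / (b * (star b + c))) := by
    have : star α = star a * η / b := by
      have := congrArg star q1
      simp only [star_neg, star_div₀, star_mul', star_star, ηs] at this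
      linear_combination this
    unfold PP at p
    rw [← q3, this]
    simp only [star_neg, star_div₀, star_mul', star_star, ηs]; field_simp
    linear_combination -p
  rw [← smul_left_cancel_iff w, ← k3, h.wa (pα.mul pu) (s0 ▸ neg_ne_zero.2 (div_ne_zero (mul_ne_zero (mul_ne_zero η0 η0) c0)
    (mul_ne_zero b0 bc))), s0]
  congr 1
  · rw [← q3, ← neg_eq_iff_eq_neg.2 q1]
    simp only [star_neg, star_div₀, star_mul', star_star, ηs]; field_simp; ring
  · field_simp; ring

theorem mul [Finite F] (α a : F) : Good Q pt α a := by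
  have pα := PP.half h.two α
  obtain ⟨x, hx, e⟩ := h.Qtr pα
  by_cases ha : a = 0
  · subst ha; exact h.good_of hx pα PP.zero e (by simpa using e)
  have pa := PP.half h.two a
  by_cases hα : α = 0
  · subst hα; exact h.good_of (one_mem Q) PP.zero pa (one_smul _ _) (by simp)
  by_cases n : star (α / a) = α / a
  swap
  · exact h.good_ind hα ha n
  by_cases n1 : a = -α
  · subst n1
    refine h.good_of hx pα (show PP (-α) (star (-(α * star α) / 2)) by simpa [PP, add_comm] using pα) e ?_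
    rw [← h.nu hx pα e, smul_inv_smul]
    congr 1
    · ring
    · unfold PP at pα; linear_combination -pα
  have η0 := h.η0
  have ηs := h.ηs
  have h2 := h.two
  have sa : star a ≠ 0 := star_ne_zero.2 ha
  have sα : star α ≠ 0 := star_ne_zero.2 hα
  have r : star α * a = α * star a := by rw [star_div₀] at n; field_simp at n; linear_combination n
  have i {u v : F} (hv : v ≠ 0) (k : star u * v ≠ u * star v) : star (u / v) ≠ u / v := fun e => k (by
    have := star_ne_zero.2 hv
    rw [star_div₀] at e; field_simp at e; linear_combination e)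
  have v0 : η * α ≠ 0 := mul_ne_zero η0 hα
  have v1 : a - η * α ≠ 0 := fun e => by
    rw [sub_eq_zero.1 e, star_mul', ηs] at r
    exact mul_ne_zero h2 (mul_ne_zero v0 sα) (by linear_combination r)
  have v2 : α + η * α ≠ 0 := fun e => by
    have := congrArg star e
    rw [star_add, star_mul', ηs, star_zero] at this
    exact mul_ne_zero h2 (mul_ne_zero hα sα) (by linear_combination star α * e + α * this)
  have pv := PP.half h.two (η * α)
  have pw := PP.half h.two (a - η * α)
  obtain ⟨y, hy, ey⟩ := h.Qtr pv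
  have g1 := h.good_ind v0 v1 (i v1 fun k => ?_) y hy _ _ pv pw ey
  have g2 := h.good_ind hα v0 (i v0 fun k => ?_) x hx _ _ pα pv e
  have g3 := h.good_ind v2 v1 (i v1 fun k => ?_) (x * y) (mul_mem hx hy) _ _ (pα.mul pv) pw (by rw [mul_smul, ey, g2])
  · have pa' := pv.mul pw
    rw [mul_smul, g1] at g3
    rw [add_sub_cancel] at pa' g3
    refine h.good_of hx pα pa' e (g3.trans ?_)
    congr 1
    · ring
    · rw [star_add]; ring
  all_goals simp only [star_add, star_sub, star_mul', ηs] at k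
  · refine mul_ne_zero h2 (mul_ne_zero (mul_ne_zero η0 sα) (fun e => n1 (eq_neg_of_add_eq_zero_left e) : a + α ≠ 0)) ?_
    linear_combination -k + (1 + η) * r
  · exact mul_ne_zero h2 (mul_ne_zero v0 sα) (by linear_combination k)
  · exact mul_ne_zero h2 (mul_ne_zero (mul_ne_zero η0 sα) ha) (by linear_combination -k + η * r)

end Core

theorem realizeEqns_Bu_Id1 : True := by
  have := @CA.Bu.Core.Good.eq_1.{0,0,0}
  have := @CA.Bu.Core.Good.eq_def.{0,0,0}
  have := @CA.Bu.Core.Good.congr_simp.{0,0,0}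
  have := @CA.Bu.PP.eq_1.{0}
  have := @CA.Bu.PP.eq_def.{0}
  have := @CA.Bu.PP.congr_simp.{0}
  have := @CA.Bu.JJ.eq_1.{0}
  have := @CA.Bu.JJ.eq_def.{0}
  have := @CA.Bu.JJ.congr_simp.{0}
  trivial

end CA.Bu
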