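import Cfsg.Agent.Bu.Id1
import Cfsg.Agent.Br.Id1
import Cfsg.Agent.Unit.Order

/-!
# A simple group acting in unitary coordinates is `PSU₃(q)`
-/

set_option autoImplicit false
set_option linter.unusedSectionVars false

open Cfsg Subgroup Cfsg.Agent.Unit

namespace CA.Bu

variable {K : Type*} [Field K] [StarRing K] {q : ℕ} {G : Type*} [Group G] {Ω : Type*} [MulAction G Ω]

theorem exists_frame (hq : FQ K q) : ∃ e f u, HP (std K 3) e f ∧ std K 3 e u = 0 ∧ std K 3 f u = 0 ∧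
    std K 3 u u = 1 ∧ ∀ v, ∃ a b c : K, v = a • u + b • e + c • f := by
  obtain ⟨e, f, H⟩ := exists_HP_std hq (n := 3) (by simp)
  obtain ⟨v, v1, v2, v3⟩ := H.exists_orth hq.exists_star_ne (nondeg_std 3) (by simp)
  obtain ⟨c, hc⟩ := hq.exists_norm_eq (c := (std K 3 v v)⁻¹) (by simp)
  have u1 : std K 3 e (c • v) = 0 := by simp [v1]
  have u2 : std K 3 f (c • v) = 0 := by simp [v2]
  have u3 : std K 3 (c • v) (c • v) = 1 := by hsimp; rw [← mul_assoc, mul_comm (star c), hc, inv_mul_cancel₀ v3]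
  generalize c • v = u at *
  refine ⟨e, f, u, H, u1, u2, u3, fun x => ?_⟩
  have := hq.finite
  obtain ⟨y, hy⟩ := Finite.surjective_of_injective (f := fun y : Fin 3 → K => y 0 • u + y 1 • e + y 2 • f)
    (fun y z k => by
      have k0 := congrArg (std K 3 · u) k
      have k1 := congrArg (std K 3 · f) k
      have k2 := congrArg (std K 3 · e) k
      simp only [Herm.add_left, Herm.smul_left, u1, u2, u3, H.he, H.hf, H.hef, H.hfe, Herm.eq_zero_comm u1,
        Herm.eq_zero_comm u2, mul_zero, mul_one, add_zero, zero_add] at k0 k1 k2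
      ext i; fin_cases i <;> assumption) x
  exact ⟨_, _, _, hy.symm⟩

theorem Core.psu {Q : Subgroup G} {inf : Ω} {pt : K → K → Ω} {ξ : K → G} {w : G} {η : K} (h : Core Q inf pt ξ w η)
    [Finite G] [IsSimpleGroup G] (hq : FQ K q) (hc : Nat.card G ≤ q ^ 3 * (q ^ 2 - 1) * (q ^ 3 + 1))
    (h6 : 6 < Nat.card G) : Nonempty (G ≃* PSU 3 K q) := by
  have := hq.finite
  obtain ⟨e, f, u, H, u1, u2, u3, sp⟩ := exists_frame hq
  have u4 := Herm.eq_zero_comm u1
  have u5 := Herm.eq_zero_comm u2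
  have η0 := h.η0
  have hs := hq.exists_star_ne
  let ι : SU 3 K q →* UG (std K 3) := (SUG _).subtype.comp (hq.su 3).toMonoidHom
  have ιi : Function.Injective ι := Subtype.val_injective.comp (hq.su 3).injective
  have ιs {g} (hg : g ∈ SUG (std K 3)) : ∃ M, ι M = g := ⟨_, congrArg Subtype.val ((hq.su 3).apply_symm_apply ⟨g, hg⟩)⟩
  let R (ω : Ω) (v : Fin 3 → K) : Prop := ∃ c : K, c ≠ 0 ∧
    (ω = inf ∧ v = c • e ∨ ∃ a b, PP a b ∧ ω = pt a b ∧ v = c • (a • u + b • e + f))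
  have co {a b c a' b' c' : K} (k : a • u + b • e + c • f = a' • u + b' • e + c' • f) : a = a' ∧ b = b' ∧ c = c' := by
    have k0 := congrArg (std K 3 · u) k
    have k1 := congrArg (std K 3 · f) k
    have k2 := congrArg (std K 3 · e) k
    simp only [Herm.add_left, Herm.smul_left, u1, u2, u3, H.he, H.hf, H.hef, H.hfe, u4, u5, mul_zero, mul_one,
      add_zero, zero_add] at k0 k1 k2
    exact ⟨k0, k1, k2⟩
  have Rs {ω v} (r : R ω v) {d : K} (hd : d ≠ 0) : R ω (d • v) := by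
    obtain ⟨c, c0, r⟩ := r
    refine ⟨d * c, mul_ne_zero hd c0, r.imp (fun k => ⟨k.1, ?_⟩) fun ⟨a, b, p, k1, k2⟩ => ⟨a, b, p, k1, ?_⟩⟩
    exacts [by rw [k.2, mul_smul], by rw [k2, mul_smul]]
  have R1 {ω ω' v} (r : R ω v) (r' : R ω' v) : ω = ω' := by
    obtain ⟨c, c0, ⟨rfl, k⟩ | ⟨a, b, p, rfl, k⟩⟩ := r <;> obtain ⟨d, d0, ⟨rfl, rfl⟩ | ⟨a', b', p', rfl, rfl⟩⟩ := r'
    · rfl
    · exact absurd (co (a := d * a') (b := d * b') (a' := 0) (b' := c) (c' := 0)
        (by linear_combination (norm := module) k)).2.2 d0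
    · exact absurd (co (a := c * a) (b := c * b) (a' := 0) (b' := d) (c' := 0)
        (by linear_combination (norm := module) -k)).2.2 c0
    · obtain ⟨k1, k2, rfl⟩ := co (a := c * a) (b := c * b) (c := c) (a' := d * a') (b' := d * b') (c' := d)
        (by linear_combination (norm := module) -k)
      rw [mul_left_cancel₀ c0 k1, mul_left_cancel₀ c0 k2]
  have R2 {ω v v'} (r : R ω v) (r' : R ω v') : ∃ c : K, v' = c • v := by
    obtain ⟨c, c0, ⟨k, rfl⟩ | ⟨a, b, p, k, rfl⟩⟩ := r <;> obtain ⟨d, d0, ⟨rfl, rfl⟩ | ⟨a', b', p', rfl, rfl⟩⟩ := r'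
    · exact ⟨d / c, by rw [smul_smul, div_mul_cancel₀ _ c0]⟩
    · exact absurd k (h.ne p')
    · exact absurd k.symm (h.ne p)
    · obtain ⟨rfl, rfl⟩ := h.inj p' p k
      exact ⟨d / c, by rw [smul_smul, div_mul_cancel₀ _ c0]⟩
  have R3 (ω) : ∃ v, R ω v := by
    rcases h.sur ω with k | ⟨a, b, p, k⟩
    exacts [⟨_, 1, one_ne_zero, .inl ⟨k, rfl⟩⟩, ⟨_, 1, one_ne_zero, .inr ⟨a, b, p, k, rfl⟩⟩]
  have R4 {v} (v0 : v ≠ 0) (hv : std K 3 v v = 0) : ∃ ω, R ω v := by
    obtain ⟨a, b, c, rfl⟩ := sp v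
    simp only [Herm.add_left, Herm.smul_left, Herm.add_right, Herm.smul_right, u1, u2, u3, H.he, H.hf, H.hef, H.hfe,
      u4, u5, mul_zero, mul_one, add_zero, zero_add] at hv
    by_cases c0 : c = 0
    · obtain rfl : a = 0 := by simpa [c0] using hv
      exact ⟨inf, b, fun k => v0 (by simp [k, c0]), .inl ⟨rfl, by simp [c0]⟩⟩
    · have := star_ne_zero.2 c0
      refine ⟨_, c, c0, .inr ⟨a / c, b / c, ?_, rfl, by match_scalars <;> field_simp⟩⟩
      simp only [PP, star_div₀]; field_simp; linear_combination hv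
  let S : Submonoid (G × SU 3 K q) :=
    { carrier := {p | ∀ ω v, R ω v → R (p.1 • ω) ((ι p.2).1 v)}
      mul_mem' := fun hp hp' ω v r => by
        rw [Prod.fst_mul, Prod.snd_mul, mul_smul, map_mul]; exact hp _ _ (hp' ω v r)
      one_mem' := fun ω v r => by rw [Prod.fst_one, Prod.snd_one, one_smul, map_one]; exact r }
  let Γ : Subgroup (G × SU 3 K q) :=
    { S with inv_mem' := fun {p} hp =>
      Submonoid.powers_le.2 hp (mem_powers_iff_mem_zpowers.2 (inv_mem (mem_zpowers p))) }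
  have mk {g M} (k1 : R (g • inf) ((ι M).1 e)) (k2 : ∀ a b, PP a b → R (g • pt a b) ((ι M).1 (a • u + b • e + f))) :
      (g, M) ∈ Γ := by
    rintro _ _ ⟨c, c0, ⟨rfl, rfl⟩ | ⟨a, b, p, rfl, rfl⟩⟩ <;> rw [map_smul]
    exacts [Rs k1 c0, Rs (k2 a b p) c0]
  let π1 := (MonoidHom.fst _ _).comp Γ.subtype
  let π2 := (MonoidHom.snd _ _).comp Γ.subtype
  have Te : TT e H.he ≤ π2.range.map ι := TT_le_of_orth H fun v β v1 hβ v2 => by
    obtain ⟨α, b, c, rfl⟩ := sp v
    obtain rfl : c = 0 := by simpa [u1, H.he, H.hef] using v1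
    obtain rfl : b = 0 := by simpa [u2, H.hf, H.hfe] using v2
    have p : PP α β := by simpa [PP, u3, mul_comm] using hβ
    obtain ⟨x, hx, ex⟩ := h.Qtr p
    obtain ⟨M, hM⟩ := ιs (eich_mem_SUG H.he v1 hβ)
    refine ⟨M, ⟨⟨(x, M), mk ⟨1, one_ne_zero, .inl ⟨h.Qinf x hx, ?_⟩⟩ fun a b p' =>
      ⟨1, one_ne_zero, .inr ⟨_, _, p.mul p', h.mul α a x hx β b p p' ex, ?_⟩⟩⟩, rfl⟩, hM⟩
    · rw [hM, eich_apply_self, one_smul]
    · rw [hM, eich_apply]; simp [u1, u2, u3, u4, H.he, H.hfe]; module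
  have x1 : η + star η + std K 3 0 0 = 0 := by simp [h.ηs]
  have x2 : -η⁻¹ + star (-η⁻¹) + std K 3 0 0 = 0 := by simp [h.ηs]
  obtain ⟨W, hW⟩ := ιs (mul_mem (mul_mem (eich_mem_SUG H.he (by simp) x1) (eich_mem_SUG H.hf (by simp) x2))
    (eich_mem_SUG H.he (by simp) x1))
  have Wa (a b c : K) : (ι W).1 (a • u + b • e + c • f) = a • u + (η * c) • e + (-b / η) • f := by
    rw [hW, UG.mul_apply, UG.mul_apply, eich_apply, eich_apply, eich_apply]
    simp [u4, u5, H.he, H.hf, H.hef, H.hfe]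
    match_scalars <;> field_simp <;> ring
  have We : (ι W).1 e = (-1 / η) • f := by simpa using Wa 0 1 0
  have Ww : (w, W) ∈ Γ := by
    refine mk ⟨-1 / η, by simp [η0], .inr ⟨0, 0, PP.zero, h.wi, by simp [We]⟩⟩ fun a b p => ?_
    have := Wa a b 1
    rw [one_smul] at this
    by_cases b0 : b = 0
    · obtain rfl : a = 0 := by_contra fun k => p.ne k b0
      exact ⟨η, η0, .inl ⟨by rw [b0, h.w0], by rw [this]; simp [b0]⟩⟩
    · exact ⟨-b / η, by simp [b0, η0], .inr ⟨_, _, p.w b0 h.ηs, h.wa p b0, by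
        rw [this]; match_scalars <;> field_simp⟩⟩
  have s2 : Function.Surjective π2 := fun M => by
    have := EE_le_of_TT_le hs (nondeg_std 3) H Te (by
      rintro _ ⟨v, a, hv, ha, rfl⟩
      obtain ⟨t, ht, k⟩ := exists_eich_eq_conj H.he H.hf hv ha (by simp [η0]) We
      have : ι W ∈ π2.range.map ι := ⟨W, ⟨⟨_, Ww⟩, rfl⟩, rfl⟩
      exact k ▸ mul_mem (mul_mem this (Te ht)) (inv_mem this))
    obtain ⟨N, hN, k⟩ := this (SUG_eq_EE hs (nondeg_std 3) H ▸ (hq.su 3 M).2 : ι M ∈ EE _)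
    exact ιi k ▸ hN
  have i2 : Function.Injective π2 := (injective_iff_map_eq_one _).2 fun ⟨⟨g, M⟩, hp⟩ k => by
    obtain rfl : M = 1 := k
    rcases (MulAction.toPermHom G Ω).normal_ker.eq_bot_or_eq_top with k | k
    · obtain rfl : g = 1 := mem_bot.1 (k ▸ Equiv.ext fun ω => (R3 ω).elim fun v r => R1 (by simpa using hp ω v r) r)
      rfl
    · exact absurd (h.wi.symm.trans (congrArg (· inf) (k.ge (mem_top w) : MulAction.toPermHom G Ω w = 1)))
        (h.ne PP.zero)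
  let ε := MulEquiv.ofBijective π2 ⟨i2, s2⟩
  let F := π1.comp ε.symm.toMonoidHom
  have kf : F.ker = center _ := by
    ext M
    constructor
    · intro hM
      obtain ⟨⟨⟨g, M⟩, hp⟩, rfl⟩ := ε.surjective M
      obtain rfl : g = 1 := (congrArg π1 (ε.symm_apply_apply ⟨_, hp⟩)).symm.trans hM
      obtain ⟨c, hc⟩ := exists_eq_scal hs H (g := ι M) fun v hv => by
        by_cases v0 : v = 0
        · exact ⟨0, by simp [v0]⟩
        · exact (R4 v0 hv).elim fun ω r => R2 r (by simpa using hp ω v r)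
      exact mem_center_iff.2 fun N => ιi (by
        change ι (N * M) = ι (M * N)
        rw [map_mul, map_mul, hc, scal_comm])
    · intro hM
      obtain ⟨c, hc⟩ := exists_eq_scal_of_comm hs (nondeg_std 3) H (g := ι M) fun k hk => by
        obtain ⟨N, rfl⟩ := ιs (EE_le_SUG hk)
        rw [← map_mul, mem_center_iff.1 hM, map_mul]
      have : (1, M) ∈ Γ := fun ω v r => by
        rw [one_smul, hc]; exact Rs r (fun k => by simpa [k] using c.2.1)
      exact congrArg π1 (ε.symm_apply_apply ⟨_, this⟩)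
  have sf : F.range = ⊤ := by
    refine CA.Br.St3.small _ ?_ h6
    have k1 : Nat.card F.ker ≤ 3 := by rw [kf, hq.card_center_SU (by simp)]; exact Nat.gcd_le_left _ (by simp)
    have k2 := hq.card_SU (n := 3) (by simp)
    have k4 : Nat.card (SU 3 K q) = q ^ 3 * (q ^ 2 - 1) * (q ^ 3 + 1) := by
      apply Nat.eq_of_mul_eq_mul_left q.succ_pos
      rw [k2]; simp [Finset.prod_range_succ]; ring
    rw [← k4, ← F.ker.card_mul_index, index_ker] at hc
    have k3 := F.range.card_mul_index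
    have : 0 < Nat.card F.range := Nat.card_pos
    nlinarith
  exact ⟨((QuotientGroup.quotientMulEquivOfEq kf.symm).trans
    (QuotientGroup.quotientKerEquivOfSurjective F (MonoidHom.range_eq_top.1 sf))).symm⟩

end CA.Bu
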