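import Cfsg.Agent.Br.PL3
import Cfsg.Agent.Bu.CU

/-!
# Local analysis for `C(t) = GU₂(q)/Z₀`: odd primes dividing `q - 1`
-/

set_option autoImplicit false
set_option linter.unusedSectionVars false

open Cfsg Subgroup CA.Dih CA.FG CA.BG CA.GW CA.GW.BA CA.Br

namespace CA.Bu

universe u

variable {G : Type u} [Group G] [Finite G]

/-- the local data of `C = C(t) = GU₂(q)/Z₀` used by the `p`-local analysis -/
structure LS (q p : ℕ) (C Z T Y U X : Subgroup G) (t w u x r : G) : Prop where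
  hp : p.Prime
  hq : PiNat {p} q
  qo : Odd q
  q3 : 3 ≤ q
  ZT : Z ≤ T
  ZY : Z ≤ Y
  TC : T ≤ C
  YC : Y ≤ C
  XC : X ≤ C
  UC : U ≤ C
  cen : ∀ z ∈ Z, ∀ c ∈ C, z * c = c * z
  cX : IsMulCommutative X
  cyc : IsCyclic Y
  YN : Y ≤ 𝒩(X)
  kZ : Nat.card Z ∣ q + 1
  kT : Nat.card T = (q + 1) * Nat.card Z
  kY : Nat.card Y = (q - 1) * Nat.card Z
  kX : Nat.card X = q
  kU : Nat.card U = q * Nat.card Z
  kC : Nat.card C = q * (q ^ 2 - 1) * Nat.card Z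
  wC : w ∈ C
  w2 : w * w = 1
  wT : ∀ g ∈ T, w * g * w⁻¹ ∈ T
  wu : w * u * w⁻¹ = t * u
  u2 : u * u = 1
  un : u ∉ Y
  uT : u ∈ T
  uY : ∀ g ∈ Y, u * g * u⁻¹ ∈ Y
  uZ : ∀ g ∈ Y, g * (u * g * u⁻¹) ∈ Z
  xX : x ∈ X
  x1 : x ≠ 1
  cjX : ∀ a ∈ X, a ≠ 1 → ∃ c ∈ C, c * x * c⁻¹ = a
  Ux : ∀ c ∈ U, c * x * c⁻¹ = x
  tiT : ∀ g ∈ T, g ∉ Z → ∀ c ∈ C, c * g * c⁻¹ ∈ T → c ∈ T ∨ c * w ∈ T
  tiY : ∀ g ∈ Y, g ∉ Z → ∀ c ∈ C, c * g * c⁻¹ ∈ Y → c ∈ Y ∨ c * u ∈ Y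
  tiX : ∀ z ∈ Z, ∀ c ∈ C, c * x * c⁻¹ = z * x → c ∈ U
  TY : ∀ g ∈ T, g ∉ Z → ∀ c ∈ C, c * g * c⁻¹ ∉ Y
  TX : ∀ z ∈ Z, ∀ c ∈ C, c * (z * x) * c⁻¹ ∉ T
  hC : C = centralizer {t}
  t2 : t * t = 1
  t1 : t ≠ 1
  tZ : t ∈ Z
  z2 : ∃ m, Odd m ∧ Nat.card Z * m = q + 1
  rt : r * t * r⁻¹ = u
  ru : r * u * r⁻¹ = t * u
  rT : ∀ g ∈ T, r * g * r⁻¹ ∈ T

theorem CU.ls [Fintype G] {q p : ℕ} {C Z T Y U X H Y1 : Subgroup G} {t w u x r : G} {lam : C →* ℂˣ} {θ1 θ2 : Y →* ℂˣ}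
    (h : CU q C Z T Y U X H Y1 t w u x r lam θ1 θ2) (hp : p.Prime) (hq : PiNat {p} q) (n : Y ≤ 𝒩(X)) :
    LS q p C Z T Y U X t w u x r :=
  have c := h.cs
  { c, h with
    hp, hq
    ZT := c.ZY, ZY := c.ZT, TC := c.YC, YC := c.TC, cyc := h.cyY, YN := n, kZ := let ⟨_, _, e⟩ := h.oZ; Dvd.intro _ e
    kT := c.kY, kY := c.kT, wC := c.uC, w2 := c.u2, wT := c.uY, u2 := c.w2, un := c.wn, uY := c.wT, uZ := c.wZ
    tiT := c.tiY, tiY := c.tiT, TX := c.YX, z2 := h.oZ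
    TY := fun g hg gZ k hk e => c.TY _ e (fun a => gZ (c.conjZ2 hk a)) k⁻¹ (inv_mem hk) (by simpa [mul_assoc] using hg) }

theorem big2 {K A B D : Subgroup G} (oK : IsPiGrp {2}ᶜ K) (hA : A ≤ K) (hB : B ≤ K) (a : ¬ A ≤ D) (b : ¬ B ≤ D)
    (ta : ∀ a ∈ A, a ∉ D → ∀ k ∈ K, k * a * k⁻¹ ∈ A → k ∈ A) (tb : ∀ a ∈ B, a ∉ D → ∀ k ∈ K, k * a * k⁻¹ ∈ B → k ∈ B)
    (d : ∀ a ∈ A, a ∉ D → ∀ k ∈ K, k * a * k⁻¹ ∉ B) : False := by
  have h1 := big oK hA a ta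
  have h2 := big oK hB b tb
  have h3 : Disjoint (cjd K A D) (cjd K B D) := Set.disjoint_left.2 (by
    rintro _ ⟨k, hk, a, ha, aZ, rfl⟩ ⟨l, hl, b, hb, -, e⟩
    have e : l⁻¹ * k * a * (l⁻¹ * k)⁻¹ = b := by rw [mul_inv_rev, inv_inv, ← mul_assoc, mul_assoc l⁻¹, mul_assoc l⁻¹, ← e]; group
    exact d a ha aZ _ (mul_mem (inv_mem hl) hk) (e ▸ hb))
  have h4 : (cjd K A D ∪ cjd K B D).ncard ≤ (K : Set G).ncard := Set.ncard_le_ncard (by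
    rintro _ (⟨k, hk, a, ha, -, rfl⟩ | ⟨k, hk, a, ha, -, rfl⟩)
    exacts [mul_mem (mul_mem hk (hA ha)) (inv_mem hk), mul_mem (mul_mem hk (hB ha)) (inv_mem hk)])
  rw [Set.ncard_union_eq h3, ← Nat.card_coe_set_eq (K : Set G)] at h4
  have : 0 < Nat.card K := Nat.card_pos
  change _ ≤ Nat.card K at h4
  omega

theorem pow_rel {H K : Subgroup G} (h : K ≤ 𝒩(H)) {g : G} (hg : g ∈ K) : g ^ H.relIndex K ∈ H :=
  have := normal_subgroupOf_of_le_normalizer h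
  pow_index_mem (H.subgroupOf K) ⟨g, hg⟩

namespace LS

variable {q p : ℕ} {C Z T Y U X : Subgroup G} {t w u x r : G} (c : LS q p C Z T Y U X t w u x r)
include c

theorem pq : p ∣ q := by
  have := c.q3
  obtain ⟨k, e⟩ := (piNat_singleton_iff c.hp (by omega)).1 c.hq
  rcases k with _ | k
  · rw [e] at this; simp at this
  · exact e ▸ dvd_pow_self p k.succ_ne_zero

theorem p2 : p ≠ 2 := fun e => c.qo.not_two_dvd_nat (e ▸ c.pq)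

theorem nd (k : p ∣ q + 1) : False := c.hp.one_lt.ne' (Nat.dvd_one.1 ((Nat.dvd_add_right c.pq).1 k))

theorem nd' (k : p ∣ q - 1) : False := c.hp.one_lt.ne' (Nat.dvd_one.1 ((Nat.dvd_add_right k).1
  (by rw [Nat.sub_add_cancel (by have := c.q3; omega)]; exact c.pq)))

theorem pZ : ¬ p ∣ Nat.card Z := fun d => c.nd (d.trans c.kZ)

theorem four : Four t u := ⟨⟨c.t2, c.t1⟩, ⟨c.u2, fun e => c.un (e ▸ one_mem _)⟩, fun e => c.un (e ▸ c.ZY c.tZ),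
  c.cen t c.tZ u (c.TC c.uT)⟩

theorem sqT {k : G} (h : k * w ∈ T) : k * k ∈ T := by
  have := mul_mem h (c.wT _ h)
  rwa [show k * w * (w * (k * w) * w⁻¹) = k * (w * w) * k by group, c.w2, mul_one] at this

theorem sqY {k : G} (h : k * u ∈ Y) : k * k ∈ Z := by
  have := c.uZ _ h
  rwa [show k * u * (u * (k * u) * u⁻¹) = k * (u * u) * k by group, c.u2, mul_one] at this

theorem nZ : C ≤ 𝒩(Z) := norm_of_cent fun g hg z hz => c.cen z hz g hg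

theorem cjZ {g z : G} (hg : g ∈ C) (h : g * z * g⁻¹ ∈ Z) : z ∈ Z := (mem_normalizer_iff.1 (c.nZ hg) z).2 h

theorem tK {K : Subgroup G} (oK : IsPiGrp {2}ᶜ K) (hK : K ≤ C) :
    ∀ a ∈ K ⊓ T, a ∉ Z → ∀ k ∈ K, k * a * k⁻¹ ∈ K ⊓ T → k ∈ K ⊓ T := fun a ha aZ k hk e =>
  ⟨hk, (c.tiT a ha.2 aZ k (hK hk) e.2).elim id fun e => mem_of_sq oK hk (c.sqT e)⟩

theorem split_ns {K : Subgroup G} (oK : IsPiGrp {2}ᶜ K) (hK : K ≤ C) {a b g : G} (ha : a ∈ K ⊓ T) (aZ : a ∉ Z)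
    (hg : g ∈ C) (hb : b ∈ K ⊓ Y :^ g) (bZ : b ∉ Z) : False :=
  big2 oK inf_le_left inf_le_left (fun e => aZ (e ha)) (fun e => bZ (e hb)) (c.tK oK hK) (fun a ha aZ k hk e => ⟨hk, by
    have := c.tiY (g⁻¹ * a * g⁻¹⁻¹) (by simpa using mem_conjg.1 ha.2) (fun e => aZ (c.cjZ (inv_mem hg) e))
      (g⁻¹ * k * g) (mul_mem (mul_mem (inv_mem hg) (hK hk)) hg) (by convert mem_conjg.1 e.2 using 1; group)
    refine this.elim mem_conjg.2 fun e => mem_of_sq oK hk (mem_conjg.2 ?_)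
    convert c.ZY (c.sqY e) using 1; group⟩) fun a ha aZ k hk e =>
      c.TY a ha.2 aZ (g⁻¹ * k) (mul_mem (inv_mem hg) (hK hk)) (by convert mem_conjg.1 e.2 using 1; group)

theorem kC' : Nat.card C = q * (q + 1) * Nat.card Y := by
  obtain ⟨n, rfl⟩ : ∃ n, q = n + 1 := ⟨_, (Nat.sub_add_cancel (by have := c.q3; omega)).symm⟩
  rw [c.kY, c.kC, show (n + 1) ^ 2 - 1 = n * (n + 2) from Nat.sub_eq_of_eq_add (by ring), Nat.add_sub_cancel]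
  ring

theorem not_dvd {l : ℕ} (hl : l.Prime) (l2 : l ≠ 2) (lq : l ∣ q - 1) : ¬ l ∣ q ∧ ¬ l ∣ q + 1 := by
  have := c.q3
  exact ⟨fun e => hl.one_lt.ne' (Nat.dvd_one.1 ((Nat.dvd_add_right lq).1 (by rwa [show q - 1 + 1 = q by omega]))),
    fun e => l2 ((Nat.prime_dvd_prime_iff_eq hl Nat.prime_two).1 ((Nat.dvd_add_right lq).1
      (by rwa [show q - 1 + 2 = q + 1 by omega])))⟩

theorem sylY {l : ℕ} (hl : l.Prime) (l2 : l ≠ 2) (lq : l ∣ q - 1) {P : Subgroup G} (hP : IsSylowOf l P Y) :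
    IsSylowOf l P C := hP.trans_index c.YC ((piNat_compl_singleton_iff hl).2 (by
  have := card_mul_relIndex c.YC
  rw [c.kC', mul_comm] at this
  rw [Nat.eq_of_mul_eq_mul_right Nat.card_pos this, hl.dvd_mul, not_or]; exact c.not_dvd hl l2 lq))

theorem sylX : IsSylowOf p X C := sylow_mk c.XC (c.kX ▸ c.hq :) fun d => by
  have := card_mul_relIndex c.XC
  rw [c.kC', c.kX, c.kY, mul_assoc] at this
  rw [Nat.eq_of_mul_eq_mul_left (by have := c.q3; omega) this, c.hp.dvd_mul, c.hp.dvd_mul] at d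
  exact d.elim c.nd fun d => d.elim c.nd' c.pZ

theorem core {l : ℕ} (hl : l.Prime) (l2 : l ≠ 2) (lq : l ∣ q - 1) {K : Subgroup G}
    (oK : IsPiGrp {2}ᶜ K) (hK : K ≤ C) (lK : l ∣ Nat.card K) {z : G} (zT : z ∈ T) (zZ : z * z ∉ Z)
    (h : z ∈ K ∨ IsPiElt {2} z ∧ z ∈ 𝒩(K)) : False := by
  obtain ⟨P0, hP0⟩ := sylow_exists hl Y
  have key : ∀ P, IsSylowOf l P K → ∃ g ∈ C, P ≤ Y :^ g ∧ ∃ y ∈ P, y ∉ Z := fun P hP => by
    obtain ⟨g, hg, e⟩ := sylow_subJ hl (c.sylY hl l2 lq hP0) hP.piGrp (hP.le.trans hK)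
    refine ⟨g, hg, e.trans (conjg_mono g hP0.le), SetLike.not_le_iff_exists.1 fun e => (c.not_dvd hl l2 lq).2 ?_⟩
    exact (((hP.dvd_card_iff hl rfl).2 lK).trans (card_dvd_of_le e)).trans c.kZ
  have z1 : z ∉ Z := fun e => zZ (mul_mem e e)
  rcases h with h | ⟨h, h'⟩
  · obtain ⟨P, hP⟩ := sylow_exists hl K
    obtain ⟨g, hg, e, y, hy, yZ⟩ := key P hP
    exact c.split_ns oK hK ⟨h, zT⟩ z1 hg ⟨hP.le hy, e hy⟩ yZ
  · obtain ⟨P, hP, nP⟩ := sol_coprime_Sylow_exists hl (.inr (sol_zpowers z)) (zpowers_le.2 h')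
      ((piGrp_zpowers_iff.2 h).coprime oK).symm
    obtain ⟨g, hg, e, y, hy, yZ⟩ := key P hP
    have := c.tiY (g⁻¹ * y * g⁻¹⁻¹) (by simpa using mem_conjg.1 (e hy)) (fun e => yZ (c.cjZ (inv_mem hg) e))
      (g⁻¹ * z * g⁻¹⁻¹) (mul_mem (mul_mem (inv_mem hg) (c.TC zT)) (inv_mem (inv_mem hg))) (by
        convert mem_conjg.1 (e ((mem_normalizer_iff.1 (nP (mem_zpowers z)) y).1 hy)) using 1; group)
    exact this.elim (c.TY z zT z1 _ (inv_mem hg)) fun e => zZ (c.cjZ (inv_mem hg) (by rw [conj_mul']; exact c.sqY e))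

theorem cx : 𝒞[x] ⊓ C = U := le_antisymm (fun g hg => c.tiX 1 (one_mem _) g hg.2 (by rw [one_mul, conj_eq_iff.2 hg.1]))
  (le_inf (fun g hg => conj_eq_iff.1 (c.Ux g hg)) c.UC)

theorem Xc {a : G} (ha : a ∈ X) : X ≤ 𝒞[a] := (abelian_iff_le_cent.1 c.cX).trans (cent_le_cent_singleton ha)

theorem ZX : Z ≤ 𝒞(X) := fun z hz a ha => (c.cen z hz a (c.XC ha)).symm

theorem U_eq : Z ⊔ X = U := eq_of_le_of_card_ge (c.cx ▸ sup_le (le_inf (c.ZX.trans (cent_le_cent_singleton c.xX))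
  (c.ZT.trans c.TC)) (le_inf (c.Xc c.xX) c.XC)) (by
    rw [card_sup_of_inf_eq_bot (.inl (norm_of_cent c.ZX)) (inf_comm X Z ▸ c.sylX.piGrp.inf_eq_bot
      ((piGrp_compl_singleton_iff c.hp).2 c.pZ)), c.kU, c.kX, mul_comm])

theorem UX : U ≤ 𝒞(X) := c.U_eq ▸ sup_le c.ZX (abelian_iff_le_cent.1 c.cX)

theorem cXC : 𝒞(X) ⊓ C = U := le_antisymm (c.cx ▸ inf_le_inf_right _ (cent_le_cent_singleton c.xX)) (le_inf c.UX c.UC)

theorem nX0 {g : G} (hg : g ∈ C) (h : g * x * g⁻¹ ∈ X) : g ∈ 𝒩(X) := by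
  have : X ≤ U :^ g := by rw [← c.cx, conjg_inf, conjg_cent1, conjg_of_mem hg]; exact le_inf (c.Xc h) c.XC
  exact conjg_eq_self_iff.1 (c.sylX.eq_of_le (c.sylX.piGrp.conjg g) ((c.sylX.conjg_of_mem hg).le_of_le_norm
    c.sylX.piGrp c.XC (this.trans (conjg_le_norm_iff.2 (norm_of_cent c.UX)))) (conjg_le_of_mem c.XC hg))

theorem nX {a g : G} (ha : a ∈ X) (a1 : a ≠ 1) (hg : g ∈ C) (h : g * a * g⁻¹ ∈ X) : g ∈ 𝒩(X) := by
  obtain ⟨k, hk, rfl⟩ := c.cjX a ha a1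
  exact (mul_mem_cancel_right (c.nX0 hk ha)).1 (c.nX0 (mul_mem hg hk) (by convert h using 1; group))

theorem kN : Nat.card (C ⊓ 𝒩(X) : Subgroup G) = q * Nat.card Y := by
  have := ncard_conj (C ⊓ 𝒩(X)) x
  rw [show {b | ∃ g ∈ C ⊓ 𝒩(X), g * x * g⁻¹ = b} = (X : Set G) \ {1} from Set.ext fun b => ⟨by
    rintro ⟨g, hg, rfl⟩; exact ⟨conj_mem_of_mem_norm hg.2 c.xX, by simpa using c.x1⟩, fun hb =>
      let ⟨k, hk, e⟩ := c.cjX b hb.1 hb.2; ⟨k, ⟨hk, c.nX0 hk (e ▸ hb.1)⟩, e⟩⟩,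
    Set.ncard_diff_singleton_of_mem (one_mem X), ← Nat.card_coe_set_eq] at this
  rw [← card_inf_mul_relIndex 𝒞[x], ← this, ← inf_assoc, c.cx, inf_eq_left.2 (norm_of_cent c.UX), c.kU, c.kY]
  exact c.kX ▸ (by simp only [SetLike.coe_sort_coe]; ring)

theorem sq_of_norm {z g : G} (hz : z ∈ T) (hg : g ∈ C) (h : z ∈ 𝒩(X :^ g)) : z * z ∈ Z := by
  have k1 := pow_rel (c.TC.trans c.nZ) hz
  have k2 := pow_rel (K := C ⊓ 𝒩(X :^ g)) (inf_le_left.trans c.nZ) ⟨c.TC hz, h⟩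
  have e1 := card_mul_relIndex c.ZT
  have e2 := card_mul_relIndex (le_inf (c.ZT.trans c.TC) (norm_of_cent fun z hz a ha =>
    (c.cen z hz a (conjg_le_of_mem c.XC hg ha)).symm) : Z ≤ C ⊓ 𝒩(X :^ g))
  rw [c.kT, mul_comm] at e1
  rw [← conjg_norm, ← conjg_of_mem hg, ← conjg_inf, card_conjg, c.kN, c.kY, ← mul_assoc, mul_comm, conjg_inf,
    conjg_of_mem hg, conjg_norm] at e2
  rw [Nat.eq_of_mul_eq_mul_right Nat.card_pos e1] at k1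
  rw [Nat.eq_of_mul_eq_mul_right Nat.card_pos e2] at k2
  obtain ⟨n, rfl⟩ := Nat.exists_eq_add_of_le' (c.q3.trans' (by decide) : 2 ≤ q)
  rw [show (n + 2) * (n + 2 - 1) = (n + 2 + 1) * n + 2 by rw [show n + 2 - 1 = n + 1 from rfl]; ring, pow_add, pow_mul,
    sq] at k2
  exact (mul_mem_cancel_left (pow_mem k1 n)).1 k2

theorem coreP {K : Subgroup G} (oK : IsPiGrp {2}ᶜ K) (hK : K ≤ C) (pK : p ∣ Nat.card K) {z : G} (zT : z ∈ T)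
    (zZ : z * z ∉ Z) (h : z ∈ K ∨ IsPiElt {2} z ∧ z ∈ 𝒩(K)) : False := by
  have key : ∀ P, IsSylowOf p P K → ∃ g ∈ C, P ≤ X :^ g ∧ ∃ y ∈ P, y ≠ 1 := fun P hP =>
    let ⟨g, hg, e⟩ := sylow_subJ c.hp c.sylX hP.piGrp (hP.le.trans hK)
    ⟨g, hg, e, exists_mem_ne_one (IsSylowOf.ne_bot' hP c.hp pK)⟩
  have nx : ∀ g ∈ C, ∀ a ∈ X :^ g, a ≠ 1 → ∀ k ∈ C, k * a * k⁻¹ ∈ X :^ g → k ∈ 𝒩(X :^ g) := fun g hg a ha a1 k hk e => by
    rw [← conjg_norm]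
    exact mem_conjg.2 (c.nX (mem_conjg.1 ha) (fun e => a1 (by simpa [mul_assoc] using congrArg (g * · * g⁻¹) e))
      (mul_mem (mul_mem (inv_mem hg) hk) hg) (by convert mem_conjg.1 e using 1; group))
  rcases h with h | ⟨h, h'⟩
  · obtain ⟨P, hP⟩ := sylow_exists c.hp K
    obtain ⟨g, hg, e, y, hy, y1⟩ := key P hP
    have dec : ∀ a ∈ U :^ g, a ∉ Z → ∃ z ∈ Z, ∃ b ∈ X :^ g, b ≠ 1 ∧ z * b = a := fun a ha aZ => by
      rw [← c.U_eq, conjg_sup, conjg_of_mem_norm (c.nZ hg)] at ha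
      obtain ⟨z, hz, b, hb, rfl⟩ := (mem_sup_of_right_le_norm ((conjg_le_of_mem c.XC hg).trans c.nZ)).1 ha
      exact ⟨z, hz, b, hb, fun e => aZ (by simpa [e] using hz), rfl⟩
    refine big2 oK inf_le_left (inf_le_left : K ⊓ U :^ g ≤ K) (D := Z) (fun e => zZ (mul_mem (e ⟨h, zT⟩) (e ⟨h, zT⟩)))
      (fun k => y1 (((hP.piGrp.piElt hy).eq_one (((piGrp_compl_singleton_iff c.hp).2 c.pZ).piElt
        (k ⟨hP.le hy, conjg_mono g (c.U_eq ▸ le_sup_right) (e hy)⟩))))) (c.tK oK hK) (fun a ha aZ k hk e => ⟨hk, ?_⟩)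
      fun a ha aZ k hk e => ?_
    · obtain ⟨z', hz, b, hb, b1, rfl⟩ := dec a ha.2 aZ
      have kb : k * b * k⁻¹ ∈ U :^ g := by
        have := e.2
        rw [conj_mul', ← c.cen z' hz k (hK hk), mul_inv_cancel_right] at this
        exact (mul_mem_cancel_left (conjg_of_mem_norm (c.nZ hg) ▸ conjg_mono g (c.U_eq ▸ le_sup_left) <| hz)).1 this
      have kN := nx g hg b hb b1 k (hK hk) ((c.sylX.of_le (c.U_eq ▸ le_sup_right) c.UC).conjg g |>.mem_of_normal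
        (conjg_le_norm_iff.2 (norm_of_cent c.UX)) (((c.sylX.piGrp.conjg g).piElt hb).conj k) kb)
      refine mem_of_coprime_relIndex (M := C ⊓ 𝒩(X :^ g)) ⟨hK hk, kN⟩ ?_ (Nat.coprime_of_dvd fun l hl d1 d2 => ?_)
      · rw [← c.cXC, conjg_inf, conjg_cent, conjg_of_mem hg]
        exact norm_inf (norm_cent inf_le_right) (norm_of_le inf_le_left)
      have e2 := card_mul_relIndex (le_inf c.UC (norm_of_cent c.UX))
      rw [c.kN, c.kU, c.kY, mul_assoc, mul_comm (q - 1)] at e2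
      rw [← conjg_norm, ← conjg_of_mem hg, ← conjg_inf, relIndex_conjg, Nat.eq_of_mul_eq_mul_left Nat.card_pos
        (Nat.eq_of_mul_eq_mul_left (by have := c.q3; omega) e2)] at d2
      have := d1.trans (orderOf_dvd_card_of_mem hk)
      exact c.core hl (oK l hl this) d2 oK hK this zT zZ (.inl h)
    · obtain ⟨z', hz, b, hb, b1, e⟩ := dec _ e.2 fun e => aZ (c.cjZ (hK hk) e)
      obtain ⟨b, hb', rfl⟩ := mem_conjg'.1 hb
      obtain ⟨l, hl, rfl⟩ := c.cjX b hb' (by rintro rfl; simp at b1)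
      refine c.TX z' hz (k⁻¹ * g * l) (mul_mem (mul_mem (inv_mem (hK hk)) hg) hl) ?_
      rw [show k⁻¹ * g * l * (z' * x) * (k⁻¹ * g * l)⁻¹ = k⁻¹ * (g * l * z' * (g * l)⁻¹ * (g * (l * x * l⁻¹) * g⁻¹)) * k
        by group, ← c.cen z' hz _ (mul_mem hg hl), mul_inv_cancel_right, e]
      simpa [mul_assoc] using ha.2
  · obtain ⟨P, hP, nP⟩ := sol_coprime_Sylow_exists c.hp (.inr (sol_zpowers z)) (zpowers_le.2 h')
      ((piGrp_zpowers_iff.2 h).coprime oK).symm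
    obtain ⟨g, hg, e, y, hy, y1⟩ := key P hP
    exact zZ (c.sq_of_norm zT hg (nx g hg y (e hy) y1 z (c.TC zT) (e (conj_mem_of_mem_norm (nP (mem_zpowers z)) hy))))

end LS

end CA.Bu
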